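import Mathlib
import Cfsg.Agent.Lib.Helper15.Count6

set_option autoImplicit false
open Cfsg

namespace Cfsg.Agent.Lib.Helper15

theorem zRec_zero_succ (q k : ℕ) (hq : 1 ≤ q) : zRec q 0 (k + 1) + q ^ k = q ^ (k + 1) + q ^ (2 * k + 1) := by
  have h := zRec_closed q 0 (k + 1) hq
  have h1 : q ^ (0 + (k + 1)) = q * q ^ k := by rw [zero_add, pow_succ]; ring
  have h2 : q ^ (k + 1 + 1) = q * q ^ (k + 1) := by rw [pow_succ q (k + 1)]; ring
  have h3 : q ^ (0 + 2 * (k + 1)) = q * q ^ (2 * k + 1) := by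
    rw [show 0 + 2 * (k + 1) = (2 * k + 1) + 1 by ring, pow_succ]; ring
  rw [h1, h2, h3, ← mul_add, ← mul_add] at h
  exact Nat.eq_of_mul_eq_mul_left hq h

theorem zRec_one (q m : ℕ) (hq : 1 ≤ q) : zRec q 1 m = q ^ (2 * m) := by
  have h := zRec_closed q 1 m hq
  have h1 : q ^ (1 + m) = q ^ (m + 1) := by rw [add_comm]
  have h3 : q ^ (1 + 2 * m) = q * q ^ (2 * m) := by rw [add_comm, pow_succ]; ring
  rw [h1, h3, add_comm] at h
  exact Nat.eq_of_mul_eq_mul_left hq (Nat.add_left_cancel h)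

theorem zRec_two (q m : ℕ) (hq : 1 ≤ q) : zRec q 2 m + q ^ (m + 1) = q ^ m + q ^ (2 * m + 1) := by
  have h := zRec_closed q 2 m hq
  have h1 : q ^ (2 + m) = q * q ^ (m + 1) := by
    rw [show 2 + m = (m + 1) + 1 by ring, pow_succ q (m + 1)]; ring
  have h2 : q ^ (m + 1) = q * q ^ m := by rw [pow_succ]; ring
  have h3 : q ^ (2 + 2 * m) = q * q ^ (2 * m + 1) := by
    rw [show 2 + 2 * m = (2 * m + 1) + 1 by ring, pow_succ]; ring
  rw [h1, h3] at h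
  nth_rewrite 2 [h2] at h
  rw [← mul_add, ← mul_add] at h
  exact Nat.eq_of_mul_eq_mul_left hq h

theorem zRec_zero_sub (q j : ℕ) (hq : 1 ≤ q) : zRec q 0 (j + 1) - 1 = (q ^ (j + 1) - 1) * (q ^ j + 1) := by
  have h := zRec_zero_succ q j hq
  have hA : 1 ≤ q ^ (j + 1) := Nat.one_le_pow _ _ hq
  obtain ⟨B, hB⟩ : ∃ B, q ^ (j + 1) = B + 1 := ⟨q ^ (j + 1) - 1, by omega⟩
  have h1 : q ^ (2 * j + 1) = q ^ (j + 1) * q ^ j := by rw [← pow_add]; congr 1; ring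
  rw [h1, hB] at h
  rw [hB, Nat.add_sub_cancel]
  have : zRec q 0 (j + 1) = B * (q ^ j + 1) + 1 := by nlinarith
  rw [this, Nat.add_sub_cancel]

theorem zRec_two_sub (q j : ℕ) (hq : 1 ≤ q) :
    zRec q 2 (j + 1) - 1 = (q ^ (j + 2) + 1) * (q ^ (j + 1) - 1) := by
  have h := zRec_two q (j + 1) hq
  have hA : 1 ≤ q ^ (j + 1) := Nat.one_le_pow _ _ hq
  obtain ⟨B, hB⟩ : ∃ B, q ^ (j + 1) = B + 1 := ⟨q ^ (j + 1) - 1, by omega⟩
  have h1 : q ^ (2 * (j + 1) + 1) = q ^ (j + 2) * q ^ (j + 1) := by rw [← pow_add]; congr 1; ring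
  rw [h1, hB] at h
  rw [hB, Nat.add_sub_cancel]
  have : zRec q 2 (j + 1) = (q ^ (j + 2) + 1) * B + 1 := by
    have h5 : j + 1 + 1 = j + 2 := rfl
    rw [h5] at h
    nlinarith
  rw [this, Nat.add_sub_cancel]

theorem pow_sub_one_mul (q k : ℕ) (hq : 1 ≤ q) : (q ^ k - 1) * (q ^ k + 1) = q ^ (2 * k) - 1 := by
  have hA : 1 ≤ q ^ k := Nat.one_le_pow _ _ hq
  obtain ⟨B, hB⟩ : ∃ B, q ^ k = B + 1 := ⟨q ^ k - 1, by omega⟩
  rw [two_mul, pow_add, hB, Nat.add_sub_cancel]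
  have : (B + 1) * (B + 1) = B * (B + 1 + 1) + 1 := by ring
  rw [this, Nat.add_sub_cancel]

theorem prod_plus (q k : ℕ) (hq : 1 ≤ q) :
    1 * ∏ j ∈ Finset.range (k + 1), ((zRec q 0 (j + 1) - 1) * q ^ (0 + 2 * j)) =
      2 * q ^ ((k + 1) * k) * (q ^ (k + 1) - 1) * ∏ i ∈ Finset.range k, (q ^ (2 * (i + 1)) - 1) := by
  induction k with
  | zero =>
    simp only [zero_add, Finset.prod_range_one, zRec_zero_sub q 0 hq]
    simp
    ring
  | succ k ih =>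
    rw [Finset.prod_range_succ, ← mul_assoc, ih, Finset.prod_range_succ _ k, zRec_zero_sub q (k + 1) hq,
      ← pow_sub_one_mul q (k + 1) hq]
    have h1 : q ^ ((k + 1 + 1) * (k + 1)) = q ^ ((k + 1) * k) * q ^ (0 + 2 * (k + 1)) := by
      rw [← pow_add]; congr 1; ring
    rw [h1]
    ring

theorem prod_minus (q k : ℕ) (hq : 1 ≤ q) :
    (2 * (q + 1)) * ∏ j ∈ Finset.range k, ((zRec q 2 (j + 1) - 1) * q ^ (2 + 2 * j)) =
      2 * q ^ ((k + 1) * k) * (q ^ (k + 1) + 1) * ∏ i ∈ Finset.range k, (q ^ (2 * (i + 1)) - 1) := by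
  induction k with
  | zero => simp
  | succ k ih =>
    rw [Finset.prod_range_succ, ← mul_assoc, ih, Finset.prod_range_succ _ k, zRec_two_sub q k hq,
      ← pow_sub_one_mul q (k + 1) hq]
    have h1 : q ^ ((k + 1 + 1) * (k + 1)) = q ^ ((k + 1) * k) * q ^ (2 + 2 * k) := by
      rw [← pow_add]; congr 1; ring
    rw [h1]
    ring

theorem prod_odd (q m : ℕ) (hq : 1 ≤ q) :
    2 * ∏ j ∈ Finset.range m, ((zRec q 1 (j + 1) - 1) * q ^ (1 + 2 * j)) =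
      2 * q ^ (m ^ 2) * ∏ i ∈ Finset.range m, (q ^ (2 * (i + 1)) - 1) := by
  induction m with
  | zero => simp
  | succ k ih =>
    rw [Finset.prod_range_succ, ← mul_assoc, ih, Finset.prod_range_succ _ k, zRec_one q (k + 1) hq]
    have h1 : q ^ ((k + 1) ^ 2) = q ^ (k ^ 2) * q ^ (1 + 2 * k) := by
      rw [← pow_add]; congr 1; ring
    rw [h1]
    ring

end Cfsg.Agent.Lib.Helper15
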