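import Mathlib

set_option autoImplicit false

namespace Cfsg.Agent.Lib.Helper15

section general

variable {G : Type*} [Group G]

theorem char_mem (H : Subgroup G) [hH : H.Characteristic] (φ : MulAut G) {x : G} (hx : x ∈ H) : φ x ∈ H := by
  have h := Subgroup.characteristic_iff_comap_eq.1 hH φ
  rw [← h] at hx
  exact hx

/-- restriction of automorphisms to a characteristic subgroup -/
def autRestrict (H : Subgroup G) [hH : H.Characteristic] : MulAut G →* MulAut H where
  toFun φ :=
    { toFun := fun h => ⟨φ h, char_mem H φ h.2⟩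
      invFun := fun h => ⟨φ⁻¹ h, char_mem H φ⁻¹ h.2⟩
      left_inv := fun h => Subtype.ext (by simp)
      right_inv := fun h => Subtype.ext (by simp)
      map_mul' := fun a b => Subtype.ext (by simp) }
  map_one' := by ext; rfl
  map_mul' := fun a b => by ext; rfl

theorem autRestrict_apply (H : Subgroup G) [hH : H.Characteristic] (φ : MulAut G) (h : H) :
    ((autRestrict H φ h : H) : G) = φ h := rfl

/-- automorphisms induced on the quotient by a characteristic subgroup -/
def autQuot (H : Subgroup G) [H.Normal] [hH : H.Characteristic] : MulAut G →* MulAut (G ⧸ H) where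
  toFun φ := QuotientGroup.congr H H φ (Subgroup.characteristic_iff_map_eq.1 hH φ)
  map_one' := by
    ext x
    induction x using QuotientGroup.induction_on
    rfl
  map_mul' := fun a b => by
    ext x
    induction x using QuotientGroup.induction_on
    rfl

theorem autQuot_mk (H : Subgroup G) [H.Normal] [hH : H.Characteristic] (φ : MulAut G) (x : G) :
    autQuot H φ (QuotientGroup.mk x) = QuotientGroup.mk (φ x) := rfl

/-- conjugation action of a subgroup `K` on a subgroup `N` it normalises -/
def conjSub (N K : Subgroup G) (h : ∀ k ∈ K, ∀ n ∈ N, k * n * k⁻¹ ∈ N) : K →* MulAut N where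
  toFun k :=
    { toFun := fun n => ⟨k * n * (k : G)⁻¹, h k k.2 n n.2⟩
      invFun := fun n => ⟨(k : G)⁻¹ * n * k, by simpa using h (k : G)⁻¹ (K.inv_mem k.2) n n.2⟩
      left_inv := fun n => Subtype.ext (by simp [mul_assoc])
      right_inv := fun n => Subtype.ext (by simp [mul_assoc])
      map_mul' := fun a b => Subtype.ext (by simp [mul_assoc]) }
  map_one' := by ext; simp
  map_mul' := fun a b => by ext; simp [mul_assoc]

theorem conjSub_apply (N K : Subgroup G) (h : ∀ k ∈ K, ∀ n ∈ N, k * n * k⁻¹ ∈ N) (k : K) (n : N) :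
    ((conjSub N K h k n : N) : G) = k * n * (k : G)⁻¹ := rfl

/-- the induced action on `N'/Z(N')` -/
def autP (N K : Subgroup G) (h : ∀ k ∈ K, ∀ n ∈ N, k * n * k⁻¹ ∈ N) :
    K →* MulAut (commutator N ⧸ Subgroup.center (commutator N)) :=
  (autQuot (Subgroup.center (commutator N))).comp ((autRestrict (commutator N)).comp (conjSub N K h))

theorem autP_mk (N K : Subgroup G) (h : ∀ k ∈ K, ∀ n ∈ N, k * n * k⁻¹ ∈ N) (k : K) (s : commutator N) :
    autP N K h k (QuotientGroup.mk s) = QuotientGroup.mk (autRestrict (commutator N) (conjSub N K h k) s) := rfl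

theorem coe_autP_rep (N K : Subgroup G) (h : ∀ k ∈ K, ∀ n ∈ N, k * n * k⁻¹ ∈ N) (k : K) (s : commutator N) :
    (((autRestrict (commutator N) (conjSub N K h k) s : commutator N) : N) : G) =
      k * ((s : N) : G) * (k : G)⁻¹ := rfl

/-- abstract version of "induced by conjugation" -/
def IndBy (N : Subgroup G) (k : G) (β : MulAut (commutator N ⧸ Subgroup.center (commutator N))) : Prop :=
  ∀ s s' : commutator N, ((s' : N) : G) = k * ((s : N) : G) * k⁻¹ → β (QuotientGroup.mk s) = QuotientGroup.mk s'

theorem indBy_iff (N K : Subgroup G) (h : ∀ k ∈ K, ∀ n ∈ N, k * n * k⁻¹ ∈ N) (k : K)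
    (β : MulAut (commutator N ⧸ Subgroup.center (commutator N))) :
    IndBy N (k : G) β ↔ β = autP N K h k := by
  constructor
  · intro hβ
    ext x
    induction x using QuotientGroup.induction_on with
    | H s =>
      rw [autP_mk]
      exact hβ s _ (coe_autP_rep N K h k s)
  · rintro rfl s s' hs
    rw [autP_mk]
    congr 1
    apply Subtype.ext
    apply Subtype.ext
    rw [coe_autP_rep, hs]

theorem closure_indBy (N K : Subgroup G) (h : ∀ k ∈ K, ∀ n ∈ N, k * n * k⁻¹ ∈ N) (S : Subgroup G)
    (hS : S ≤ K) :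
    Subgroup.closure {β : MulAut (commutator N ⧸ Subgroup.center (commutator N)) | ∃ g : G, g ∈ S ∧ IndBy N g β} =
      (S.subgroupOf K).map (autP N K h) := by
  have : {β : MulAut (commutator N ⧸ Subgroup.center (commutator N)) | ∃ g : G, g ∈ S ∧ IndBy N g β} =
      (((S.subgroupOf K).map (autP N K h) : Subgroup _) : Set _) := by
    ext β
    simp only [Set.mem_setOf_eq, SetLike.mem_coe, Subgroup.mem_map, Subgroup.mem_subgroupOf]
    constructor
    · rintro ⟨g, hg, hβ⟩
      exact ⟨⟨g, hS hg⟩, hg, ((indBy_iff N K h ⟨g, hS hg⟩ β).1 hβ).symm⟩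
    · rintro ⟨k, hk, rfl⟩
      exact ⟨k, hk, (indBy_iff N K h k _).2 rfl⟩
  rw [this, Subgroup.closure_eq]

/-- inner automorphisms are induced by `N'` -/
theorem inn_eq_map (N K : Subgroup G) (h : ∀ k ∈ K, ∀ n ∈ N, k * n * k⁻¹ ∈ N) (hNK : N ≤ K) :
    (MulAut.conj : (commutator N ⧸ Subgroup.center (commutator N)) →* _).range =
      ((((commutator N).map N.subtype)).subgroupOf K).map (autP N K h) := by
  ext β
  simp only [MonoidHom.mem_range, Subgroup.mem_map, Subgroup.mem_subgroupOf]
  constructor
  · rintro ⟨x, rfl⟩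
    induction x using QuotientGroup.induction_on with
    | H s =>
      refine ⟨⟨((s : N) : G), hNK (s : N).2⟩, ⟨(s : N), s.2, rfl⟩, ?_⟩
      ext y
      induction y using QuotientGroup.induction_on with
      | H t =>
        rw [autP_mk, MulAut.conj_apply]
        rfl
  · rintro ⟨k, ⟨n, hn, hnk⟩, rfl⟩
    refine ⟨QuotientGroup.mk ⟨n, hn⟩, ?_⟩
    ext y
    induction y using QuotientGroup.induction_on with
    | H t =>
      rw [autP_mk, MulAut.conj_apply]
      rw [← QuotientGroup.mk_mul, ← QuotientGroup.mk_inv, ← QuotientGroup.mk_mul]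
      congr 1
      apply Subtype.ext
      apply Subtype.ext
      rw [coe_autP_rep, ← hnk]
      rfl

end general

end Cfsg.Agent.Lib.Helper15
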