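import Mathlib
import Cfsg.Agent.Lib.Helper15.Ortho

set_option autoImplicit false
open Cfsg
open scoped Matrix

namespace Cfsg.Agent.Lib.Helper15

variable {κ μ : Type} [Fintype κ] [DecidableEq κ] [Fintype μ] [DecidableEq μ] {F : Type*} [Field F]

/-- block diagonal matrices as a monoid hom -/
def blockMatHom (κ μ : Type) [Fintype κ] [DecidableEq κ] [Fintype μ] [DecidableEq μ] (F : Type*) [Field F] :
    Matrix κ κ F × Matrix μ μ F →* Matrix (κ ⊕ μ) (κ ⊕ μ) F where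
  toFun p := Matrix.fromBlocks p.1 0 0 p.2
  map_one' := by simp
  map_mul' p q := by simp [Matrix.fromBlocks_multiply]

/-- block diagonal on general linear groups -/
def blockGLHom (κ μ : Type) [Fintype κ] [DecidableEq κ] [Fintype μ] [DecidableEq μ] (F : Type*) [Field F] :
    Matrix.GeneralLinearGroup κ F × Matrix.GeneralLinearGroup μ F →* Matrix.GeneralLinearGroup (κ ⊕ μ) F :=
  (Units.map (blockMatHom κ μ F)).comp MulEquiv.prodUnits.symm.toMonoidHom

theorem coe_blockGLHom (p : Matrix.GeneralLinearGroup κ F × Matrix.GeneralLinearGroup μ F) :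
    ((blockGLHom κ μ F p : Matrix.GeneralLinearGroup (κ ⊕ μ) F) : Matrix (κ ⊕ μ) (κ ⊕ μ) F) =
      Matrix.fromBlocks (p.1 : Matrix κ κ F) 0 0 (p.2 : Matrix μ μ F) := rfl

theorem fromBlocks_diag_mulVec_inl (A : Matrix κ κ F) (D : Matrix μ μ F) (v : κ ⊕ μ → F) :
    (Matrix.fromBlocks A 0 0 D *ᵥ v) ∘ Sum.inl = A *ᵥ (v ∘ Sum.inl) := by
  conv_lhs => rw [← Sum.elim_comp_inl_inr v, Matrix.fromBlocks_mulVec]
  simp

theorem fromBlocks_diag_mulVec_inr (A : Matrix κ κ F) (D : Matrix μ μ F) (v : κ ⊕ μ → F) :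
    (Matrix.fromBlocks A 0 0 D *ᵥ v) ∘ Sum.inr = D *ᵥ (v ∘ Sum.inr) := by
  conv_lhs => rw [← Sum.elim_comp_inl_inr v, Matrix.fromBlocks_mulVec]
  simp

/-- the orthogonal sum of two functions -/
abbrev sumForm (Q₁ : (κ → F) → F) (Q₂ : (μ → F) → F) : (κ ⊕ μ → F) → F :=
  fun v => Q₁ (v ∘ Sum.inl) + Q₂ (v ∘ Sum.inr)

/-- block diagonal embedding of the product of isometry groups -/
def blockIsoHom (Q₁ : (κ → F) → F) (Q₂ : (μ → F) → F) :
    isometryGroup F Q₁ × isometryGroup F Q₂ →* isometryGroup F (sumForm Q₁ Q₂) :=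
  ((blockGLHom κ μ F).comp (MonoidHom.prodMap (isometryGroup F Q₁).subtype (isometryGroup F Q₂).subtype)).codRestrict
    (isometryGroup F (sumForm Q₁ Q₂)) (by
      intro p
      rw [mem_isometryGroup]
      intro u
      simp only [MonoidHom.comp_apply, coe_blockGLHom, sumForm, fromBlocks_diag_mulVec_inl,
        fromBlocks_diag_mulVec_inr]
      simp only [MonoidHom.prodMap_def, MonoidHom.prod_apply, MonoidHom.comp_apply, MonoidHom.coe_fst,
        MonoidHom.coe_snd, Subgroup.subtype_apply]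
      rw [isometry_apply Q₁, isometry_apply Q₂])

theorem coe_blockIsoHom (Q₁ : (κ → F) → F) (Q₂ : (μ → F) → F) (p : isometryGroup F Q₁ × isometryGroup F Q₂) :
    (((blockIsoHom Q₁ Q₂ p : isometryGroup F (sumForm Q₁ Q₂)) : Matrix.GeneralLinearGroup (κ ⊕ μ) F) :
      Matrix (κ ⊕ μ) (κ ⊕ μ) F) =
      Matrix.fromBlocks ((p.1 : Matrix.GeneralLinearGroup κ F) : Matrix κ κ F) 0 0
        ((p.2 : Matrix.GeneralLinearGroup μ F) : Matrix μ μ F) := rfl

theorem map_mem_commutator {G H : Type*} [Group G] [Group H] (f : G →* H) {g : G} (hg : g ∈ commutator G) :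
    f g ∈ commutator H := by
  have h1 : f g ∈ (commutator G).map f := Subgroup.mem_map_of_mem f hg
  rw [commutator_def, Subgroup.map_commutator] at h1
  exact Subgroup.commutator_mono le_top le_top h1

theorem blockIso_mem_Omega (Q₁ : (κ → F) → F) (Q₂ : (μ → F) → F) (g₁ : isometryGroup F Q₁)
    (g₂ : isometryGroup F Q₂) (h₁ : g₁ ∈ Omega F Q₁) (h₂ : g₂ ∈ Omega F Q₂) :
    blockIsoHom Q₁ Q₂ (g₁, g₂) ∈ Omega F (sumForm Q₁ Q₂) := by
  have h : (g₁, g₂) = (MonoidHom.inl _ _ g₁) * (MonoidHom.inr _ _ g₂) := by simp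
  rw [h, map_mul]
  exact Subgroup.mul_mem _ (map_mem_commutator ((blockIsoHom Q₁ Q₂).comp (MonoidHom.inl _ _)) h₁)
    (map_mem_commutator ((blockIsoHom Q₁ Q₂).comp (MonoidHom.inr _ _)) h₂)

end Cfsg.Agent.Lib.Helper15
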