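import Mathlib
import Cfsg.Agent.Lib.Helper15.Central
import Cfsg.Agent.Lib.Helper15.OmegaIndex

set_option autoImplicit false

namespace Cfsg.Agent.Lib.Helper15

open Module QuadraticMap Cfsg Matrix

variable {F : Type*} [Field F] {ι : Type} [Fintype ι] [DecidableEq ι]

theorem eq_one_or_negI_of_commute [Fintype F] (Q : QuadraticForm F (ι → F))
    (hQ : (QuadraticMap.polarBilin Q).Nondegenerate) (hn : 5 ≤ Fintype.card ι) (z : isometryGroup F Q)
    (hz : ∀ g : isometryGroup F Q, g ∈ Omega F Q → z * g = g * z) : z = 1 ∨ z = negI Q := by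
  obtain ⟨c, hc⟩ := scalar_of_commute_Omega Q hQ hn ((z : Matrix.GeneralLinearGroup ι F) : Matrix ι ι F)
    (fun g hg => by
      have := congrArg (fun w : isometryGroup F Q => ((w : Matrix.GeneralLinearGroup ι F) : Matrix ι ι F))
        (hz g hg)
      simpa using this)
  obtain ⟨x, hx⟩ := exists_rep' Q hQ (by omega) 1
  have h1 := isometry_apply Q z x
  rw [hc, Matrix.smul_mulVec, Matrix.one_mulVec, QuadraticMap.map_smul, hx, smul_eq_mul, mul_one] at h1
  have h4 : (c - 1) * (c + 1) = 0 := by linear_combination h1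
  rcases mul_eq_zero.1 h4 with h5 | h5
  · left
    apply isometry_ext
    have : c = 1 := by linear_combination h5
    rw [hc, this, one_smul]; rfl
  · right
    apply isometry_ext
    have : c = -1 := by linear_combination h5
    rw [hc, this, coe_negI]; simp

theorem center_Omega_cases [Fintype F] (Q : QuadraticForm F (ι → F))
    (hQ : (QuadraticMap.polarBilin Q).Nondegenerate) (hn : 5 ≤ Fintype.card ι) (z : Omega F Q)
    (hz : z ∈ Subgroup.center (Omega F Q)) : (z : isometryGroup F Q) = 1 ∨ (z : isometryGroup F Q) = negI Q := by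
  apply eq_one_or_negI_of_commute Q hQ hn
  intro g hg
  have := (Subgroup.mem_center_iff.1 hz) ⟨g, hg⟩
  exact (congrArg Subtype.val this).symm

theorem card_center_of_not_mem [Fintype F] (Q : QuadraticForm F (ι → F))
    (hQ : (QuadraticMap.polarBilin Q).Nondegenerate) (hn : 5 ≤ Fintype.card ι)
    (h : negI Q ∉ Omega F Q ∨ negI Q = 1) : Nat.card (Subgroup.center (Omega F Q)) = 1 := by
  rw [Nat.card_eq_one_iff_unique]
  refine ⟨⟨fun a b => ?_⟩, ⟨1⟩⟩
  have key : ∀ a : Subgroup.center (Omega F Q), ((a : Omega F Q) : isometryGroup F Q) = 1 := by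
    intro a
    rcases center_Omega_cases Q hQ hn a a.2 with h1 | h1
    · exact h1
    · rcases h with h | h
      · exact absurd (h1 ▸ (a : Omega F Q).2) h
      · rw [h1, h]
  apply Subtype.ext
  apply Subtype.ext
  rw [key a, key b]

theorem negI_ne_one [Nonempty ι] (h2 : (2 : F) ≠ 0) (Q : QuadraticForm F (ι → F)) : negI Q ≠ 1 := by
  intro h
  have h1 := congrArg (fun w : isometryGroup F Q => ((w : Matrix.GeneralLinearGroup ι F) : Matrix ι ι F)) h
  simp only [coe_negI] at h1
  obtain ⟨i⟩ := ‹Nonempty ι›
  have h3 := congrFun (congrFun h1 i) i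
  simp only [Matrix.neg_apply, Matrix.one_apply_eq] at h3
  have h4 : ((1 : isometryGroup F Q) : Matrix.GeneralLinearGroup ι F).1 i i = 1 := by simp
  rw [h4] at h3
  apply h2
  linear_combination -h3

theorem card_center_of_mem [Fintype F] (h2 : (2 : F) ≠ 0) (Q : QuadraticForm F (ι → F))
    (hQ : (QuadraticMap.polarBilin Q).Nondegenerate) (hn : 5 ≤ Fintype.card ι)
    (h : negI Q ∈ Omega F Q) : Nat.card (Subgroup.center (Omega F Q)) = 2 := by
  have : Nonempty ι := Fintype.card_pos_iff.1 (by omega)
  rw [Nat.card_eq_two_iff]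
  refine ⟨1, ⟨⟨negI Q, h⟩, ?_⟩, ?_, ?_⟩
  · rw [Subgroup.mem_center_iff]
    intro g
    apply Subtype.ext
    exact (negI_comm Q g).symm
  · intro h1
    have := congrArg (fun w : Subgroup.center (Omega F Q) => ((w : Omega F Q) : isometryGroup F Q)) h1
    exact negI_ne_one h2 Q this.symm
  · rw [Set.eq_univ_iff_forall]
    intro a
    rcases center_Omega_cases Q hQ hn a a.2 with h1 | h1
    · left
      apply Subtype.ext
      apply Subtype.ext
      exact h1
    · right
      show a = _
      apply Subtype.ext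
      apply Subtype.ext
      exact h1

theorem card_POmega_mul (Q : (ι → F) → F) :
    Nat.card (POmega F Q) * Nat.card (Subgroup.center (Omega F Q)) * (Omega F Q).index =
      Nat.card (isometryGroup F Q) := by
  rw [← Subgroup.card_eq_card_quotient_mul_card_subgroup, Subgroup.card_mul_index]

theorem negI_notMem_of_odd (h2 : (2 : F) ≠ 0) (Q : QuadraticForm F (ι → F)) (hodd : Odd (Fintype.card ι)) :
    negI Q ∉ Omega F Q := by
  intro h
  have h1 : Omega F Q ≤ specialIsometryGroup F Q := by
    unfold specialIsometryGroup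
    exact Abelianization.commutator_subset_ker _
  have h3 := (mem_special_iff Q _).1 (h1 h)
  rw [coe_negI, Matrix.det_neg, Matrix.det_one, mul_one, hodd.neg_one_pow] at h3
  apply h2
  linear_combination -h3

end Cfsg.Agent.Lib.Helper15
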