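import Mathlib
import Cfsg.Agent.Lib.Helper23.Recog

set_option autoImplicit false

namespace Cfsg.Agent.Lib.Helper15

theorem units_prod_sq (c : ℤˣ × ℤˣ) : c * c = 1 :=
  Prod.ext (Int.units_mul_self _) (Int.units_mul_self _)

theorem not_mem_zpowers_of_chars {Γ : Type*} [Group Γ] (χ : Γ →* ℤˣ × ℤˣ) (x a : Γ)
    (hχx : χ x = (1, -1)) (hχa : (χ a).1 = -1) : x ∉ Subgroup.zpowers a := by
  rintro ⟨k, hk⟩
  have h1 : (χ a) ^ k = (1, -1) := by
    have : a ^ k = x := hk
    rw [← map_zpow, this, hχx]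
  rcases Int.even_or_odd k with ⟨j, rfl⟩ | ⟨j, rfl⟩
  · rw [zpow_add, units_prod_sq] at h1
    exact absurd h1 (by decide)
  · rw [zpow_add, two_mul, zpow_add, units_prod_sq, one_mul, zpow_one] at h1
    rw [h1] at hχa
    exact absurd hχa (by decide)

theorem dihedral_of_relations {Γ : Type*} [Group Γ] [Finite Γ] (hcard : Nat.card Γ = 8) (χ : Γ →* ℤˣ × ℤˣ)
    (x d : Γ) (hx : x * x = 1) (hχx : χ x = (1, -1)) (hχd : (χ d).1 = -1)
    (hcomm : x * (d * x * d⁻¹) = (d * x * d⁻¹) * x) (hne : x * (d * x * d⁻¹) ≠ 1)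
    (hd : d * d = 1 ∨ d * d = x * (d * x * d⁻¹)) : Nonempty (Γ ≃* DihedralGroup 4) := by
  obtain ⟨y, hy⟩ : ∃ y, y = d * x * d⁻¹ := ⟨_, rfl⟩
  rw [← hy] at hcomm hne hd
  have hdx : d * x = y * d := by rw [hy]; group
  have hyy : y * y = 1 := by
    rw [hy]
    calc d * x * d⁻¹ * (d * x * d⁻¹) = d * (x * x) * d⁻¹ := by group
      _ = 1 := by rw [hx]; group
  have hxy2 : (x * y) * (x * y) = 1 := by
    calc (x * y) * (x * y) = x * (y * x) * y := by group
      _ = x * (x * y) * y := by rw [hcomm]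
      _ = (x * x) * (y * y) := by group
      _ = 1 := by rw [hx, hyy, one_mul]
  have hxinv : x⁻¹ = x := inv_eq_of_mul_eq_one_right hx
  haveI : Fact (Nat.Prime 2) := ⟨Nat.prime_two⟩
  rcases hd with hd | hd
  · -- a = d * x
    have ha2 : (d * x) * (d * x) = x * y := by
      calc (d * x) * (d * x) = (y * d) * (d * x) := by rw [hdx]
        _ = y * (d * d) * x := by group
        _ = x * y := by rw [hd, mul_one, hcomm]
    refine Cfsg.Agent.Lib.Helper23.nonempty_mulEquiv_dihedralGroup 4 (d * x) x ?_ hx ?_ ?_ (by rw [hcard])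
    · have := orderOf_eq_prime_pow (x := d * x) (p := 2) (n := 1) (by
        rw [pow_one, pow_two, ha2]; exact hne) (by
        rw [show 2 ^ (1 + 1) = 2 + 2 by norm_num, pow_add, pow_two, ha2, hxy2])
      simpa using this
    · rw [hxinv, eq_inv_iff_mul_eq_one]
      calc x * (d * x) * x * (d * x) = x * d * (x * x) * d * x := by group
        _ = x * (d * d) * x := by rw [hx]; group
        _ = 1 := by rw [hd, mul_one, hx]
    · apply not_mem_zpowers_of_chars χ x (d * x) hχx
      rw [map_mul, hχx]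
      simp [hχd]
  · -- a = d
    refine Cfsg.Agent.Lib.Helper23.nonempty_mulEquiv_dihedralGroup 4 d x ?_ hx ?_ ?_ (by rw [hcard])
    · have := orderOf_eq_prime_pow (x := d) (p := 2) (n := 1) (by
        rw [pow_one, pow_two, hd]; exact hne) (by
        rw [show 2 ^ (1 + 1) = 2 + 2 by norm_num, pow_add, pow_two, hd, hxy2])
      simpa using this
    · rw [hxinv, eq_inv_iff_mul_eq_one]
      calc x * d * x * d = x * (d * x) * d := by group
        _ = x * (y * d) * d := by rw [hdx]
        _ = (x * y) * (d * d) := by group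
        _ = 1 := by rw [hd, hxy2]
    · exact not_mem_zpowers_of_chars χ x d hχx hχd

end Cfsg.Agent.Lib.Helper15
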