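import Mathlib
import Cfsg.Prelude.Def_GeometricClasses

set_option autoImplicit false
open Cfsg Matrix Module

namespace Cfsg.Agent.Lib.Helper15

section
variable {F : Type*} [Field F] {n t m : ℕ}

theorem mem_SL_iff_det (g : GL (Fin n) F) :
    g ∈ Geo.specialLinear (Fin n) F ↔ (g : Matrix (Fin n) (Fin n) F).det = 1 := by
  unfold Geo.specialLinear
  rw [MonoidHom.mem_ker, Units.ext_iff]
  rfl

/-- the element `v ↦ v + φ v • u` of the general linear group -/
noncomputable def glTv (φ : Dual F (Fin n → F)) (u : Fin n → F) (h : 1 + φ u ≠ 0) : GL (Fin n) F :=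
  Matrix.GeneralLinearGroup.mkOfDetNeZero (LinearMap.toMatrix' (LinearMap.transvection φ u))
    (by rw [LinearMap.det_toMatrix', LinearMap.transvection.det]; exact h)

theorem glTv_coe (φ : Dual F (Fin n → F)) (u : Fin n → F) (h : 1 + φ u ≠ 0) :
    (glTv φ u h : Matrix (Fin n) (Fin n) F) = LinearMap.toMatrix' (LinearMap.transvection φ u) := rfl

theorem glTv_apply (φ : Dual F (Fin n → F)) (u : Fin n → F) (h : 1 + φ u ≠ 0) (v : Fin n → F) :
    Matrix.toLin' (glTv φ u h : Matrix (Fin n) (Fin n) F) v = v + φ v • u := by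
  rw [glTv_coe, Matrix.toLin'_toMatrix']
  rfl

theorem glTv_det (φ : Dual F (Fin n → F)) (u : Fin n → F) (h : 1 + φ u ≠ 0) :
    (glTv φ u h : Matrix (Fin n) (Fin n) F).det = 1 + φ u := by
  rw [glTv_coe, LinearMap.det_toMatrix', LinearMap.transvection.det]

/-- the span of the members other than the `i`-th -/
def compD (D : Fin t → Submodule F (Fin n → F)) (i : Fin t) : Submodule F (Fin n → F) :=
  ⨆ (j : Fin t) (_ : j ≠ i), D j

theorem map_compD {D : Fin t → Submodule F (Fin n → F)} {f : (Fin n → F) →ₗ[F] (Fin n → F)}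
    {σ : Equiv.Perm (Fin t)} (h : ∀ i, (D i).map f = D (σ i)) (i : Fin t) :
    (compD D i).map f = compD D (σ i) := by
  unfold compD
  simp only [Submodule.map_iSup, h]
  apply le_antisymm
  · exact iSup₂_le fun j hj => le_iSup₂_of_le (σ j) (fun h' => hj (σ.injective h')) le_rfl
  · refine iSup₂_le fun j hj => le_iSup₂_of_le (σ.symm j) (fun h' => hj ?_) (by simp)
    rw [← h', Equiv.apply_symm_apply]

open Classical in
/-- the number of nonzero components -/
noncomputable def wtD (D : Fin t → Submodule F (Fin n → F)) (v : Fin n → F) : ℕ :=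
  (Finset.univ.filter (fun i => v ∉ compD D i)).card

theorem toLin_inj (g : GL (Fin n) F) : Function.Injective (Matrix.toLin' (g : Matrix (Fin n) (Fin n) F)) := by
  intro x y h
  have := congrArg (Matrix.toLin' ((g⁻¹ : GL (Fin n) F) : Matrix (Fin n) (Fin n) F)) h
  simpa only [← LinearMap.comp_apply, ← Matrix.toLin'_mul, ← Units.val_mul, inv_mul_cancel, Units.val_one,
    Matrix.toLin'_one, LinearMap.id_apply] using this

theorem wtD_map {D : Fin t → Submodule F (Fin n → F)} {g : GL (Fin n) F}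
    (hg : g ∈ Geo.decompositionStabilizer D) (v : Fin n → F) :
    wtD D (Matrix.toLin' (g : Matrix (Fin n) (Fin n) F) v) = wtD D v := by
  classical
  obtain ⟨σ, hσ⟩ := hg
  unfold wtD
  symm
  apply Finset.card_equiv σ
  intro i
  simp only [Finset.mem_filter, Finset.mem_univ, true_and]
  rw [← map_compD hσ i, Submodule.mem_map]
  constructor
  · rintro h ⟨y, hy, hyv⟩
    exact h (toLin_inj g hyv ▸ hy)
  · intro h hv
    exact h ⟨v, hv, rfl⟩

theorem dec_not_max_of (D : Fin t → Submodule F (Fin n → F)) (k s : GL (Fin n) F)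
    (hk1 : k ∈ Geo.specialLinear (Fin n) F) (hs1 : s ∈ Geo.specialLinear (Fin n) F)
    (hk : ∀ v, (wtD D (Matrix.toLin' (k : Matrix (Fin n) (Fin n) F) v) : F) = wtD D v)
    (hk2 : k ∉ Geo.decompositionStabilizer D)
    (v1 : Fin n → F) (hv1 : (wtD D (Matrix.toLin' (s : Matrix (Fin n) (Fin n) F) v1) : F) ≠ wtD D v1) :
    ∃ K : Subgroup (GL (Fin n) F), Geo.decompositionStabilizer D ⊓ Geo.specialLinear (Fin n) F < K ∧
      K < Geo.specialLinear (Fin n) F := by
  let K' : Subgroup (GL (Fin n) F) :=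
    { carrier := {g | ∀ v, (wtD D (Matrix.toLin' (g : Matrix (Fin n) (Fin n) F) v) : F) = wtD D v}
      one_mem' := fun v => by simp
      mul_mem' := fun {a b} ha hb v => by
        rw [Units.val_mul, Matrix.toLin'_mul, LinearMap.comp_apply, ha, hb]
      inv_mem' := fun {a} ha v => by
        rw [← ha (Matrix.toLin' ((a⁻¹ : GL (Fin n) F) : Matrix (Fin n) (Fin n) F) v), ← LinearMap.comp_apply,
          ← Matrix.toLin'_mul, ← Units.val_mul, mul_inv_cancel, Units.val_one, Matrix.toLin'_one,
          LinearMap.id_apply] }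
  refine ⟨K' ⊓ Geo.specialLinear (Fin n) F, ?_, ?_⟩
  · apply lt_of_le_of_ne
    · exact inf_le_inf_right _ fun g hg v => by rw [wtD_map hg]
    · intro h
      have : k ∈ K' ⊓ Geo.specialLinear (Fin n) F := ⟨hk, hk1⟩
      rw [← h] at this
      exact hk2 this.1
  · apply lt_of_le_of_ne inf_le_right
    intro h
    rw [← h] at hs1
    exact hv1 (hs1.1 v1)

end

end Cfsg.Agent.Lib.Helper15
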