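import Mathlib
import Cfsg.Agent.Lib.Helper15.DecNM1

set_option autoImplicit false
open Cfsg Matrix Module

namespace Cfsg.Agent.Lib.Helper15

section
variable {F : Type*} [Field F] {n t m : ℕ} {D : Fin t → Submodule F (Fin n → F)}

theorem exists_adBasis (hD : Geo.IsMDecomposition m D) :
    ∃ b : Basis (Σ _ : Fin t, Fin m) F (Fin n → F), (∀ i a, b ⟨i, a⟩ ∈ D i) ∧
      (∀ i j a x, x ∈ D i → i ≠ j → b.repr x ⟨j, a⟩ = 0) := by
  have hI := DirectSum.isInternal_submodule_of_iSupIndep_of_iSup_eq_top hD.indep hD.iSup_eq_top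
  have v : ∀ i, Basis (Fin m) F (D i) := fun i => Module.finBasisOfFinrankEq F (D i) (hD.finrank_eq i)
  exact ⟨hI.collectedBasis (α := fun _ => Fin m) v, fun i a => hI.collectedBasis_mem v ⟨i, a⟩,
    fun i j a x hx hij => hI.collectedBasis_repr_of_mem_ne v hij hx⟩

variable (b : Basis (Σ _ : Fin t, Fin m) F (Fin n → F)) (h1 : ∀ i a, b ⟨i, a⟩ ∈ D i)
  (h2 : ∀ i j a x, x ∈ D i → i ≠ j → b.repr x ⟨j, a⟩ = 0)

include h1 h2 in
theorem mem_compD_iff (i : Fin t) (v : Fin n → F) : v ∈ compD D i ↔ ∀ a, b.repr v ⟨i, a⟩ = 0 := by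
  constructor
  · intro hv a
    have : compD D i ≤ LinearMap.ker (b.coord ⟨i, a⟩) := iSup₂_le fun j hj x hx => by
      rw [LinearMap.mem_ker, Basis.coord_apply]
      exact h2 j i a x hx hj
    have h3 := this hv
    rwa [LinearMap.mem_ker, Basis.coord_apply] at h3
  · intro h
    rw [← b.sum_repr v]
    apply Submodule.sum_mem
    rintro ⟨j, a⟩ -
    by_cases hj : j = i
    · subst hj
      rw [h a, zero_smul]
      exact zero_mem _
    · exact Submodule.smul_mem _ _ (Submodule.mem_iSup_of_mem j (Submodule.mem_iSup_of_mem hj (h1 j a)))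

open Classical in
include h1 h2 in
theorem wtD_cast (v : Fin n → F) :
    (wtD D v : F) = ∑ i, if (∀ a, b.repr v ⟨i, a⟩ = 0) then 0 else 1 := by
  unfold wtD
  rw [Finset.card_filter, Nat.cast_sum]
  apply Finset.sum_congr rfl
  intro i _
  by_cases h : v ∈ compD D i
  · rw [if_neg (not_not.2 h), if_pos ((mem_compD_iff b h1 h2 i v).1 h), Nat.cast_zero]
  · rw [if_pos h, if_neg (fun h' => h ((mem_compD_iff b h1 h2 i v).2 h')), Nat.cast_one]

theorem repr_bb (x y : Σ _ : Fin t, Fin m) : b.repr (b x) y = if x = y then 1 else 0 := by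
  rw [Basis.repr_self, Finsupp.single_apply]

theorem repr_glTv (φ : Dual F (Fin n → F)) (u : Fin n → F) (h : 1 + φ u ≠ 0) (v : Fin n → F)
    (x : Σ _ : Fin t, Fin m) :
    b.repr (Matrix.toLin' (glTv φ u h : Matrix (Fin n) (Fin n) F) v) x = b.repr v x + φ v * b.repr u x := by
  rw [glTv_apply, map_add, map_smul, Finsupp.add_apply, Finsupp.smul_apply, smul_eq_mul]

include h2 in
theorem not_mem_stab (g : GL (Fin n) F) (x : Fin n → F) (i0 : Fin t) (hx : x ∈ D i0) (i1 i2 : Fin t)
    (a a' : Fin m) (h12 : i1 ≠ i2)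
    (hc1 : b.repr (Matrix.toLin' (g : Matrix (Fin n) (Fin n) F) x) ⟨i1, a⟩ ≠ 0)
    (hc2 : b.repr (Matrix.toLin' (g : Matrix (Fin n) (Fin n) F) x) ⟨i2, a'⟩ ≠ 0) :
    g ∉ Geo.decompositionStabilizer D := by
  rintro ⟨σ, hσ⟩
  have : Matrix.toLin' (g : Matrix (Fin n) (Fin n) F) x ∈ D (σ i0) := hσ i0 ▸ Submodule.mem_map_of_mem hx
  by_cases h : σ i0 = i1
  · exact hc2 (h2 _ _ _ _ this (h ▸ h12))
  · exact hc1 (h2 _ _ _ _ this h)

include h1 h2 in
theorem exists_outside (i0 i1 : Fin t) (h01 : i0 ≠ i1) (a0 : Fin m) :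
    ∃ s ∈ Geo.specialLinear (Fin n) F, ∃ v1 : Fin n → F,
      (wtD D (Matrix.toLin' (s : Matrix (Fin n) (Fin n) F) v1) : F) ≠ wtD D v1 := by
  classical
  have hne : (⟨i0, a0⟩ : Σ _ : Fin t, Fin m) ≠ ⟨i1, a0⟩ := fun h => h01 (congrArg Sigma.fst h)
  have h0 : b.coord ⟨i1, a0⟩ (b ⟨i0, a0⟩) = 0 := by
    rw [Basis.coord_apply, repr_bb, if_neg hne]
  have h3 : 1 + b.coord ⟨i1, a0⟩ (b ⟨i0, a0⟩) ≠ 0 := by rw [h0, add_zero]; exact one_ne_zero
  refine ⟨glTv (b.coord ⟨i1, a0⟩) (b ⟨i0, a0⟩) h3, ?_, b ⟨i1, a0⟩, ?_⟩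
  · rw [mem_SL_iff_det, glTv_det, h0, add_zero]
  · have e1 : (wtD D (b ⟨i1, a0⟩) : F) = 1 := by
      rw [wtD_cast b h1 h2]
      rw [Finset.sum_eq_single i1]
      · rw [if_neg]
        intro h
        have := h a0
        rw [repr_bb, if_pos rfl] at this
        exact one_ne_zero this
      · intro i _ hi
        rw [if_pos]
        intro a
        rw [repr_bb, if_neg]
        exact fun h => hi (congrArg Sigma.fst h).symm
      · simp
    have e2 : (wtD D (Matrix.toLin' (glTv (b.coord ⟨i1, a0⟩) (b ⟨i0, a0⟩) h3 : Matrix (Fin n) (Fin n) F)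
        (b ⟨i1, a0⟩)) : F) = 2 := by
      rw [wtD_cast b h1 h2]
      have : ∀ i ∈ (Finset.univ : Finset (Fin t)),
          (if (∀ a, b.repr (Matrix.toLin' (glTv (b.coord ⟨i1, a0⟩) (b ⟨i0, a0⟩) h3 :
            Matrix (Fin n) (Fin n) F) (b ⟨i1, a0⟩)) ⟨i, a⟩ = 0) then (0 : F) else 1) =
          (if i = i1 then 1 else 0) + (if i = i0 then 1 else 0) := by
        intro i _
        simp only [repr_glTv, Basis.coord_apply, repr_bb, if_true, one_mul]
        by_cases hi1 : i = i1
        · subst hi1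
          rw [if_neg, if_pos rfl, if_neg (Ne.symm h01), add_zero]
          intro h
          have := h a0
          rw [if_pos rfl, if_neg hne, add_zero] at this
          exact one_ne_zero this
        by_cases hi0 : i = i0
        · subst hi0
          rw [if_neg, if_neg hi1, if_pos rfl, zero_add]
          intro h
          have := h a0
          rw [if_pos rfl, if_neg (Ne.symm hne), zero_add] at this
          exact one_ne_zero this
        · rw [if_pos, if_neg hi1, if_neg hi0, add_zero]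
          intro a
          rw [if_neg, if_neg, add_zero]
          · exact fun h => hi0 (congrArg Sigma.fst h).symm
          · exact fun h => hi1 (congrArg Sigma.fst h).symm
      rw [Finset.sum_congr rfl this, Finset.sum_add_distrib]
      simp only [Finset.sum_ite_eq', Finset.mem_univ, if_true]
      norm_num
    rw [e1, e2]
    intro h
    have : (1 : F) = 0 := by linear_combination h
    exact one_ne_zero this

/-- sum of basis vectors over `I` -/
noncomputable def uI (I : Finset (Fin t)) (a0 : Fin m) : Fin n → F := ∑ i ∈ I, b ⟨i, a0⟩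

/-- sum of coordinate functionals over `I` -/
noncomputable def phiI (I : Finset (Fin t)) (a1 : Fin m) : Dual F (Fin n → F) := ∑ i ∈ I, b.coord ⟨i, a1⟩

theorem repr_uI (I : Finset (Fin t)) (a0 : Fin m) (j : Fin t) (a : Fin m) :
    b.repr (uI b I a0) ⟨j, a⟩ = if (j ∈ I ∧ a = a0) then 1 else 0 := by
  classical
  unfold uI
  rw [map_sum, Finsupp.finsetSum_apply]
  simp only [repr_bb, Sigma.mk.inj_iff, heq_eq_eq]
  by_cases ha : a = a0
  · subst ha
    simp
  · have : ¬ a0 = a := fun h => ha h.symm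
    simp [ha, this]

theorem phiI_apply (I : Finset (Fin t)) (a1 : Fin m) (v : Fin n → F) :
    phiI b I a1 v = ∑ i ∈ I, b.repr v ⟨i, a1⟩ := by
  unfold phiI
  rw [LinearMap.sum_apply]
  rfl

theorem phiI_uI (I : Finset (Fin t)) (a1 a0 : Fin m) :
    phiI b I a1 (uI b I a0) = if a1 = a0 then (I.card : F) else 0 := by
  rw [phiI_apply]
  simp only [repr_uI]
  by_cases h : a1 = a0
  · rw [if_pos h, Finset.sum_congr rfl (fun i hi => if_pos ⟨hi, h⟩)]
    simp
  · rw [if_neg h, Finset.sum_congr rfl (fun i hi => if_neg (fun h' => h h'.2))]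
    simp

end

end Cfsg.Agent.Lib.Helper15
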