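import Mathlib
import Cfsg.Agent.Lib.Helper15.DecNM2

set_option autoImplicit false
open Cfsg Matrix Module

namespace Cfsg.Agent.Lib.Helper15

theorem sum_sq_char_two {F ι : Type*} [Field F] (h2 : (2 : F) = 0) (I : Finset ι) (c : ι → F) :
    (∑ i ∈ I, c i) ^ 2 = ∑ i ∈ I, (c i) ^ 2 := by
  classical
  induction I using Finset.induction_on with
  | empty => simp
  | insert a s ha ih =>
    rw [Finset.sum_insert ha, Finset.sum_insert ha, ← ih]
    linear_combination (c a * ∑ i ∈ s, c i) * h2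

theorem key_poly {F ι : Type*} [Field F] [Fintype F] (hq : Fintype.card F ≤ 4) (I : Finset ι)
    (hI : I.card = 4) (c : ι → F) :
    ∑ i ∈ I, (c i + ∑ j ∈ I, c j) ^ (Fintype.card F - 1) = ∑ i ∈ I, (c i) ^ (Fintype.card F - 1) := by
  have h1 : 1 < Fintype.card F := Fintype.one_lt_card
  have h0 : ((Fintype.card F : ℕ) : F) = 0 := Nat.cast_card_eq_zero F
  obtain ⟨s, hs⟩ : ∃ s, s = ∑ j ∈ I, c j := ⟨_, rfl⟩
  rw [← hs]
  obtain ⟨q, hq'⟩ : ∃ q, q = Fintype.card F := ⟨_, rfl⟩
  rw [← hq'] at hq h1 h0 ⊢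
  interval_cases q
  · have h2 : (2 : F) = 0 := by exact_mod_cast h0
    simp only [Nat.reduceSub, pow_one]
    rw [Finset.sum_add_distrib, Finset.sum_const, hI, nsmul_eq_mul]
    push_cast
    linear_combination 2 * s * h2
  · have h3 : (3 : F) = 0 := by exact_mod_cast h0
    have : ∀ i ∈ I, (c i + s) ^ 2 = (c i) ^ 2 + (2 * s) * c i + s ^ 2 := fun i _ => by ring
    simp only [Nat.reduceSub]
    rw [Finset.sum_congr rfl this, Finset.sum_add_distrib, Finset.sum_add_distrib, ← Finset.mul_sum, ← hs,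
      Finset.sum_const, hI, nsmul_eq_mul]
    push_cast
    linear_combination 2 * s ^ 2 * h3
  · have h4 : (4 : F) = 0 := by exact_mod_cast h0
    have h2 : (2 : F) = 0 := by
      have : (2 : F) ^ 2 = 0 := by linear_combination h4
      exact pow_eq_zero_iff (two_ne_zero) |>.1 this
    have : ∀ i ∈ I, (c i + s) ^ 3 = (c i) ^ 3 + (3 * s) * (c i) ^ 2 + (3 * s ^ 2) * c i + s ^ 3 :=
      fun i _ => by ring
    simp only [Nat.reduceSub]
    rw [Finset.sum_congr rfl this, Finset.sum_add_distrib, Finset.sum_add_distrib, Finset.sum_add_distrib,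
      ← Finset.mul_sum, ← Finset.mul_sum, ← hs, ← sum_sq_char_two h2, ← hs, Finset.sum_const, hI, nsmul_eq_mul]
    push_cast
    linear_combination (5 * s ^ 3) * h2

theorem six_eq_zero {F : Type*} [Field F] [Fintype F] (hq : Fintype.card F ≤ 4) : (6 : F) = 0 := by
  have h1 : 1 < Fintype.card F := Fintype.one_lt_card
  have h0 : ((Fintype.card F : ℕ) : F) = 0 := Nat.cast_card_eq_zero F
  obtain ⟨q, hq'⟩ : ∃ q, q = Fintype.card F := ⟨_, rfl⟩
  rw [← hq'] at hq h1 h0
  interval_cases q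
  · have h2 : (2 : F) = 0 := by exact_mod_cast h0
    linear_combination 3 * h2
  · have h3 : (3 : F) = 0 := by exact_mod_cast h0
    linear_combination 2 * h3
  · have h4 : (4 : F) = 0 := by exact_mod_cast h0
    have h2 : (2 : F) = 0 := by
      have : (2 : F) ^ 2 = 0 := by linear_combination h4
      exact pow_eq_zero_iff (two_ne_zero) |>.1 this
    linear_combination 3 * h2

section
variable {F : Type*} [Field F] [Fintype F] {n t : ℕ} {D : Fin t → Submodule F (Fin n → F)}

section one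
variable (b : Basis (Σ _ : Fin t, Fin 1) F (Fin n → F)) (h1 : ∀ i a, b ⟨i, a⟩ ∈ D i)
  (h2 : ∀ i j a x, x ∈ D i → i ≠ j → b.repr x ⟨j, a⟩ = 0)

include h1 h2 in
theorem wtD_one (v : Fin n → F) : (wtD D v : F) = ∑ i, (b.repr v ⟨i, 0⟩) ^ (Fintype.card F - 1) := by
  classical
  rw [wtD_cast b h1 h2]
  apply Finset.sum_congr rfl
  intro i _
  have hc : 1 < Fintype.card F := Fintype.one_lt_card
  by_cases h : b.repr v ⟨i, 0⟩ = 0
  · rw [if_pos (fun a => by rw [Subsingleton.elim a 0]; exact h), h, zero_pow (by omega)]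
  · rw [if_neg (fun h' => h (h' 0)), FiniteField.pow_card_sub_one_eq_one _ h]

include h1 h2 in
theorem wtD_T_one (hq : Fintype.card F ≤ 4) (I : Finset (Fin t)) (hI : I.card = 4)
    (hne : 1 + phiI b I 0 (uI b I 0) ≠ 0) (v : Fin n → F) :
    (wtD D (Matrix.toLin' (glTv (phiI b I 0) (uI b I 0) hne : Matrix (Fin n) (Fin n) F) v) : F) = wtD D v := by
  classical
  rw [wtD_one b h1 h2, wtD_one b h1 h2]
  simp only [repr_glTv, repr_uI, and_true, phiI_apply]
  rw [← Finset.sum_add_sum_compl I, ← Finset.sum_add_sum_compl I (fun i => (b.repr v ⟨i, 0⟩) ^ (Fintype.card F - 1))]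
  congr 1
  · refine Eq.trans ?_ (key_poly hq I hI (fun i => b.repr v ⟨i, 0⟩))
    exact Finset.sum_congr rfl (fun i hi => by rw [if_pos hi, mul_one])
  · exact Finset.sum_congr rfl (fun i hi => by rw [if_neg (Finset.mem_compl.1 hi), mul_zero, add_zero])

end one

end

end Cfsg.Agent.Lib.Helper15
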