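import Mathlib
import Cfsg.Agent.Lib.Helper15.DecNM3

set_option autoImplicit false
open Cfsg Matrix Module

namespace Cfsg.Agent.Lib.Helper15

theorem phiI_b {F : Type*} [Field F] {n t m : ℕ} (b : Basis (Σ _ : Fin t, Fin m) F (Fin n → F))
    (I : Finset (Fin t)) (a1 : Fin m) (j : Fin t) (a : Fin m) :
    phiI b I a1 (b ⟨j, a⟩) = if (j ∈ I ∧ a = a1) then 1 else 0 := by
  classical
  rw [phiI_apply]
  simp only [repr_bb, Sigma.mk.inj_iff, heq_eq_eq]
  by_cases ha : a = a1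
  · subst ha
    simp
  · simp [ha]

section
variable {F : Type*} [Field F] [Fintype F] {n t : ℕ} {D : Fin t → Submodule F (Fin n → F)}

theorem dec_one_not_max (hn : 13 ≤ n) (hD : Geo.IsMDecomposition 1 D) (hq : Fintype.card F ≤ 4) :
    ∃ K : Subgroup (GL (Fin n) F), Geo.decompositionStabilizer D ⊓ Geo.specialLinear (Fin n) F < K ∧
      K < Geo.specialLinear (Fin n) F := by
  classical
  obtain ⟨b, h1, h2⟩ := exists_adBasis hD
  have ht : n = t := by
    have := Module.finrank_eq_card_basis b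
    simpa using this
  have h6 := six_eq_zero hq
  obtain ⟨J, -, hJ⟩ := Finset.exists_subset_card_eq (s := (Finset.univ : Finset (Fin t))) (n := 8)
    (by simp; omega)
  obtain ⟨I1, hI1J, hI1⟩ := Finset.exists_subset_card_eq (s := J) (n := 4) (by omega)
  have hI2 : (J \ I1).card = 4 := by rw [Finset.card_sdiff_of_subset hI1J]; omega
  obtain ⟨I2, hI2'⟩ : ∃ I2, I2 = J \ I1 := ⟨_, rfl⟩
  rw [← hI2'] at hI2
  have hφ : ∀ I : Finset (Fin t), I.card = 4 → phiI b I 0 (uI b I 0) = 4 := fun I hI => by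
    rw [phiI_uI, if_pos rfl, hI]; norm_num
  have hne : ∀ I : Finset (Fin t), I.card = 4 → 1 + phiI b I 0 (uI b I 0) ≠ 0 := fun I hI => by
    rw [hφ I hI]
    intro h
    exact one_ne_zero (by linear_combination h6 - h : (1 : F) = 0)
  obtain ⟨i0, hi0, i1, hi1, i2, hi2, h01, h02, h12⟩ := Finset.two_lt_card.1 (by omega : 2 < I1.card)
  obtain ⟨s, hs, v1, hv1⟩ := exists_outside b h1 h2 i0 i1 h01 0
  refine dec_not_max_of D (glTv _ _ (hne I1 hI1) * glTv _ _ (hne I2 hI2)) s ?_ hs ?_ ?_ v1 hv1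
  · rw [mem_SL_iff_det, Units.val_mul, Matrix.det_mul, glTv_det, glTv_det, hφ I1 hI1, hφ I2 hI2]
    linear_combination 4 * h6
  · intro v
    rw [Units.val_mul, Matrix.toLin'_mul, LinearMap.comp_apply, wtD_T_one b h1 h2 hq I1 hI1,
      wtD_T_one b h1 h2 hq I2 hI2]
  · have hi0' : i0 ∉ I2 := by rw [hI2']; simp [hi0]
    have e2 : Matrix.toLin' (glTv _ _ (hne I2 hI2) : Matrix (Fin n) (Fin n) F) (b ⟨i0, 0⟩) = b ⟨i0, 0⟩ := by
      rw [glTv_apply, phiI_b, if_neg (fun h => hi0' h.1), zero_smul, add_zero]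
    apply not_mem_stab b h2 _ (b ⟨i0, 0⟩) i0 (h1 i0 0) i1 i2 0 0 h12
    · rw [Units.val_mul, Matrix.toLin'_mul, LinearMap.comp_apply, e2, repr_glTv, phiI_b, if_pos ⟨hi0, rfl⟩,
        one_mul, repr_bb, if_neg (fun h => h01 (congrArg Sigma.fst h)), repr_uI, if_pos ⟨hi1, rfl⟩, zero_add]
      exact one_ne_zero
    · rw [Units.val_mul, Matrix.toLin'_mul, LinearMap.comp_apply, e2, repr_glTv, phiI_b, if_pos ⟨hi0, rfl⟩,
        one_mul, repr_bb, if_neg (fun h => h02 (congrArg Sigma.fst h)), repr_uI, if_pos ⟨hi2, rfl⟩, zero_add]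
      exact one_ne_zero

theorem f2_cases (hq : Fintype.card F = 2) (x : F) : x = 0 ∨ x = 1 := by
  have h := FiniteField.pow_card x
  rw [hq] at h
  have : x * (x - 1) = 0 := by linear_combination h
  rcases mul_eq_zero.1 this with h | h
  · exact Or.inl h
  · exact Or.inr (by linear_combination h)

theorem f2_two (hq : Fintype.card F = 2) : (2 : F) = 0 := by
  have h0 : ((Fintype.card F : ℕ) : F) = 0 := Nat.cast_card_eq_zero F
  rw [hq] at h0
  exact_mod_cast h0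

section two
variable (b : Basis (Σ _ : Fin t, Fin 2) F (Fin n → F)) (h1 : ∀ i a, b ⟨i, a⟩ ∈ D i)
  (h2 : ∀ i j a x, x ∈ D i → i ≠ j → b.repr x ⟨j, a⟩ = 0)

include h1 h2 in
theorem wtD_two (hq : Fintype.card F = 2) (v : Fin n → F) :
    (wtD D v : F) = ∑ i, (b.repr v ⟨i, 0⟩ + b.repr v ⟨i, 1⟩ + b.repr v ⟨i, 0⟩ * b.repr v ⟨i, 1⟩) := by
  classical
  rw [wtD_cast b h1 h2]
  apply Finset.sum_congr rfl
  intro i _
  have h2' := f2_two hq
  simp only [Fin.forall_fin_two]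
  rcases f2_cases hq (b.repr v ⟨i, 0⟩) with hx | hx <;> rcases f2_cases hq (b.repr v ⟨i, 1⟩) with hy | hy <;>
    rw [hx, hy]
  · simp
  · simp
  · simp
  · simp
    linear_combination h2'

include h1 h2 in
theorem wtD_T_two (hq : Fintype.card F = 2) (I : Finset (Fin t)) (hI : I.card = 3)
    (hne : 1 + phiI b I 1 (uI b I 0) ≠ 0) (v : Fin n → F) :
    (wtD D (Matrix.toLin' (glTv (phiI b I 1) (uI b I 0) hne : Matrix (Fin n) (Fin n) F) v) : F) = wtD D v := by
  classical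
  have h2' := f2_two hq
  rw [wtD_two b h1 h2 hq, wtD_two b h1 h2 hq]
  obtain ⟨s, hs⟩ : ∃ s, s = phiI b I 1 v := ⟨_, rfl⟩
  have hs' := hs
  rw [phiI_apply] at hs'
  simp only [repr_glTv, repr_uI, ← hs]
  rw [← Finset.sum_add_sum_compl I, ← Finset.sum_add_sum_compl I
    (fun i => b.repr v ⟨i, 0⟩ + b.repr v ⟨i, 1⟩ + b.repr v ⟨i, 0⟩ * b.repr v ⟨i, 1⟩)]
  congr 1
  · refine Eq.trans (Finset.sum_congr rfl (g := fun i => (b.repr v ⟨i, 0⟩ + b.repr v ⟨i, 1⟩ +
      b.repr v ⟨i, 0⟩ * b.repr v ⟨i, 1⟩) + s + s * b.repr v ⟨i, 1⟩) ?_) ?_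
    · intro i hi
      rw [if_pos (by simp [hi]), if_neg (by simp)]
      ring
    rw [Finset.sum_add_distrib, Finset.sum_add_distrib, Finset.sum_const, hI,
      ← Finset.mul_sum, ← hs', nsmul_eq_mul]
    have hss : s * s = s := by
      rcases f2_cases hq s with h | h <;> rw [h] <;> simp
    push_cast
    linear_combination hss + 2 * s * h2'
  · apply Finset.sum_congr rfl
    intro i hi
    rw [if_neg (fun h => Finset.mem_compl.1 hi h.1), if_neg (fun h => Finset.mem_compl.1 hi h.1)]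
    ring

end two

theorem dec_two_not_max (hn : 13 ≤ n) (hD : Geo.IsMDecomposition 2 D) (hq : Fintype.card F = 2) :
    ∃ K : Subgroup (GL (Fin n) F), Geo.decompositionStabilizer D ⊓ Geo.specialLinear (Fin n) F < K ∧
      K < Geo.specialLinear (Fin n) F := by
  classical
  obtain ⟨b, h1, h2⟩ := exists_adBasis hD
  have ht : n = t * 2 := by
    have := Module.finrank_eq_card_basis b
    simpa using this
  obtain ⟨I, -, hI⟩ := Finset.exists_subset_card_eq (s := (Finset.univ : Finset (Fin t))) (n := 3)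
    (by simp; omega)
  have hφ : phiI b I 1 (uI b I 0) = 0 := by rw [phiI_uI, if_neg (by decide)]
  have hne : 1 + phiI b I 1 (uI b I 0) ≠ 0 := by rw [hφ, add_zero]; exact one_ne_zero
  obtain ⟨i0, hi0, i1, hi1, i2, hi2, h01, h02, h12⟩ := Finset.two_lt_card.1 (by omega : 2 < I.card)
  obtain ⟨s, hs, v1, hv1⟩ := exists_outside b h1 h2 i0 i1 h01 0
  refine dec_not_max_of D (glTv _ _ hne) s ?_ hs (wtD_T_two b h1 h2 hq I hI hne) ?_ v1 hv1
  · rw [mem_SL_iff_det, glTv_det, hφ, add_zero]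
  · apply not_mem_stab b h2 _ (b ⟨i0, 1⟩) i0 (h1 i0 1) i1 i2 0 0 h12
    · rw [repr_glTv, phiI_b, if_pos ⟨hi0, rfl⟩,
        one_mul, repr_bb, if_neg (fun h => h01 (congrArg Sigma.fst h)), repr_uI, if_pos ⟨hi1, rfl⟩, zero_add]
      exact one_ne_zero
    · rw [repr_glTv, phiI_b, if_pos ⟨hi0, rfl⟩,
        one_mul, repr_bb, if_neg (fun h => h02 (congrArg Sigma.fst h)), repr_uI, if_pos ⟨hi2, rfl⟩, zero_add]
      exact one_ne_zero

end

end Cfsg.Agent.Lib.Helper15
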