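import Mathlib
import Cfsg.Agent.Lib.Helper15.DiagForm
import Cfsg.Agent.Lib.Helper15.OrthoBasis

set_option autoImplicit false

namespace Cfsg.Agent.Lib.Helper15

open Module

/-- the discriminant of a diagonalised form -/
theorem IsDiagFamily.disc {F : Type*} [Field F] {ι : Type} [Fintype ι] [DecidableEq ι]
    {Q : QuadraticForm F (ι → F)} {n : ℕ} {x₀ : ι → F} {w : Fin n → ι → F}
    (h : IsDiagFamily Q x₀ w) (b : Module.Basis (Unit ⊕ Fin n) F (ι → F))
    (hb0 : b (Sum.inl ()) = x₀) (hb1 : ∀ i, b (Sum.inr i) = w i) :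
    ∃ s : F, s ≠ 0 ∧ 2 ^ (n + 1) * Q x₀ =
      (Matrix.of (fun i j : ι => QuadraticMap.polar ⇑Q (Pi.single i 1) (Pi.single j 1))).det * (s * s) := by
  obtain ⟨s, hs, hdet⟩ := gram_det_basis (QuadraticMap.polarBilin Q) b
  refine ⟨s, hs, ?_⟩
  rw [gram_eq_toMatrix', ← hdet]
  obtain ⟨h0, h1, h3, h4⟩ := h
  have hM : LinearMap.BilinForm.toMatrix b (QuadraticMap.polarBilin Q) =
      Matrix.diagonal (Sum.elim (fun _ : Unit => 2 * Q x₀) (fun _ : Fin n => (2 : F))) := by
    ext i j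
    rw [LinearMap.BilinForm.toMatrix_apply]
    rcases i with i | i <;> rcases j with j | j
    · simp [hb0, QuadraticMap.polar_self]
    · simp [hb0, hb1, h3 j]
    · simp [hb0, hb1, QuadraticMap.polar_comm Q (w i) x₀, h3 i]
    · by_cases hij : i = j
      · subst hij
        simp [hb1, QuadraticMap.polar_self, h1]
      · simp [hb1, h4 i j hij, hij]
  rw [hM, Matrix.det_diagonal]
  simp [Fintype.prod_sum_type]
  ring

end Cfsg.Agent.Lib.Helper15
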