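import Mathlib
import Cfsg.Agent.Lib.Helper15.InvNF6

set_option autoImplicit false

namespace Cfsg.Agent.Lib.Helper15

open Module

variable {F V : Type*} [Field F] [AddCommGroup V] [Module F V] {f : LinearMap.BilinForm F V}
  {t t' : Module.End F V}

noncomputable def mkT (f : LinearMap.BilinForm F V) {r : ℕ} (s : Fin r → V) : Module.End F V :=
  LinearMap.id + ∑ i, (f.flip (s i)).smulRight (s i)

theorem mkT_apply {r : ℕ} (s : Fin r → V) (x : V) : mkT f s x = x + ∑ i, f x (s i) • s i := by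
  simp [mkT, LinearMap.sum_apply]

theorem IsDecT.fix {r : ℕ} {s : Fin r → V} (hs : IsDecT f t r s) (y : V) (hy : ∀ i, f y (s i) = 0) :
    t y = y := by
  rw [hs.2.2]; simp [hy]

theorem IsDecT.invOn [CharP F 2] (hf : AltForm f) {r : ℕ} {s : Fin r → V} (hs : IsDecT f t r s) :
    InvOn f t := by
  have h2 : (2 : F) = 0 := CharTwo.two_eq_zero
  have h1 : ∀ x i, f (t x) (s i) = f x (s i) := by
    intro x i
    rw [hs.2.2, map_add, LinearMap.add_apply, map_sum, LinearMap.sum_apply]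
    simp [hs.2.1]
  refine ⟨fun x => ?_, fun x y => ?_⟩
  · rw [hs.2.2 (t x)]
    simp only [h1]
    rw [hs.2.2 x]
    linear_combination (norm := module) h2 • ∑ i, f x (s i) • s i
  · rw [hs.2.2 y, map_add, map_sum]
    simp only [map_smul, smul_eq_mul, h1]
    rw [hs.2.2 x, map_add, LinearMap.add_apply, map_sum, LinearMap.sum_apply]
    simp only [map_smul, LinearMap.smul_apply, smul_eq_mul]
    have h3 : ∀ i, f (s i) y = f y (s i) := fun i => hf.symm _ _
    simp only [h3]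
    rw [add_assoc, ← Finset.sum_add_distrib]
    have h4 : ∀ i, f x (s i) * f y (s i) + f y (s i) * f x (s i) = 0 := fun i => by
      linear_combination (f x (s i) * f y (s i)) * h2
    simp [h4]

theorem IsDecA.invOn [CharP F 2] (hf : AltForm f) {r : ℕ} {s : Fin r → V} (hs : IsDecA f t r s) :
    InvOn f t := by
  have hT : IsDecT f (mkT f s) r s := ⟨hs.1, hs.2.1, mkT_apply s⟩
  have hσ : mkT f s (∑ i, s i) = ∑ i, s i :=
    hT.fix _ (fun i => by rw [map_sum, LinearMap.sum_apply]; simp [hs.2.1])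
  have h3 := invOn_cutT hf (hT.invOn hf) _ hσ
  have he : t = cutT f (mkT f s) (∑ i, s i) :=
    LinearMap.ext fun x => by rw [cutT_apply, mkT_apply, hs.2.2.2]
  rw [he]; exact h3

theorem IsDecT.ne_fix [FiniteDimensional F V] (hf : AltForm f) {r : ℕ} {s : Fin r → V}
    (hs : IsDecT f t r s) (hr : 0 < r) : ∃ y, t y ≠ y := by
  obtain ⟨z, hz, -⟩ := hs.exists_pre hf ⟨0, hr⟩
  refine ⟨z, ?_⟩
  rw [hz]
  intro h
  exact hs.1.ne_zero ⟨0, hr⟩ (by simpa using h)

theorem IsDecA.ne_fix [CharP F 2] [FiniteDimensional F V] (hf : AltForm f) {r : ℕ} {s : Fin r → V}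
    (hs : IsDecA f t r s) (hr : 0 < r) : ∃ y, t y ≠ y := by
  obtain ⟨z, hz, -⟩ := hs.exists_pre hf ⟨0, hr⟩
  refine ⟨z, ?_⟩
  rw [hz]
  intro h
  exact hs.1.ne_zero ⟨0, hr⟩ (by simpa using h)

theorem IsDecT.not_all [CharP F 2] [FiniteDimensional F V] (hf : AltForm f) {r : ℕ} {s : Fin r → V}
    (hs : IsDecT f t r s) (hr : 0 < r) : ∃ v, f v (t v) ≠ 0 := by
  classical
  obtain ⟨z, hz⟩ := exists_dual_fam hf s hs.1 (fun i => if i = ⟨0, hr⟩ then 1 else 0)
  refine ⟨z, ?_⟩
  rw [hs.form hf, map_sum]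
  simp [hz]

/-- the existence of the `A` form map -/
noncomputable def mkA (f : LinearMap.BilinForm F V) {r : ℕ} (s : Fin r → V) : Module.End F V :=
  cutT f (mkT f s) (∑ i, s i)

theorem mkA_apply {r : ℕ} (s : Fin r → V) (x : V) :
    mkA f s x = x + ∑ i, f x (s i) • s i + f x (∑ i, s i) • ∑ i, s i := by
  rw [mkA, cutT_apply, mkT_apply]

end Cfsg.Agent.Lib.Helper15
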