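import Mathlib
import Cfsg.Agent.Lib.Helper15.InvCnt1

set_option autoImplicit false

namespace Cfsg.Agent.Lib.Helper15

open Module

variable {F V : Type*} [Field F] [AddCommGroup V] [Module F V] {f : LinearMap.BilinForm F V}
  {G : Type*} [Group G]

/-- the data needed for counting the classes of involutions -/
structure FrameData (f : LinearMap.BilinForm F V) (ρ : G →* Module.End F V)
    (CT CA : ∀ r : ℕ, (Fin r → V) → Prop) (m mA : ℕ) : Prop where
  inj : Function.Injective ρ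
  pres : ∀ g x y, f (ρ g x) (ρ g y) = f x y
  hCT : ∀ g r (s : Fin r → V), IsDecT f (ρ g) r s → CT r s
  hCA : ∀ g r (s : Fin r → V), IsDecA f (ρ g) r s → CA r s
  wT : ∀ r (s s' : Fin r → V), LinearIndependent F s → LinearIndependent F s' →
    (∀ i j, f (s i) (s j) = 0) → (∀ i j, f (s' i) (s' j) = 0) → CT r s → CT r s' →
    ∃ h : G, ∀ i, ρ h (s i) = s' i
  wA : ∀ r (s s' : Fin r → V), LinearIndependent F s → LinearIndependent F s' →
    (∀ i j, f (s i) (s j) = 0) → (∀ i j, f (s' i) (s' j) = 0) → CA r s → CA r s' →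
    ∃ h : G, ∀ i, ρ h (s i) = s' i
  eT : ∀ r (s : Fin r → V) (t : Module.End F V), IsDecT f t r s → CT r s → ∃ g, ρ g = t
  eA : ∀ r (s : Fin r → V) (t : Module.End F V), IsDecA f t r s → CA r s → ∃ g, ρ g = t
  xT : ∀ r, (∃ s : Fin r → V, LinearIndependent F s ∧ (∀ i j, f (s i) (s j) = 0) ∧ CT r s) ↔ r ≤ m
  xA : ∀ r, (∃ s : Fin r → V, LinearIndependent F s ∧ (∀ i j, f (s i) (s j) = 0) ∧ CA r s) ↔ r ≤ mA

variable {ρ : G →* Module.End F V}

theorem conj_of_intertwine' (hρ : Function.Injective ρ) (a b h : G)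
    (hh : ∀ x, ρ h (ρ a x) = ρ b (ρ h x)) : IsConj a b := by
  rw [isConj_iff]
  refine ⟨h, ?_⟩
  rw [mul_inv_eq_iff_eq_mul]
  apply hρ
  rw [map_mul, map_mul]
  exact LinearMap.ext hh

theorem order_two_of (hρ : Function.Injective ρ) (g : G) (hsq : ∀ x, ρ g (ρ g x) = x)
    (hne : ∃ y, ρ g y ≠ y) : orderOf g = 2 := by
  apply orderOf_eq_prime
  · apply hρ
    rw [pow_two, map_mul, map_one]
    exact LinearMap.ext hsq
  · rintro rfl
    obtain ⟨y, hy⟩ := hne
    apply hy
    rw [map_one]; rfl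

theorem of_order_two (hρ : Function.Injective ρ) (g : G) (hg : orderOf g = 2) :
    (∀ x, ρ g (ρ g x) = x) ∧ ∃ y, ρ g y ≠ y := by
  constructor
  · intro x
    have h1 : g ^ 2 = 1 := by rw [← hg]; exact pow_orderOf_eq_one g
    have : ρ (g ^ 2) x = x := by rw [h1, map_one]; rfl
    rw [pow_two, map_mul] at this
    exact this
  · by_contra hcon
    push Not at hcon
    have : g = 1 := by
      apply hρ
      rw [map_one]
      exact LinearMap.ext hcon
    rw [this, orderOf_one] at hg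
    omega

theorem rho_bij (c : G) : Function.Injective (ρ c) ∧ Function.Surjective (ρ c) := by
  have h1 : ∀ x, ρ c⁻¹ (ρ c x) = x := by
    intro x
    have : ρ (c⁻¹ * c) x = x := by rw [inv_mul_cancel, map_one]; rfl
    rwa [map_mul] at this
  have h2 : ∀ x, ρ c (ρ c⁻¹ x) = x := by
    intro x
    have : ρ (c * c⁻¹) x = x := by rw [mul_inv_cancel, map_one]; rfl
    rwa [map_mul] at this
  exact ⟨Function.LeftInverse.injective h1, Function.RightInverse.surjective h2⟩

theorem rho_conj (a b c : G) (hc : c * a * c⁻¹ = b) (x : V) : ρ c (ρ a x) = ρ b (ρ c x) := by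
  have : c * a = b * c := by rw [← hc]; group
  have h2 := congrArg (fun g => ρ g x) this
  simpa only [map_mul, Module.End.mul_apply] using h2

theorem FrameData.card [Fintype F] [CharP F 2] [FiniteDimensional F V] (hf : AltForm f)
    {CT CA : ∀ r : ℕ, (Fin r → V) → Prop} {m mA : ℕ} (D : FrameData f ρ CT CA m mA) :
    Nat.card {C : ConjClasses G // ∃ g : G, ConjClasses.mk g = C ∧ orderOf g = 2} = m + mA / 2 := by
  classical
  have repT : ∀ i : Fin m, ∃ g : G, orderOf g = 2 ∧ ∃ s : Fin (i.1 + 1) → V, IsDecT f (ρ g) (i.1 + 1) s := by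
    intro i
    obtain ⟨s, hs1, hs2, hs3⟩ := (D.xT (i.1 + 1)).2 (by omega)
    have hd : IsDecT f (mkT f s) (i.1 + 1) s := ⟨hs1, hs2, mkT_apply s⟩
    obtain ⟨g, hg⟩ := D.eT _ s _ hd hs3
    rw [← hg] at hd
    exact ⟨g, order_two_of D.inj g (hd.invOn hf).sq (hd.ne_fix hf (by omega)), s, hd⟩
  have repA : ∀ j : Fin (mA / 2), ∃ g : G, orderOf g = 2 ∧
      ∃ s : Fin (2 * (j.1 + 1)) → V, IsDecA f (ρ g) (2 * (j.1 + 1)) s := by
    intro j
    obtain ⟨s, hs1, hs2, hs3⟩ := (D.xA (2 * (j.1 + 1))).2 (by omega)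
    have hd : IsDecA f (mkA f s) (2 * (j.1 + 1)) s := ⟨hs1, hs2, even_two_mul _, mkA_apply s⟩
    obtain ⟨g, hg⟩ := D.eA _ s _ hd hs3
    rw [← hg] at hd
    exact ⟨g, order_two_of D.inj g (hd.invOn hf).sq (hd.ne_fix hf (by omega)), s, hd⟩
  choose gT hgT sT hsT using repT
  choose gA hgA sA hsA using repA
  let φ : Fin m ⊕ Fin (mA / 2) → {C : ConjClasses G // ∃ g : G, ConjClasses.mk g = C ∧ orderOf g = 2} :=
    Sum.elim (fun i => ⟨ConjClasses.mk (gT i), gT i, rfl, hgT i⟩)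
      (fun j => ⟨ConjClasses.mk (gA j), gA j, rfl, hgA j⟩)
  have kTT : ∀ (a b : G) (r r' : ℕ) (s : Fin r → V) (s' : Fin r' → V), IsConj a b →
      IsDecT f (ρ a) r s → IsDecT f (ρ b) r' s' → r = r' := by
    intro a b r r' s s' hab hs hs'
    obtain ⟨c, hc⟩ := isConj_iff.1 hab
    have h1 := hs.transport (t' := ρ b) (ρ c) (rho_bij c).1 (rho_bij c).2 (D.pres c) (rho_conj a b c hc)
    rw [← h1.rank hf, hs'.rank hf]
  have kAA : ∀ (a b : G) (r r' : ℕ) (s : Fin r → V) (s' : Fin r' → V), IsConj a b →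
      IsDecA f (ρ a) r s → IsDecA f (ρ b) r' s' → r = r' := by
    intro a b r r' s s' hab hs hs'
    obtain ⟨c, hc⟩ := isConj_iff.1 hab
    have h1 := hs.transport (t' := ρ b) (ρ c) (rho_bij c).1 (rho_bij c).2 (D.pres c) (rho_conj a b c hc)
    rw [← h1.rank hf, hs'.rank hf]
  have kTA : ∀ (a b : G) (r r' : ℕ) (s : Fin r → V) (s' : Fin r' → V), IsConj a b → 0 < r →
      IsDecT f (ρ a) r s → IsDecA f (ρ b) r' s' → False := by
    intro a b r r' s s' hab hr hs hs'
    obtain ⟨c, hc⟩ := isConj_iff.1 hab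
    have h1 := hs.transport (t' := ρ b) (ρ c) (rho_bij c).1 (rho_bij c).2 (D.pres c) (rho_conj a b c hc)
    obtain ⟨v, hv⟩ := h1.not_all hf hr
    exact hv (hs'.form hf v)
  have hbij : Function.Bijective φ := by
    constructor
    · rintro (i | j) (i' | j') h
      · have h1 : IsConj (gT i) (gT i') := ConjClasses.mk_eq_mk_iff_isConj.1 (congrArg Subtype.val h)
        have := kTT _ _ _ _ _ _ h1 (hsT i) (hsT i')
        congr 1
        apply Fin.ext
        omega
      · have h1 : IsConj (gT i) (gA j') := ConjClasses.mk_eq_mk_iff_isConj.1 (congrArg Subtype.val h)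
        exact (kTA _ _ _ _ _ _ h1 (by omega) (hsT i) (hsA j')).elim
      · have h1 : IsConj (gA j) (gT i') := ConjClasses.mk_eq_mk_iff_isConj.1 (congrArg Subtype.val h)
        exact (kTA _ _ _ _ _ _ h1.symm (by omega) (hsT i') (hsA j)).elim
      · have h1 : IsConj (gA j) (gA j') := ConjClasses.mk_eq_mk_iff_isConj.1 (congrArg Subtype.val h)
        have := kAA _ _ _ _ _ _ h1 (hsA j) (hsA j')
        congr 1
        apply Fin.ext
        omega
    · rintro ⟨_, g, rfl, hg⟩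
      obtain ⟨hsq, hne⟩ := of_order_two D.inj g hg
      have hinv : InvOn f (ρ g) := ⟨hsq, D.pres g⟩
      rcases exists_dec hf hinv hne with ⟨-, r, s, hs⟩ | ⟨-, r, s, hs⟩
      · have hr0 : r ≠ 0 := by
          rintro rfl
          obtain ⟨y, hy⟩ := hne
          apply hy
          rw [hs.2.2]; simp
        obtain ⟨k, rfl⟩ : ∃ k, r = k + 1 := ⟨r - 1, by omega⟩
        have hC := D.hCT g _ s hs
        have hk : k + 1 ≤ m := (D.xT (k + 1)).1 ⟨s, hs.1, hs.2.1, hC⟩
        refine ⟨Sum.inl ⟨k, by omega⟩, ?_⟩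
        apply Subtype.ext
        apply ConjClasses.mk_eq_mk_iff_isConj.2
        have hs0 := hsT ⟨k, by omega⟩
        obtain ⟨h, hh⟩ := D.wT (k + 1) (sT ⟨k, by omega⟩) s hs0.1 hs.1 hs0.2.1 hs.2.1 (D.hCT _ _ _ hs0) hC
        exact conj_of_intertwine' D.inj _ _ h (hs0.intertwine hs _ (D.pres h) hh)
      · have hr0 : r ≠ 0 := by
          rintro rfl
          obtain ⟨y, hy⟩ := hne
          apply hy
          rw [hs.2.2.2]; simp
        obtain ⟨l, rfl⟩ : ∃ l, r = 2 * (l + 1) := by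
          obtain ⟨k, hk⟩ := hs.2.2.1
          exact ⟨k - 1, by omega⟩
        have hC := D.hCA g _ s hs
        have hk : 2 * (l + 1) ≤ mA := (D.xA _).1 ⟨s, hs.1, hs.2.1, hC⟩
        refine ⟨Sum.inr ⟨l, by omega⟩, ?_⟩
        apply Subtype.ext
        apply ConjClasses.mk_eq_mk_iff_isConj.2
        have hs0 := hsA ⟨l, by omega⟩
        obtain ⟨h, hh⟩ := D.wA _ (sA ⟨l, by omega⟩) s hs0.1 hs.1 hs0.2.1 hs.2.1 (D.hCA _ _ _ hs0) hC
        exact conj_of_intertwine' D.inj _ _ h (hs0.intertwine hs _ (D.pres h) hh)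
  rw [← Nat.card_congr (Equiv.ofBijective φ hbij), Nat.card_eq_fintype_card, Fintype.card_sum,
    Fintype.card_fin, Fintype.card_fin]

end Cfsg.Agent.Lib.Helper15
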