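import Mathlib
import Cfsg.Agent.Lib.Helper15.InvCnt2
import Cfsg.Agent.Lib.Helper15.InvNF9

set_option autoImplicit false

namespace Cfsg.Agent.Lib.Helper15

open Module Cfsg QuadraticMap
open scoped Matrix

section gen

variable {F V : Type*} [Field F] [AddCommGroup V] [Module F V] {f : LinearMap.BilinForm F V}
  {t : Module.End F V}

theorem frame_le [CharP F 2] [FiniteDimensional F V] (hf : AltForm f) {r : ℕ} (s : Fin r → V)
    (hs : LinearIndependent F s) (hiso : ∀ i j, f (s i) (s j) = 0) : 2 * r ≤ finrank F V := by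
  classical
  -- the map `x ↦ (f x (s i))_i` is onto and kills the span
  set L : V →ₗ[F] (Fin r → F) := LinearMap.pi (fun i => f.flip (s i)) with hL
  have hsurj : LinearMap.range L = ⊤ := by
    rw [LinearMap.range_eq_top]
    intro c
    obtain ⟨z, hz⟩ := exists_dual_fam hf s hs c
    exact ⟨z, funext hz⟩
  have hle : Submodule.span F (Set.range s) ≤ LinearMap.ker L := by
    rw [Submodule.span_le]
    rintro _ ⟨j, rfl⟩
    rw [SetLike.mem_coe, LinearMap.mem_ker]
    ext i
    exact hiso j i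
  have h1 := LinearMap.finrank_range_add_finrank_ker L
  rw [hsurj, finrank_top, Module.finrank_fintype_fun_eq_card, Fintype.card_fin] at h1
  have h2 := Submodule.finrank_mono hle
  rw [finrank_span_eq_card hs, Fintype.card_fin] at h2
  omega

theorem Q_sum_orth (Q : QuadraticForm F V) : ∀ {r : ℕ} (s : Fin r → V)
    (_ : ∀ i j, polar Q (s i) (s j) = 0) (a : Fin r → F),
    Q (∑ i, a i • s i) = ∑ i, a i * a i * Q (s i) := by
  intro r
  induction r with
  | zero => intro s _ a; simp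
  | succ n ih =>
    intro s h a
    have hp : polar Q (a 0 • s 0) (∑ i : Fin n, a i.succ • s i.succ) = 0 := by
      rw [← polarBilin_apply_apply, map_sum]
      apply Finset.sum_eq_zero
      intro i _
      rw [map_smul, map_smul, LinearMap.smul_apply, polarBilin_apply_apply, h]
      simp
    rw [Fin.sum_univ_succ, Fin.sum_univ_succ, QuadraticMap.map_add Q, QuadraticMap.map_smul, hp,
      ih (fun i => s i.succ) (fun i j => h _ _) (fun i => a i.succ), add_zero, smul_eq_mul]

theorem polar_sum_right (Q : QuadraticForm F V) {r : ℕ} (s : Fin r → V) (b : Fin r → F) (x : V) :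
    polar Q x (∑ i, b i • s i) = ∑ i, b i * polar Q x (s i) := by
  rw [← polarBilin_apply_apply, map_sum]
  refine Finset.sum_congr rfl fun i _ => ?_
  rw [map_smul, polarBilin_apply_apply, smul_eq_mul]

theorem isIso_of_decT [CharP F 2] (Q : QuadraticForm F V) {r : ℕ} {s : Fin r → V}
    (hs : IsDecT (polarBilin Q) t r s) (hC : ∀ i, Q (s i) = 1) : IsIso Q t := by
  have h2 : (2 : F) = 0 := CharTwo.two_eq_zero
  intro x
  rw [hs.2.2, QuadraticMap.map_add Q, Q_sum_orth Q s hs.2.1, polar_sum_right]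
  simp only [hC, mul_one, polarBilin_apply_apply]
  linear_combination (∑ i, polar Q x (s i) * polar Q x (s i)) * h2

theorem isIso_of_decA [CharP F 2] (Q : QuadraticForm F V) {r : ℕ} {s : Fin r → V}
    (hs : IsDecA (polarBilin Q) t r s) (hC : ∀ i, Q (s i) = 0) : IsIso Q t := by
  have h2 : (2 : F) = 0 := CharTwo.two_eq_zero
  intro x
  have h1 : t x = x + ∑ i, (polar Q x (s i) + polar Q x (∑ i, s i)) • s i := by
    rw [hs.2.2.2]
    simp only [add_smul, Finset.sum_add_distrib, ← Finset.smul_sum, polarBilin_apply_apply]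
    rw [add_assoc]
  have h3 : polar Q x (∑ i, s i) = ∑ i, polar Q x (s i) := by
    rw [← polarBilin_apply_apply, map_sum]
    rfl
  rw [h1, QuadraticMap.map_add Q, Q_sum_orth Q s hs.2.1, polar_sum_right]
  simp only [hC, mul_zero, Finset.sum_const_zero, add_zero, add_mul, Finset.sum_add_distrib, ← Finset.mul_sum]
  rw [sum_sq_char_two, h3]
  linear_combination ((∑ i, polar Q x (s i)) * (∑ i, polar Q x (s i))) * h2

theorem sing_span (Q : QuadraticForm F V) {r : ℕ} (s : Fin r → V)
    (h : ∀ i j, polar Q (s i) (s j) = 0) (hC : ∀ i, Q (s i) = 0) :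
    ∀ u ∈ Submodule.span F (Set.range s), Q u = 0 := by
  intro u hu
  obtain ⟨a, rfl⟩ := (Submodule.mem_span_range_iff_exists_fun F).1 hu
  rw [Q_sum_orth Q s h]
  simp [hC]

end gen

variable {ι : Type} [Fintype ι] [DecidableEq ι] {F : Type*} [Field F]

theorem orth_frameData [Fintype F] [CharP F 2] (Q : QuadraticForm F (ι → F))
    (hQ : (polarBilin Q).Nondegenerate) (m mA : ℕ)
    (xT : ∀ r, (∃ s : Fin r → (ι → F), LinearIndependent F s ∧
      (∀ i j, polarBilin Q (s i) (s j) = 0) ∧ ∀ i, Q (s i) = 1) ↔ r ≤ m)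
    (xA : ∀ r, (∃ s : Fin r → (ι → F), LinearIndependent F s ∧
      (∀ i j, polarBilin Q (s i) (s j) = 0) ∧ ∀ i, Q (s i) = 0) ↔ r ≤ mA) :
    FrameData (polarBilin Q) (toEnd Q) (fun r s => ∀ i, Q (s i) = 1) (fun r s => ∀ i, Q (s i) = 0) m mA where
  inj := toEnd_injective Q
  pres := fun g x y => (toEnd_isIso Q g).polar x y
  hCT := fun g r s hs => hs.Qval Q hQ (toEnd_isIso Q g)
  hCA := fun g r s hs => hs.Qval Q hQ (toEnd_isIso Q g)
  wT := fun r s s' h1 h2 h3 h4 h5 h6 => by
    obtain ⟨τ, hτ, hτs⟩ := witt_family Q hQ r s s' h1 h2 (fun i => by rw [h5, h6])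
      (fun i j => (h3 i j).trans (h4 i j).symm)
    exact ⟨ofEnd Q hQ τ hτ.isIso, fun i => by rw [toEnd_ofEnd]; exact hτs i⟩
  wA := fun r s s' h1 h2 h3 h4 h5 h6 => by
    obtain ⟨τ, hτ, hτs⟩ := witt_family Q hQ r s s' h1 h2 (fun i => by rw [h5, h6])
      (fun i j => (h3 i j).trans (h4 i j).symm)
    exact ⟨ofEnd Q hQ τ hτ.isIso, fun i => by rw [toEnd_ofEnd]; exact hτs i⟩
  eT := fun r s t hs hC => ⟨ofEnd Q hQ t (isIso_of_decT Q hs hC), toEnd_ofEnd Q hQ t _⟩
  eA := fun r s t hs hC => ⟨ofEnd Q hQ t (isIso_of_decA Q hs hC), toEnd_ofEnd Q hQ t _⟩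
  xT := xT
  xA := xA

end Cfsg.Agent.Lib.Helper15
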