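import Mathlib
import Cfsg.Agent.Lib.Helper15.InvCnt3
import Cfsg.Agent.Lib.Helper15.InvNF5

set_option autoImplicit false

namespace Cfsg.Agent.Lib.Helper15

open Module Cfsg
open scoped Matrix

theorem li_of_coord {F ι : Type*} [Field F] {r : ℕ} (s : Fin r → (ι → F)) (c : Fin r → ι)
    (h : ∀ i j, s i (c j) = if i = j then 1 else 0) : LinearIndependent F s := by
  classical
  rw [Fintype.linearIndependent_iff]
  intro g hg j
  have := congrFun hg (c j)
  simpa [Finset.sum_apply, h] using this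

theorem frames_iff {F V : Type*} [Field F] [AddCommGroup V] [Module F V] (f : LinearMap.BilinForm F V)
    (P : V → Prop) (M : ℕ)
    (hup : ∀ r (s : Fin r → V), LinearIndependent F s → (∀ i j, f (s i) (s j) = 0) → (∀ i, P (s i)) → r ≤ M)
    (s₀ : Fin M → V) (h1 : LinearIndependent F s₀) (h2 : ∀ i j, f (s₀ i) (s₀ j) = 0) (h3 : ∀ i, P (s₀ i)) :
    ∀ r, (∃ s : Fin r → V, LinearIndependent F s ∧ (∀ i j, f (s i) (s j) = 0) ∧ ∀ i, P (s i)) ↔ r ≤ M := by
  intro r
  constructor
  · rintro ⟨s, hs1, hs2, hs3⟩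
    exact hup r s hs1 hs2 hs3
  · intro hr
    exact ⟨fun i => s₀ (Fin.castLE hr i), h1.comp _ (Fin.castLE_injective hr), fun i j => h2 _ _, fun i => h3 _⟩

open Cfsg.Agent.Lib.Helper5 Cfsg.Agent.Lib.Helper14

variable {F : Type*} [Field F] {m : ℕ}

/-- the natural representation of the symplectic group -/
noncomputable def spRho (m : ℕ) (F : Type*) [Field F] :
    Matrix.symplecticGroup (Fin m) F →* Module.End F (Fin m ⊕ Fin m → F) :=
  ((Matrix.toLinAlgEquiv' : Matrix (Fin m ⊕ Fin m) (Fin m ⊕ Fin m) F ≃ₐ[F] _) :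
    Matrix (Fin m ⊕ Fin m) (Fin m ⊕ Fin m) F →* Module.End F (Fin m ⊕ Fin m → F)).comp
      (Matrix.symplecticGroup (Fin m) F).subtype

theorem spRho_apply (a : Matrix.symplecticGroup (Fin m) F) (x : Fin m ⊕ Fin m → F) :
    spRho m F a x = a.1 *ᵥ x := rfl

theorem exists_sp_of_pres (t : Module.End F (Fin m ⊕ Fin m → F))
    (ht : ∀ x y, sympB m F (t x) (t y) = sympB m F x y) : ∃ g, spRho m F g = t := by
  refine ⟨⟨LinearMap.toMatrix' t, ?_⟩, ?_⟩
  · rw [mem_symplecticGroup_iff_preserves]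
    intro u v
    rw [LinearMap.toMatrix'_mulVec, LinearMap.toMatrix'_mulVec]
    exact ht u v
  · apply LinearMap.ext
    intro x
    rw [spRho_apply, LinearMap.toMatrix'_mulVec]

theorem sp_frames [CharP F 2] : ∀ r, (∃ s : Fin r → (Fin m ⊕ Fin m → F), LinearIndependent F s ∧
    (∀ i j, sympB m F (s i) (s j) = 0) ∧ ∀ _ : Fin r, True) ↔ r ≤ m := by
  apply frames_iff (sympB m F : LinearMap.BilinForm F (Fin m ⊕ Fin m → F)) (fun _ => True) m ?_
    (fun i => Pi.single (Sum.inl i) 1)
  · apply li_of_coord _ (fun i => Sum.inl i)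
    intro i j
    simp [Pi.single_apply, eq_comm]
  · intro i j
    rw [sympB_apply, sympForm_eq_sum]
    simp [Pi.single_apply]
  · intro _; trivial
  · intro r s h1 h2 _
    have := frame_le altForm_sympB s h1 h2
    rw [Module.finrank_fintype_fun_eq_card, Fintype.card_sum, Fintype.card_fin] at this
    omega

theorem sp_frameData [CharP F 2] : FrameData (sympB m F : LinearMap.BilinForm F (Fin m ⊕ Fin m → F))
    (spRho m F) (fun r _ => ∀ _ : Fin r, True) (fun r _ => ∀ _ : Fin r, True) m m where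
  inj := by
    intro a b hab
    apply Subtype.ext
    exact Matrix.toLinAlgEquiv'.injective hab
  pres := fun g x y => (mem_symplecticGroup_iff_preserves _).1 g.2 x y
  hCT := fun _ _ _ _ _ => trivial
  hCA := fun _ _ _ _ _ => trivial
  wT := fun r s s' h1 h2 h3 h4 _ _ => sp_transitive_XS (⟨s, h1, h3⟩ : XS F m r) ⟨s', h2, h4⟩
  wA := fun r s s' h1 h2 h3 h4 _ _ => sp_transitive_XS (⟨s, h1, h3⟩ : XS F m r) ⟨s', h2, h4⟩
  eT := fun r s t hs _ => exists_sp_of_pres t (hs.invOn altForm_sympB).pres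
  eA := fun r s t hs _ => exists_sp_of_pres t (hs.invOn altForm_sympB).pres
  xT := sp_frames
  xA := sp_frames

theorem sp_card_inv_classes [Fintype F] [CharP F 2] :
    Nat.card {C : ConjClasses ↥(Matrix.symplecticGroup (Fin m) F) //
      ∃ g : Matrix.symplecticGroup (Fin m) F, ConjClasses.mk g = C ∧ orderOf g = 2} = m + m / 2 :=
  sp_frameData.card altForm_sympB

end Cfsg.Agent.Lib.Helper15
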