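import Mathlib
import Cfsg.Agent.Lib.Helper15.InvCnt4

set_option autoImplicit false

namespace Cfsg.Agent.Lib.Helper15

open Module Cfsg QuadraticMap
open scoped Matrix

variable {ι : Type} [Fintype ι] [DecidableEq ι] {F : Type*} [Field F]

theorem hyp_eframe (Q : QuadraticForm F (ι → F)) {k : ℕ} (a b : Fin k → ι)
    (hab : ∀ j, IsHypPair Q (a j) (b j)) (ha : Function.Injective a) (hne : ∀ i j, a i ≠ b j) :
    LinearIndependent F (fun j => (Pi.single (a j) 1 : ι → F)) ∧
      (∀ i j, polarBilin Q (Pi.single (a i) 1 : ι → F) (Pi.single (a j) 1) = 0) ∧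
      ∀ i, Q (Pi.single (a i) 1 : ι → F) = 0 := by
  refine ⟨?_, ?_, fun i => (hab i).2.1⟩
  · apply li_of_coord _ a
    intro i j
    simp [Pi.single_apply, ha.eq_iff, eq_comm]
  · intro i j
    rw [polarBilin_apply_apply, (hab i).2.2.2.1]
    simp [Pi.single_apply, (hne j i).symm]

theorem hyp_polar_h (Q : QuadraticForm F (ι → F)) {a b : ι} (hab : IsHypPair Q a b) (x : ι → F) :
    polar Q (Pi.single a 1 + Pi.single b 1 : ι → F) x = x b + x a := by
  rw [polar_add_left, hab.2.2.2.1, hab.2.2.2.2]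

theorem hyp_hframe [CharP F 2] (Q : QuadraticForm F (ι → F)) {k : ℕ} (a b : Fin k → ι)
    (hab : ∀ j, IsHypPair Q (a j) (b j)) (ha : Function.Injective a) (hb : Function.Injective b)
    (hne : ∀ i j, a i ≠ b j) :
    LinearIndependent F (fun j => (Pi.single (a j) 1 + Pi.single (b j) 1 : ι → F)) ∧
      (∀ i j, polarBilin Q (Pi.single (a i) 1 + Pi.single (b i) 1 : ι → F)
        (Pi.single (a j) 1 + Pi.single (b j) 1) = 0) ∧
      ∀ i, Q (Pi.single (a i) 1 + Pi.single (b i) 1 : ι → F) = 1 := by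
  have h2 : (2 : F) = 0 := CharTwo.two_eq_zero
  refine ⟨?_, ?_, fun i => (hab i).Q_add⟩
  · apply li_of_coord _ a
    intro i j
    simp [Pi.single_apply, ha.eq_iff, eq_comm, hne]
  · intro i j
    rw [polarBilin_apply_apply, hyp_polar_h Q (hab i)]
    by_cases hij : i = j
    · subst hij
      simp [Pi.single_apply, hne, (hne _ _).symm]
      linear_combination h2
    · simp [Pi.single_apply, hne, (hne _ _).symm, ha.eq_iff, hb.eq_iff, hij]

theorem plus_frameData [Fintype F] [CharP F 2] (m : ℕ) :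
    FrameData (polarBilin (qPlus m F)) (toEnd (qPlus m F)) (fun r s => ∀ i : Fin r, qPlus m F (s i) = 1)
      (fun r s => ∀ i : Fin r, qPlus m F (s i) = 0) m m := by
  have hQ := qPlus_nondegenerate m F
  have hf := altForm_polar (qPlus m F) hQ
  have hup : ∀ r (s : Fin r → (Fin m ⊕ Fin m → F)), LinearIndependent F s →
      (∀ i j, polarBilin (qPlus m F) (s i) (s j) = 0) → r ≤ m := by
    intro r s h1 h2
    have := frame_le hf s h1 h2
    rw [Module.finrank_fintype_fun_eq_card, Fintype.card_sum, Fintype.card_fin] at this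
    omega
  obtain ⟨e1, e2, e3⟩ := hyp_eframe (qPlus m F) (fun j => Sum.inl j) (fun j => Sum.inr j)
    (isHypPair_qPlus m F) Sum.inl_injective (fun i j => by simp)
  obtain ⟨k1, k2, k3⟩ := hyp_hframe (qPlus m F) (fun j => Sum.inl j) (fun j => Sum.inr j)
    (isHypPair_qPlus m F) Sum.inl_injective Sum.inr_injective (fun i j => by simp)
  exact (orth_frameData (qPlus m F) hQ m m
    (frames_iff _ (fun v => qPlus m F v = 1) m (fun r s h1 h2 _ => hup r s h1 h2) _ k1 k2 k3)
    (frames_iff _ (fun v => qPlus m F v = 0) m (fun r s h1 h2 _ => hup r s h1 h2) _ e1 e2 e3))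

theorem plus_card_inv_classes [Fintype F] [CharP F 2] (m : ℕ) :
    Nat.card {C : ConjClasses ↥(isometryGroup F (qPlus m F)) //
      ∃ g : isometryGroup F (qPlus m F), ConjClasses.mk g = C ∧ orderOf g = 2} = m + m / 2 :=
  (plus_frameData m).card (altForm_polar (qPlus m F) (qPlus_nondegenerate m F))

theorem minus_frameData [Fintype F] [CharP F 2] (k : ℕ) (a c : F)
    (hac : ∀ z₁ z₂ : F, z₁ ^ 2 + a * z₁ * z₂ + c * z₂ ^ 2 = 0 → z₁ = 0 ∧ z₂ = 0) :
    FrameData (polarBilin (qMinus k F a c)) (toEnd (qMinus k F a c))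
      (fun r s => ∀ i : Fin r, qMinus k F a c (s i) = 1)
      (fun r s => ∀ i : Fin r, qMinus k F a c (s i) = 0) (k + 1) k := by
  have h2 : (2 : F) = 0 := CharTwo.two_eq_zero
  have hQ := qMinus_nondegenerate k a c hac
  have hf := altForm_polar (qMinus k F a c) hQ
  have hup : ∀ r (s : Fin r → ((Fin k ⊕ Fin k) ⊕ Fin 2 → F)), LinearIndependent F s →
      (∀ i j, polarBilin (qMinus k F a c) (s i) (s j) = 0) → r ≤ k + 1 := by
    intro r s h1 h2
    have := frame_le hf s h1 h2
    rw [Module.finrank_fintype_fun_eq_card] at this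
    simp only [Fintype.card_sum, Fintype.card_fin] at this
    omega
  have hup' : ∀ r (s : Fin r → ((Fin k ⊕ Fin k) ⊕ Fin 2 → F)), LinearIndependent F s →
      (∀ i j, polarBilin (qMinus k F a c) (s i) (s j) = 0) → (∀ i, qMinus k F a c (s i) = 0) → r ≤ k := by
    intro r s h1 h2 h3
    have h4 := hup r s h1 h2
    by_contra hcon
    have hr : r = k + 1 := by omega
    apply qMinus_no_lagr k a c hac (Submodule.span F (Set.range s))
    refine ⟨sing_span _ s h2 h3, ?_⟩
    rw [finrank_span_eq_card h1, Fintype.card_fin, Module.finrank_fintype_fun_eq_card]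
    simp only [Fintype.card_sum, Fintype.card_fin]
    omega
  obtain ⟨e1, e2, e3⟩ := hyp_eframe (qMinus k F a c) (fun j => Sum.inl (Sum.inl j))
    (fun j => Sum.inl (Sum.inr j)) (isHypPair_qMinus k F a c)
    (Sum.inl_injective.comp Sum.inl_injective) (fun i j => by simp)
  obtain ⟨k1, k2, k3⟩ := hyp_hframe (qMinus k F a c) (fun j => Sum.inl (Sum.inl j))
    (fun j => Sum.inl (Sum.inr j)) (isHypPair_qMinus k F a c)
    (Sum.inl_injective.comp Sum.inl_injective) (Sum.inl_injective.comp Sum.inr_injective) (fun i j => by simp)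
  obtain ⟨z, hz⟩ : ∃ z : (Fin k ⊕ Fin k) ⊕ Fin 2 → F, z = Pi.single (Sum.inr 0) 1 := ⟨_, rfl⟩
  have hQz : qMinus k F a c z = 1 := by
    rw [hz, coe_qMinus]; simp [quadFormMinus]
  have hzz : polar (qMinus k F a c) z z = 0 := by
    rw [polar_self, hQz, two_smul]
    linear_combination h2
  have hsz : ∀ j : Fin k, polar (qMinus k F a c)
      (Pi.single (Sum.inl (Sum.inl j)) 1 + Pi.single (Sum.inl (Sum.inr j)) 1) z = 0 := by
    intro j
    rw [hyp_polar_h _ (isHypPair_qMinus k F a c j), hz]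
    simp
  have l1 : LinearIndependent F (Fin.cons z (fun j : Fin k => (Pi.single (Sum.inl (Sum.inl j)) 1 +
      Pi.single (Sum.inl (Sum.inr j)) 1 : (Fin k ⊕ Fin k) ⊕ Fin 2 → F)) :
        Fin (k + 1) → ((Fin k ⊕ Fin k) ⊕ Fin 2 → F)) := by
    apply li_of_coord _ (Fin.cons (Sum.inr 0) (fun j : Fin k => Sum.inl (Sum.inl j)))
    intro i j
    refine Fin.cases ?_ (fun i => ?_) i <;> refine Fin.cases ?_ (fun j => ?_) j
    · simp [hz]
    · simp [hz, (Fin.succ_ne_zero j).symm]
    · simp [Fin.succ_ne_zero i]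
    · simp [Pi.single_apply, eq_comm]
  have l2 : ∀ i j, polarBilin (qMinus k F a c)
      ((Fin.cons z (fun j : Fin k => (Pi.single (Sum.inl (Sum.inl j)) 1 +
      Pi.single (Sum.inl (Sum.inr j)) 1 : (Fin k ⊕ Fin k) ⊕ Fin 2 → F)) :
        Fin (k + 1) → ((Fin k ⊕ Fin k) ⊕ Fin 2 → F)) i)
      ((Fin.cons z (fun j : Fin k => (Pi.single (Sum.inl (Sum.inl j)) 1 +
      Pi.single (Sum.inl (Sum.inr j)) 1 : (Fin k ⊕ Fin k) ⊕ Fin 2 → F)) :
        Fin (k + 1) → ((Fin k ⊕ Fin k) ⊕ Fin 2 → F)) j) = 0 := by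
    intro i j
    refine Fin.cases ?_ (fun i => ?_) i <;> refine Fin.cases ?_ (fun j => ?_) j
    · simpa using hzz
    · simp only [Fin.cons_zero, Fin.cons_succ, polarBilin_apply_apply]
      rw [polar_comm]; exact hsz j
    · simp only [Fin.cons_zero, Fin.cons_succ, polarBilin_apply_apply]
      exact hsz i
    · simp only [Fin.cons_succ]
      exact k2 i j
  have l3 : ∀ i, qMinus k F a c
      ((Fin.cons z (fun j : Fin k => (Pi.single (Sum.inl (Sum.inl j)) 1 +
      Pi.single (Sum.inl (Sum.inr j)) 1 : (Fin k ⊕ Fin k) ⊕ Fin 2 → F)) :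
        Fin (k + 1) → ((Fin k ⊕ Fin k) ⊕ Fin 2 → F)) i) = 1 := by
    intro i
    refine Fin.cases ?_ (fun i => ?_) i
    · simpa using hQz
    · simp only [Fin.cons_succ]
      exact k3 i
  exact (orth_frameData (qMinus k F a c) hQ (k + 1) k
    (frames_iff _ (fun v => qMinus k F a c v = 1) (k + 1) (fun r s h1 h2 _ => hup r s h1 h2) _ l1 l2 l3)
    (frames_iff _ (fun v => qMinus k F a c v = 0) k hup' _ e1 e2 e3))

theorem minus_card_inv_classes [Fintype F] [CharP F 2] (k : ℕ) (a c : F)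
    (hac : ∀ z₁ z₂ : F, z₁ ^ 2 + a * z₁ * z₂ + c * z₂ ^ 2 = 0 → z₁ = 0 ∧ z₂ = 0) :
    Nat.card {C : ConjClasses ↥(isometryGroup F (qMinus k F a c)) //
      ∃ g : isometryGroup F (qMinus k F a c), ConjClasses.mk g = C ∧ orderOf g = 2} = (k + 1) + k / 2 :=
  (minus_frameData k a c hac).card (altForm_polar (qMinus k F a c) (qMinus_nondegenerate k a c hac))

end Cfsg.Agent.Lib.Helper15
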