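import Mathlib
import Cfsg.Agent.Lib.Helper15.InvCnt5

set_option autoImplicit false

namespace Cfsg.Agent.Lib.Helper15

open Module

theorem card_classes_of_reps {G : Type*} [Group G] {Y : Type*} [Fintype Y] (rep : Y → G)
    (hrep : ∀ y, orderOf (rep y) = 2) (hinj : ∀ y y', IsConj (rep y) (rep y') → y = y')
    (hsurj : ∀ g, orderOf g = 2 → ∃ y, IsConj (rep y) g) :
    Nat.card {C : ConjClasses G // ∃ g : G, ConjClasses.mk g = C ∧ orderOf g = 2} = Fintype.card Y := by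
  let φ : Y → {C : ConjClasses G // ∃ g : G, ConjClasses.mk g = C ∧ orderOf g = 2} :=
    fun y => ⟨ConjClasses.mk (rep y), rep y, rfl, hrep y⟩
  have hbij : Function.Bijective φ := by
    constructor
    · intro y y' h
      exact hinj y y' (ConjClasses.mk_eq_mk_iff_isConj.1 (congrArg Subtype.val h))
    · rintro ⟨_, g, rfl, hg⟩
      obtain ⟨y, hy⟩ := hsurj g hg
      exact ⟨y, Subtype.ext (ConjClasses.mk_eq_mk_iff_isConj.2 hy)⟩
  rw [← Nat.card_congr (Equiv.ofBijective φ hbij), Nat.card_eq_fintype_card]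

variable {F V : Type*} [Field F] [AddCommGroup V] [Module F V] {f : LinearMap.BilinForm F V}
  {G : Type*} [Group G] {ρ : G →* Module.End F V}
  {CT CA : ∀ r : ℕ, (Fin r → V) → Prop} {m mA : ℕ}

theorem FrameData.kTT [FiniteDimensional F V] (hf : AltForm f) (D : FrameData f ρ CT CA m mA)
    (a b : G) (r r' : ℕ) (s : Fin r → V) (s' : Fin r' → V) (hab : IsConj a b)
    (hs : IsDecT f (ρ a) r s) (hs' : IsDecT f (ρ b) r' s') : r = r' := by
  obtain ⟨c, hc⟩ := isConj_iff.1 hab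
  have h1 := hs.transport (t' := ρ b) (ρ c) (rho_bij c).1 (rho_bij c).2 (D.pres c) (rho_conj a b c hc)
  rw [← h1.rank hf, hs'.rank hf]

theorem FrameData.kAA [CharP F 2] [FiniteDimensional F V] (hf : AltForm f) (D : FrameData f ρ CT CA m mA)
    (a b : G) (r r' : ℕ) (s : Fin r → V) (s' : Fin r' → V) (hab : IsConj a b)
    (hs : IsDecA f (ρ a) r s) (hs' : IsDecA f (ρ b) r' s') : r = r' := by
  obtain ⟨c, hc⟩ := isConj_iff.1 hab
  have h1 := hs.transport (t' := ρ b) (ρ c) (rho_bij c).1 (rho_bij c).2 (D.pres c) (rho_conj a b c hc)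
  rw [← h1.rank hf, hs'.rank hf]

theorem FrameData.kTA [CharP F 2] [FiniteDimensional F V] (hf : AltForm f) (D : FrameData f ρ CT CA m mA)
    (a b : G) (r r' : ℕ) (s : Fin r → V) (s' : Fin r' → V) (hab : IsConj a b) (hr : 0 < r)
    (hs : IsDecT f (ρ a) r s) (hs' : IsDecA f (ρ b) r' s') : False := by
  obtain ⟨c, hc⟩ := isConj_iff.1 hab
  have h1 := hs.transport (t' := ρ b) (ρ c) (rho_bij c).1 (rho_bij c).2 (D.pres c) (rho_conj a b c hc)
  obtain ⟨v, hv⟩ := h1.not_all hf hr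
  exact hv (hs'.form hf v)

theorem FrameData.conjT (D : FrameData f ρ CT CA m mA) (a b : G) (r : ℕ) (s s' : Fin r → V)
    (hs : IsDecT f (ρ a) r s) (hs' : IsDecT f (ρ b) r s') : IsConj a b := by
  obtain ⟨h, hh⟩ := D.wT r s s' hs.1 hs'.1 hs.2.1 hs'.2.1 (D.hCT _ _ _ hs) (D.hCT _ _ _ hs')
  exact conj_of_intertwine' D.inj _ _ h (hs.intertwine hs' _ (D.pres h) hh)

theorem FrameData.conjA (D : FrameData f ρ CT CA m mA) (a b : G) (r : ℕ) (s s' : Fin r → V)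
    (hs : IsDecA f (ρ a) r s) (hs' : IsDecA f (ρ b) r s') : IsConj a b := by
  obtain ⟨h, hh⟩ := D.wA r s s' hs.1 hs'.1 hs.2.1 hs'.2.1 (D.hCA _ _ _ hs) (D.hCA _ _ _ hs')
  exact conj_of_intertwine' D.inj _ _ h (hs.intertwine hs' _ (D.pres h) hh)

theorem FrameData.repT [CharP F 2] [FiniteDimensional F V] (hf : AltForm f) (D : FrameData f ρ CT CA m mA)
    (r : ℕ) (hr0 : 0 < r) (hr : r ≤ m) : ∃ g : G, orderOf g = 2 ∧ ∃ s : Fin r → V, IsDecT f (ρ g) r s := by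
  obtain ⟨s, hs1, hs2, hs3⟩ := (D.xT r).2 hr
  have hd : IsDecT f (mkT f s) r s := ⟨hs1, hs2, mkT_apply s⟩
  obtain ⟨g, hg⟩ := D.eT _ s _ hd hs3
  rw [← hg] at hd
  exact ⟨g, order_two_of D.inj g (hd.invOn hf).sq (hd.ne_fix hf hr0), s, hd⟩

theorem FrameData.repA [CharP F 2] [FiniteDimensional F V] (hf : AltForm f) (D : FrameData f ρ CT CA m mA)
    (r : ℕ) (hr0 : 0 < r) (hr : r ≤ mA) (he : Even r) :
    ∃ g : G, orderOf g = 2 ∧ ∃ s : Fin r → V, IsDecA f (ρ g) r s := by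
  obtain ⟨s, hs1, hs2, hs3⟩ := (D.xA r).2 hr
  have hd : IsDecA f (mkA f s) r s := ⟨hs1, hs2, he, mkA_apply s⟩
  obtain ⟨g, hg⟩ := D.eA _ s _ hd hs3
  rw [← hg] at hd
  exact ⟨g, order_two_of D.inj g (hd.invOn hf).sq (hd.ne_fix hf hr0), s, hd⟩

/-- classification of an involution -/
theorem FrameData.classify [Fintype F] [CharP F 2] [FiniteDimensional F V] (hf : AltForm f)
    (D : FrameData f ρ CT CA m mA) (g : G) (hg : orderOf g = 2) :
    (∃ r, 0 < r ∧ r ≤ m ∧ ∃ s : Fin r → V, IsDecT f (ρ g) r s) ∨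
    (∃ r, 0 < r ∧ r ≤ mA ∧ ∃ s : Fin r → V, IsDecA f (ρ g) r s) := by
  obtain ⟨hsq, hne⟩ := of_order_two D.inj g hg
  have hinv : InvOn f (ρ g) := ⟨hsq, D.pres g⟩
  rcases exists_dec hf hinv hne with ⟨-, r, s, hs⟩ | ⟨-, r, s, hs⟩
  · left
    have hr0 : r ≠ 0 := by
      rintro rfl
      obtain ⟨y, hy⟩ := hne
      apply hy
      rw [hs.2.2]; simp
    exact ⟨r, by omega, (D.xT r).1 ⟨s, hs.1, hs.2.1, D.hCT g _ s hs⟩, s, hs⟩
  · right
    have hr0 : r ≠ 0 := by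
      rintro rfl
      obtain ⟨y, hy⟩ := hne
      apply hy
      rw [hs.2.2.2]; simp
    exact ⟨r, by omega, (D.xA r).1 ⟨s, hs.1, hs.2.1, D.hCA g _ s hs⟩, s, hs⟩

end Cfsg.Agent.Lib.Helper15
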