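import Mathlib
import Cfsg.Agent.Lib.Helper15.InvCnt6

set_option autoImplicit false

namespace Cfsg.Agent.Lib.Helper15

open Module Cfsg QuadraticMap
open scoped Matrix

variable {ι : Type} [Fintype ι] [DecidableEq ι] {F : Type*} [Field F]

/-- what is needed about `Ω` -/
structure OmData (Q : QuadraticForm F (ι → F)) (δ : isometryGroup F Q →* ℤˣ) : Prop where
  mem : ∀ g, g ∈ Omega F Q ↔ δ g = 1
  refl : ∀ u (hu : Q u ≠ 0), δ (refl Q u hu) = -1
  rank : ∀ g, g ∈ Omega F Q ↔ Even (finrank F (LinearMap.range (toEnd Q g - 1 : Module.End F (ι → F))))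
  lagr : ∀ t s c : isometryGroup F Q, t ∈ Omega F Q → c * t * c⁻¹ = s →
    IsLagr Q (LinearMap.range (toEnd Q t - 1 : Module.End F (ι → F))) →
    (c ∈ Omega F Q ↔ Even (finrank F ↥(LinearMap.range (toEnd Q t - 1 : Module.End F (ι → F)) ⊓
      LinearMap.range (toEnd Q s - 1 : Module.End F (ι → F)))))

theorem OmData.conj_of_fixed {Q : QuadraticForm F (ι → F)} {δ : isometryGroup F Q →* ℤˣ} (E : OmData Q δ)
    (t s : isometryGroup F Q) (hconj : IsConj t s) (u : ι → F) (htu : toEnd Q t u = u) (hu : Q u ≠ 0) :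
    ∃ g ∈ Omega F Q, g * t * g⁻¹ = s := by
  obtain ⟨c, hc⟩ := isConj_iff.1 hconj
  by_cases hcO : c ∈ Omega F Q
  · exact ⟨c, hcO, hc⟩
  have hcomm : Cfsg.Agent.Lib.Helper15.refl Q u hu * t = t * Cfsg.Agent.Lib.Helper15.refl Q u hu := by
    apply toEnd_injective Q
    rw [map_mul, map_mul, toEnd_refl]
    apply LinearMap.ext
    intro x
    rw [Module.End.mul_apply, Module.End.mul_apply, reflL_apply, reflL_apply, map_sub, map_smul, htu]
    congr 3
    conv_lhs => rw [← htu]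
    exact (toEnd_isIso Q t).polar u x
  refine ⟨c * Cfsg.Agent.Lib.Helper15.refl Q u hu, ?_, ?_⟩
  · rw [E.mem, map_mul, E.refl]
    rw [E.mem] at hcO
    rcases Int.units_eq_one_or (δ c) with h1 | h1
    · exact absurd h1 hcO
    · rw [h1]; rfl
  · rw [← hc, _root_.mul_inv_rev, mul_assoc c, hcomm]
    group

theorem omega_card [Fintype F] [CharP F 2] (Q : QuadraticForm F (ι → F))
    (hQ : (polarBilin Q).Nondegenerate) (δ : isometryGroup F Q →* ℤˣ) (E : OmData Q δ) {m mA : ℕ}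
    (D : FrameData (polarBilin Q) (toEnd Q) (fun r s => ∀ i : Fin r, Q (s i) = 1)
      (fun r s => ∀ i : Fin r, Q (s i) = 0) m mA)
    (hcard : Fintype.card ι = 2 * m) (hmA : mA ≤ m) (hm : 1 ≤ m) :
    Nat.card {C : ConjClasses (Omega F Q) // ∃ g : Omega F Q, ConjClasses.mk g = C ∧ orderOf g = 2} =
      m / 2 + mA / 2 + (if Even m ∧ mA = m then 1 else 0) := by
  classical
  have hf := altForm_polar Q hQ
  have repT : ∀ j : Fin (m / 2), ∃ g : isometryGroup F Q, orderOf g = 2 ∧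
      ∃ s : Fin (2 * (j.1 + 1)) → (ι → F), IsDecT (polarBilin Q) (toEnd Q g) (2 * (j.1 + 1)) s :=
    fun j => D.repT hf _ (by omega) (by omega)
  have repA : ∀ j : Fin (mA / 2), ∃ g : isometryGroup F Q, orderOf g = 2 ∧
      ∃ s : Fin (2 * (j.1 + 1)) → (ι → F), IsDecA (polarBilin Q) (toEnd Q g) (2 * (j.1 + 1)) s :=
    fun j => D.repA hf _ (by omega) (by omega) (even_two_mul _)
  choose gT hgT sT hsT using repT
  choose gA hgA sA hsA using repA
  have memT : ∀ j, gT j ∈ Omega F Q := fun j =>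
    (E.rank _).2 (by rw [(hsT j).rank hf]; exact even_two_mul _)
  have memA : ∀ j, gA j ∈ Omega F Q := fun j =>
    (E.rank _).2 (by rw [(hsA j).rank hf]; exact even_two_mul _)
  have conjΩ : ∀ a b : Omega F Q, IsConj a b ↔ ∃ g ∈ Omega F Q, g * a.1 * g⁻¹ = b.1 := by
    intro a b
    rw [isConj_iff]
    constructor
    · rintro ⟨c, hc⟩
      exact ⟨c.1, c.2, by rw [← hc]; rfl⟩
    · rintro ⟨g, hg, hgc⟩
      exact ⟨⟨g, hg⟩, Subtype.ext hgc⟩
  have conjO : ∀ a b : Omega F Q, IsConj a b → IsConj a.1 b.1 := by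
    intro a b h
    obtain ⟨g, -, hg⟩ := (conjΩ a b).1 h
    exact isConj_iff.2 ⟨g, hg⟩
  let rep₀ : Fin (m / 2) ⊕ Fin (mA / 2) → Omega F Q :=
    Sum.elim (fun j => ⟨gT j, memT j⟩) (fun j => ⟨gA j, memA j⟩)
  have hrep₀ : ∀ y, orderOf (rep₀ y) = 2 := by
    rintro (j | j)
    · show orderOf (⟨gT j, memT j⟩ : Omega F Q) = 2
      rw [Subgroup.orderOf_mk]; exact hgT j
    · show orderOf (⟨gA j, memA j⟩ : Omega F Q) = 2
      rw [Subgroup.orderOf_mk]; exact hgA j
  have hinj₀ : ∀ y y', IsConj (rep₀ y).1 (rep₀ y').1 → y = y' := by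
    rintro (i | j) (i' | j') h1
    · have := D.kTT hf _ _ _ _ _ _ h1 (hsT i) (hsT i')
      congr 1
      apply Fin.ext
      omega
    · exact (D.kTA hf _ _ _ _ _ _ h1 (by omega) (hsT i) (hsA j')).elim
    · exact (D.kTA hf _ _ _ _ _ _ h1.symm (by omega) (hsT i') (hsA j)).elim
    · have := D.kAA hf _ _ _ _ _ _ h1 (hsA j) (hsA j')
      congr 1
      apply Fin.ext
      omega
  have surjT : ∀ (x : Omega F Q) (r : ℕ) (s : Fin r → (ι → F)), 0 < r → r ≤ m →
      IsDecT (polarBilin Q) (toEnd Q x.1) r s → ∃ y, IsConj (rep₀ y) x := by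
    intro x r s hr0 hrm hs
    have he : Even r := by
      have := (E.rank x.1).1 x.2
      rwa [hs.rank hf] at this
    obtain ⟨l, rfl⟩ : ∃ l, r = 2 * (l + 1) := by
      obtain ⟨k, hk⟩ := he
      exact ⟨k - 1, by omega⟩
    refine ⟨Sum.inl ⟨l, by omega⟩, ?_⟩
    rw [conjΩ]
    have hs0 := hsT ⟨l, by omega⟩
    have hc : IsConj (gT ⟨l, by omega⟩) x.1 := D.conjT _ _ _ _ _ hs0 hs
    exact E.conj_of_fixed _ _ hc (sT ⟨l, by omega⟩ ⟨0, by omega⟩) (hs0.fix _ (fun i => hs0.2.1 _ i))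
      (by rw [D.hCT _ _ _ hs0]; exact one_ne_zero)
  have surjA : ∀ (x : Omega F Q) (r : ℕ) (s : Fin r → (ι → F)), 0 < r → r ≤ mA →
      IsDecA (polarBilin Q) (toEnd Q x.1) r s → orderOf x = 2 → (∃ y, IsConj (rep₀ y) x) ∨ r = m := by
    intro x r s hr0 hrm hs hx
    have hx' : orderOf x.1 = 2 := by rw [← hx]; exact (Subgroup.orderOf_coe x)
    rcases inv_fixed_or_lagr Q hQ (of_order_two D.inj x.1 hx').1 with ⟨u, hu1, hu2⟩ | hL
    · left
      obtain ⟨l, rfl⟩ : ∃ l, r = 2 * (l + 1) := by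
        obtain ⟨k, hk⟩ := hs.2.2.1
        exact ⟨k - 1, by omega⟩
      refine ⟨Sum.inr ⟨l, by omega⟩, ?_⟩
      apply IsConj.symm
      rw [conjΩ]
      have hs0 := hsA ⟨l, by omega⟩
      have hc : IsConj x.1 (gA ⟨l, by omega⟩) := D.conjA _ _ _ _ _ hs hs0
      exact E.conj_of_fixed _ _ hc u hu1 hu2
    · right
      have := hL.dim
      rw [hs.rank hf, Module.finrank_fintype_fun_eq_card, hcard] at this
      omega
  by_cases hsplit : Even m ∧ mA = m
  · rw [if_pos hsplit]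
    obtain ⟨hme, rfl⟩ := hsplit
    obtain ⟨l, hl⟩ : ∃ l, mA = 2 * (l + 1) := by
      obtain ⟨k, hk⟩ := hme
      exact ⟨k - 1, by omega⟩
    have hlt : l < mA / 2 := by omega
    obtain ⟨g₀, hg₀⟩ : ∃ g₀, g₀ = gA ⟨l, hlt⟩ := ⟨_, rfl⟩
    have hs0 : IsDecA (polarBilin Q) (toEnd Q g₀) (2 * (l + 1)) (sA ⟨l, hlt⟩) := by
      rw [hg₀]; exact hsA ⟨l, hlt⟩
    have hg₀O : g₀ ∈ Omega F Q := by rw [hg₀]; exact memA _
    have hL : IsLagr Q (LinearMap.range (toEnd Q g₀ - 1 : Module.End F (ι → F))) := by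
      refine ⟨?_, ?_⟩
      · rw [hs0.range_eq hf]
        exact sing_span Q _ hs0.2.1 (D.hCA _ _ _ hs0)
      · rw [hs0.rank hf, Module.finrank_fintype_fun_eq_card, hcard, hl]
    obtain ⟨s₁, -, -, hs₁⟩ := (D.xT 1).2 hm
    have hu : Q (s₁ 0) ≠ 0 := by rw [hs₁]; exact one_ne_zero
    obtain ⟨c, hc⟩ : ∃ c, c = Cfsg.Agent.Lib.Helper15.refl Q (s₁ 0) hu := ⟨_, rfl⟩
    have hδc : δ c = -1 := by rw [hc]; exact E.refl _ _
    have hcO : c ∉ Omega F Q := by
      rw [E.mem, hδc]; decide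
    have hg₁O : c * g₀ * c⁻¹ ∈ Omega F Q :=
      (inferInstance : (Omega F Q).Normal).conj_mem g₀ hg₀O c
    let rep : (Fin (mA / 2) ⊕ Fin (mA / 2)) ⊕ Unit → Omega F Q :=
      Sum.elim rep₀ (fun _ => ⟨c * g₀ * c⁻¹, hg₁O⟩)
    have hno : ∀ y, ¬ IsConj (rep₀ y) (⟨c * g₀ * c⁻¹, hg₁O⟩ : Omega F Q) := by
      intro y hy
      have h1 : IsConj (rep₀ y).1 (rep₀ (Sum.inr ⟨l, hlt⟩)).1 := by
        refine (conjO _ _ hy).trans ?_
        show IsConj (c * g₀ * c⁻¹) (gA ⟨l, hlt⟩)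
        rw [← hg₀]
        exact (isConj_iff.2 ⟨c, rfl⟩ : IsConj g₀ (c * g₀ * c⁻¹)).symm
      have h2 := hinj₀ _ _ h1
      subst h2
      obtain ⟨h, hhO, hh⟩ := (conjΩ _ _).1 hy
      have hh' : h * g₀ * h⁻¹ = c * g₀ * c⁻¹ := by
        have h5 : h * gA ⟨l, hlt⟩ * h⁻¹ = c * g₀ * c⁻¹ := hh
        rwa [← hg₀] at h5
      have h3 := (E.lagr g₀ _ h hg₀O hh' hL).1 hhO
      exact hcO ((E.lagr g₀ _ c hg₀O rfl hL).2 h3)
    have key := card_classes_of_reps rep (by
        rintro (y | _)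
        · exact hrep₀ y
        · show orderOf (⟨c * g₀ * c⁻¹, hg₁O⟩ : Omega F Q) = 2
          rw [Subgroup.orderOf_mk]
          have := orderOf_injective (MulAut.conj c).toMonoidHom (MulAut.conj c).injective g₀
          rw [hg₀, hgA] at this
          rw [hg₀]
          exact this)
      (by
        rintro (y | _) (y' | _) h
        · rw [hinj₀ y y' (conjO _ _ h)]
        · exact (hno y h).elim
        · exact (hno y' h.symm).elim
        · rfl)
      (by
        intro x hx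
        have hx' : orderOf x.1 = 2 := by rw [← hx]; exact (Subgroup.orderOf_coe x)
        rcases D.classify hf x.1 hx' with ⟨r, hr0, hr, s, hs⟩ | ⟨r, hr0, hr, s, hs⟩
        · obtain ⟨y, hy⟩ := surjT x r s hr0 hr hs
          exact ⟨Sum.inl y, hy⟩
        · rcases surjA x r s hr0 hr hs hx with ⟨y, hy⟩ | hrm
          · exact ⟨Sum.inl y, hy⟩
          · have hr2 : r = 2 * (l + 1) := by omega
            subst hr2
            obtain ⟨c', hc'⟩ := isConj_iff.1 (D.conjA _ _ _ _ _ hs0 hs)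
            by_cases hc'O : c' ∈ Omega F Q
            · refine ⟨Sum.inl (Sum.inr ⟨l, hlt⟩), ?_⟩
              show IsConj (⟨gA ⟨l, hlt⟩, memA _⟩ : Omega F Q) x
              rw [conjΩ]
              exact ⟨c', hc'O, by
                show c' * gA ⟨l, hlt⟩ * c'⁻¹ = x.1
                rw [← hg₀]; exact hc'⟩
            · refine ⟨Sum.inr (), ?_⟩
              show IsConj (⟨c * g₀ * c⁻¹, hg₁O⟩ : Omega F Q) x
              rw [conjΩ]
              refine ⟨c' * c⁻¹, ?_, ?_⟩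
              · rw [E.mem, map_mul, map_inv, hδc]
                rw [E.mem] at hc'O
                rcases Int.units_eq_one_or (δ c') with h1 | h1
                · exact absurd h1 hc'O
                · rw [h1]; rfl
              · rw [← hc']
                show c' * c⁻¹ * (c * g₀ * c⁻¹) * (c' * c⁻¹)⁻¹ = _
                group)
    rw [key]
    simp only [Fintype.card_sum, Fintype.card_fin, Fintype.card_unit]
  · rw [if_neg hsplit, add_zero]
    have key := card_classes_of_reps rep₀ hrep₀ (fun y y' h => hinj₀ y y' (conjO _ _ h))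
      (by
        intro x hx
        have hx' : orderOf x.1 = 2 := by rw [← hx]; exact (Subgroup.orderOf_coe x)
        rcases D.classify hf x.1 hx' with ⟨r, hr0, hr, s, hs⟩ | ⟨r, hr0, hr, s, hs⟩
        · exact surjT x r s hr0 hr hs
        · rcases surjA x r s hr0 hr hs hx with h | hrm
          · exact h
          · exfalso
            apply hsplit
            exact ⟨by rw [← hrm]; exact hs.2.2.1, by omega⟩)
    rw [key]
    simp only [Fintype.card_sum, Fintype.card_fin]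

end Cfsg.Agent.Lib.Helper15
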