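import Mathlib
import Cfsg.Agent.Lib.Helper15.InvCnt7

set_option autoImplicit false

namespace Cfsg.Agent.Lib.Helper15

open Module Cfsg QuadraticMap
open scoped Matrix

variable {ι : Type} [Fintype ι] [DecidableEq ι] {F : Type*} [Field F]

theorem omData_dickson [Fintype F] [CharP F 2] (Q : QuadraticForm F (ι → F))
    (hQ : (polarBilin Q).Nondegenerate) (h : Fintype.card F ≠ 2 ∨ Fintype.card ι ≠ 4) :
    OmData Q (dickson Q hQ h) where
  mem := fun g => by rw [mem_Omega_iff_dickson Q hQ h, dickson_apply]
  refl := fun u hu => dickson_refl Q hQ h u hu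
  rank := fun g => by rw [mem_Omega_iff_rank Q hQ h, rank_eq_finrank_range]
  lagr := fun t s c htO hc hL => mem_Omega_iff_of_conj_lagr Q hQ h t s c htO hc hL

theorem plus_omega_card [Fintype F] [CharP F 2] (m : ℕ) (hm : 1 ≤ m) (h : Fintype.card F ≠ 2 ∨ m ≠ 2) :
    Nat.card {C : ConjClasses (Omega F (qPlus m F)) //
      ∃ g : Omega F (qPlus m F), ConjClasses.mk g = C ∧ orderOf g = 2} =
      2 * (m / 2) + (if Even m then 1 else 0) := by
  have h' : Fintype.card F ≠ 2 ∨ Fintype.card (Fin m ⊕ Fin m) ≠ 4 := by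
    rcases h with h | h
    · exact Or.inl h
    · right
      simp only [Fintype.card_sum, Fintype.card_fin]
      omega
  rw [omega_card (qPlus m F) (qPlus_nondegenerate m F) _ (omData_dickson _ (qPlus_nondegenerate m F) h') (plus_frameData m)
    (by simp only [Fintype.card_sum, Fintype.card_fin]; omega) le_rfl hm]
  simp only [and_true]
  omega

end Cfsg.Agent.Lib.Helper15
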