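import Mathlib
import Cfsg.Agent.Lib.Helper15.InvCnt8

set_option autoImplicit false

namespace Cfsg.Agent.Lib.Helper15

open Module Cfsg QuadraticMap
open scoped Matrix

section gen

variable {F V : Type*} [Field F] [AddCommGroup V] [Module F V]

theorem eich_refprod_nl [FiniteDimensional F V] (Q : QuadraticForm F V)
    (hdim : finrank F V = 4) (hnl : ∀ U : Submodule F V, ¬ IsLagr Q U)
    (y z : V) (hy : Q y = 0) (hyz : polar Q y z = 0) : RefProd Q (eichL Q y z) := by
  by_cases hz : Q z = 0
  · by_cases hmem : z ∈ Submodule.span F {y}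
    · obtain ⟨c, rfl⟩ := Submodule.mem_span_singleton.1 hmem
      rw [eich_smul_self Q y c hy]; exact RefProd.one Q
    · by_cases hy0 : y = 0
      · subst hy0
        have : eichL Q 0 z = 1 := by
          ext x; rw [eichL_apply]; simp
        rw [this]; exact RefProd.one Q
      · exfalso
        have hli : LinearIndependent F ![y, z] := by
          rw [LinearIndependent.pair_iff' hy0]
          intro a ha
          apply hmem
          rw [← ha]
          exact Submodule.smul_mem _ _ (Submodule.mem_span_singleton_self y)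
        apply hnl (Submodule.span F (Set.range ![y, z]))
        refine ⟨sing_span Q _ ?_ ?_, ?_⟩
        · intro i j
          fin_cases i <;> fin_cases j
          · simp [polar_self, hy]
          · simpa using hyz
          · simpa [polar_comm Q z y] using hyz
          · simp [polar_self, hz]
        · intro i
          fin_cases i
          · simpa using hy
          · simpa using hz
        · rw [finrank_span_eq_card hli, hdim]
          simp
  · rw [eich_eq_refl_mul Q y z hy hyz hz]
    have e1 : Q (z + (-Q z) • y) ≠ 0 := by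
      rw [Q_add_one, hy, polar_comm Q z y, hyz]; simpa using hz
    exact (RefProd.refl Q _ hz).mul (RefProd.refl Q _ e1)

theorem cartan_dieudonne_nl [FiniteDimensional F V] (Q : QuadraticForm F V) (hQ : (polarBilin Q).Nondegenerate)
    (hnl : ∀ U : Submodule F V, ¬ IsLagr Q U) (g : Module.End F V) (hg : IsIso Q g) :
    RefProd Q g := by
  by_cases hdim : finrank F V = 4
  · have := hg.elem hQ
    induction this using Submonoid.closure_induction with
    | mem x hx =>
      rcases hx with ⟨u, hu, rfl⟩ | ⟨y, z, hy, hyz, rfl⟩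
      · exact RefProd.refl Q u hu
      · exact eich_refprod_nl Q hdim hnl y z hy hyz
    | one => exact RefProd.one Q
    | mul x y hx' hy' hx hy => exact (hx (Elem.isIso hx')).mul (hy (Elem.isIso hy'))
  · exact cartan_dieudonne Q hQ (Or.inr hdim) g hg

end gen

variable {ι : Type} [Fintype ι] [DecidableEq ι] {F : Type*} [Field F]

theorem exists_refl_list_nl (Q : QuadraticForm F (ι → F))
    (hQ : (QuadraticMap.polarBilin Q).Nondegenerate) (hnl : ∀ U : Submodule F (ι → F), ¬ IsLagr Q U)
    (g : isometryGroup F Q) : ∃ vs : List (ι → F), (∀ v ∈ vs, Q v ≠ 0) ∧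
      ((g : Matrix.GeneralLinearGroup ι F) : Matrix ι ι F) = (vs.map (fun v => reflectionMatrix Q v)).prod := by
  obtain ⟨L, hL, hg⟩ := cartan_dieudonne_nl Q hQ hnl (toEnd Q g) (toEnd_isIso Q g)
  refine ⟨L, hL, ?_⟩
  apply (Matrix.toLinAlgEquiv' : Matrix ι ι F ≃ₐ[F] _).injective
  rw [prod_reflectionMatrix, ← hg]
  rfl

/-- the Dickson invariant as a homomorphism, no Lagrangians -/
noncomputable def dicksonNL (Q : QuadraticForm F (ι → F))
    (hQ : (QuadraticMap.polarBilin Q).Nondegenerate) (hnl : ∀ U : Submodule F (ι → F), ¬ IsLagr Q U) :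
    isometryGroup F Q →* ℤˣ :=
  MonoidHom.mk' (dicksonVal Q) (by
    intro a b
    obtain ⟨va, hva, ha⟩ := exists_refl_list_nl Q hQ hnl a
    obtain ⟨vb, hvb, hb⟩ := exists_refl_list_nl Q hQ hnl b
    rw [dicksonVal_eq Q hQ a va hva ha, dicksonVal_eq Q hQ b vb hvb hb,
      dicksonVal_eq Q hQ (a * b) (va ++ vb) (by
        intro v hv
        rcases List.mem_append.1 hv with h | h
        · exact hva v h
        · exact hvb v h) (by
        rw [List.map_append, List.prod_append, ← ha, ← hb]; rfl),
      List.length_append, pow_add])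

theorem dicksonNL_apply (Q : QuadraticForm F (ι → F))
    (hQ : (QuadraticMap.polarBilin Q).Nondegenerate) (hnl : ∀ U : Submodule F (ι → F), ¬ IsLagr Q U)
    (g : isometryGroup F Q) : dicksonNL Q hQ hnl g = dicksonVal Q g := rfl

theorem mem_Omega_iff_dicksonNL [Finite F] [CharP F 2] (Q : QuadraticForm F (ι → F))
    (hQ : (QuadraticMap.polarBilin Q).Nondegenerate) (hnl : ∀ U : Submodule F (ι → F), ¬ IsLagr Q U)
    (g : isometryGroup F Q) : g ∈ Omega F Q ↔ dicksonVal Q g = 1 := by
  obtain ⟨vs, hvs, hg⟩ := exists_refl_list_nl Q hQ hnl g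
  constructor
  · intro hmem
    have h1 : dicksonNL Q hQ hnl g = 1 := Abelianization.commutator_subset_ker _ hmem
    rwa [dicksonNL_apply] at h1
  · intro h1
    rw [dicksonVal_eq Q hQ g vs hvs hg] at h1
    exact even_prod_mem_Omega Q hQ g vs hvs hg ((neg_one_pow_eq_one_iff_even (by decide)).1 h1)

theorem omData_nl [Finite F] [CharP F 2] (Q : QuadraticForm F (ι → F))
    (hQ : (polarBilin Q).Nondegenerate) (hnl : ∀ U : Submodule F (ι → F), ¬ IsLagr Q U) :
    OmData Q (dicksonNL Q hQ hnl) where
  mem := fun g => by rw [mem_Omega_iff_dicksonNL Q hQ hnl, dicksonNL_apply]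
  refl := fun u hu => by
    rw [dicksonNL_apply, dicksonVal_eq Q hQ _ [u] (by simpa using hu) (by simp)]
    simp
  rank := fun g => by
    rw [mem_Omega_iff_dicksonNL Q hQ hnl, dicksonVal_eq_rank, neg_one_pow_eq_one_iff_even (by decide),
      rank_eq_finrank_range]
  lagr := fun t s c _ _ hL => absurd hL (hnl _)

theorem minus_omega_card [Fintype F] [CharP F 2] (k : ℕ) (a c : F)
    (hac : ∀ z₁ z₂ : F, z₁ ^ 2 + a * z₁ * z₂ + c * z₂ ^ 2 = 0 → z₁ = 0 ∧ z₂ = 0) :
    Nat.card {C : ConjClasses (Omega F (qMinus k F a c)) //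
      ∃ g : Omega F (qMinus k F a c), ConjClasses.mk g = C ∧ orderOf g = 2} = (k + 1) / 2 + k / 2 := by
  rw [omega_card (qMinus k F a c) (qMinus_nondegenerate k a c hac) _
    (omData_nl _ (qMinus_nondegenerate k a c hac) (qMinus_no_lagr k a c hac)) (minus_frameData k a c hac)
    (by simp only [Fintype.card_sum, Fintype.card_fin]; omega) (by omega) (by omega)]
  rw [if_neg (by omega)]
  rfl

end Cfsg.Agent.Lib.Helper15
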