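import Mathlib
import Cfsg.Agent.Lib.Helper15.InvCnt9

set_option autoImplicit false

namespace Cfsg.Agent.Lib.Helper15

open Module Cfsg QuadraticMap
open scoped Matrix

section gen

variable {F V : Type*} [Field F] [AddCommGroup V] [Module F V]

theorem mem_line_iff {W : Submodule F V} (hW : finrank F W = 1) {g : V} (hg : g ∈ W) (hg0 : g ≠ 0) (w : V) :
    w ∈ W ↔ ∃ c : F, c • g = w := by
  constructor
  · intro hw
    have h1 := (finrank_eq_one_iff_of_nonzero' (⟨g, hg⟩ : W) (by
      intro h; exact hg0 (congrArg Subtype.val h))).1 hW ⟨w, hw⟩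
    obtain ⟨c, hc⟩ := h1
    exact ⟨c, congrArg Subtype.val hc⟩
  · rintro ⟨c, rfl⟩
    exact W.smul_mem c hg

theorem card_nonsing_lines [Finite F] [Finite V] (Q : QuadraticForm F V) :
    Nat.card {W : Submodule F V // finrank F W = 1 ∧ ∃ v ∈ W, Q v ≠ 0} * (Nat.card F - 1) =
      Nat.card {v : V // Q v ≠ 0} := by
  classical
  have hgen : ∀ W : {W : Submodule F V // finrank F W = 1 ∧ ∃ v ∈ W, Q v ≠ 0}, ∃ v, v ∈ W.1 ∧ Q v ≠ 0 :=
    fun W => W.2.2
  choose g hgW hgQ using hgen
  have hg0 : ∀ W, g W ≠ 0 := by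
    intro W h
    apply hgQ W
    rw [h, map_zero]
  let e : {W : Submodule F V // finrank F W = 1 ∧ ∃ v ∈ W, Q v ≠ 0} × Fˣ → {v : V // Q v ≠ 0} :=
    fun p => ⟨(p.2 : F) • g p.1, by
      rw [QuadraticMap.map_smul]
      exact mul_ne_zero (mul_ne_zero p.2.ne_zero p.2.ne_zero) (hgQ p.1)⟩
  have hbij : Function.Bijective e := by
    constructor
    · rintro ⟨W, c⟩ ⟨W', c'⟩ h
      have h1 : (c : F) • g W = (c' : F) • g W' := congrArg Subtype.val h
      have hWW : W = W' := by
        apply Subtype.ext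
        ext w
        rw [mem_line_iff W.2.1 (hgW W) (hg0 W), mem_line_iff W'.2.1 (hgW W') (hg0 W')]
        constructor
        · rintro ⟨a, rfl⟩
          refine ⟨a * (c : F)⁻¹ * c', ?_⟩
          rw [mul_smul, ← h1, smul_smul, mul_assoc, inv_mul_cancel₀ c.ne_zero, mul_one]
        · rintro ⟨a, rfl⟩
          refine ⟨a * (c' : F)⁻¹ * c, ?_⟩
          rw [mul_smul, h1, smul_smul, mul_assoc, inv_mul_cancel₀ c'.ne_zero, mul_one]
      subst hWW
      have h2 : (c : F) = c' := smul_left_injective F (hg0 W) h1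
      rw [Units.ext h2]
    · rintro ⟨v, hv⟩
      have hv0 : v ≠ 0 := by
        rintro rfl
        exact hv (map_zero Q)
      let W : {W : Submodule F V // finrank F W = 1 ∧ ∃ v ∈ W, Q v ≠ 0} :=
        ⟨Submodule.span F {v}, finrank_span_singleton hv0, v, Submodule.mem_span_singleton_self v, hv⟩
      obtain ⟨a, ha⟩ := Submodule.mem_span_singleton.1 (hgW W)
      have ha0 : a ≠ 0 := by
        rintro rfl
        rw [zero_smul] at ha
        exact hg0 W ha.symm
      refine ⟨(W, Units.mk0 a⁻¹ (inv_ne_zero ha0)), ?_⟩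
      apply Subtype.ext
      show a⁻¹ • g W = v
      rw [← ha, smul_smul, inv_mul_cancel₀ ha0, one_smul]
  rw [← Nat.card_congr (Equiv.ofBijective e hbij), Nat.card_prod, Nat.card_units]

theorem card_nonsing [Finite V] (Q : QuadraticForm F V) :
    Nat.card {v : V // Q v ≠ 0} + zeros Q = Nat.card V := by
  classical
  have := Fintype.ofFinite V
  unfold zeros
  rw [Nat.card_eq_fintype_card, Nat.card_eq_fintype_card, Nat.card_eq_fintype_card,
    Fintype.card_subtype_compl (fun v => Q v = 0)]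
  have := Fintype.card_subtype_le (fun v => Q v = 0)
  omega

end gen

end Cfsg.Agent.Lib.Helper15
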