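import Mathlib
import Cfsg.Agent.Lib.Helper15.BlockDiag
import Cfsg.Agent.Lib.Helper15.OmegaCrit

set_option autoImplicit false
open Cfsg
open scoped Matrix

namespace Cfsg.Agent.Lib.Helper15

variable {κ μ : Type} [Fintype κ] [DecidableEq κ] [Fintype μ] [DecidableEq μ] {F : Type*} [Field F]

/-- the orthogonal sum as a bundled quadratic form -/
noncomputable def sumQ (Q₁ : QuadraticForm F (κ → F)) (Q₂ : QuadraticForm F (μ → F)) :
    QuadraticForm F (κ ⊕ μ → F) :=
  Q₁.comp (LinearMap.funLeft F F Sum.inl) + Q₂.comp (LinearMap.funLeft F F Sum.inr)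

theorem coe_sumQ (Q₁ : QuadraticForm F (κ → F)) (Q₂ : QuadraticForm F (μ → F)) :
    ⇑(sumQ Q₁ Q₂) = sumForm ⇑Q₁ ⇑Q₂ := rfl

theorem sumQ_apply (Q₁ : QuadraticForm F (κ → F)) (Q₂ : QuadraticForm F (μ → F)) (v : κ ⊕ μ → F) :
    sumQ Q₁ Q₂ v = Q₁ (v ∘ Sum.inl) + Q₂ (v ∘ Sum.inr) := rfl

theorem polar_sumQ (Q₁ : QuadraticForm F (κ → F)) (Q₂ : QuadraticForm F (μ → F)) (u v : κ ⊕ μ → F) :
    QuadraticMap.polar (sumQ Q₁ Q₂) u v =
      QuadraticMap.polar Q₁ (u ∘ Sum.inl) (v ∘ Sum.inl) + QuadraticMap.polar Q₂ (u ∘ Sum.inr) (v ∘ Sum.inr) := by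
  unfold QuadraticMap.polar
  simp only [sumQ_apply]
  have h1 : (u + v) ∘ Sum.inl = u ∘ Sum.inl + v ∘ (Sum.inl : κ → κ ⊕ μ) := rfl
  have h2 : (u + v) ∘ Sum.inr = u ∘ Sum.inr + v ∘ (Sum.inr : μ → κ ⊕ μ) := rfl
  rw [h1, h2]
  ring

theorem sumQ_nondegenerate (Q₁ : QuadraticForm F (κ → F)) (Q₂ : QuadraticForm F (μ → F))
    (h₁ : (QuadraticMap.polarBilin Q₁).Nondegenerate) (h₂ : (QuadraticMap.polarBilin Q₂).Nondegenerate) :
    (QuadraticMap.polarBilin (sumQ Q₁ Q₂)).Nondegenerate := by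
  have key : ∀ x : κ ⊕ μ → F, (∀ y, QuadraticMap.polar (sumQ Q₁ Q₂) x y = 0) → x = 0 := by
    intro x hx
    have e1 : x ∘ Sum.inl = 0 := by
      apply h₁.1
      intro y
      have := hx (Sum.elim y 0)
      rw [polar_sumQ] at this
      simpa using this
    have e2 : x ∘ Sum.inr = 0 := by
      apply h₂.1
      intro y
      have := hx (Sum.elim 0 y)
      rw [polar_sumQ] at this
      simpa using this
    ext i
    rcases i with i | i
    · exact congrFun e1 i
    · exact congrFun e2 i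
  refine ⟨fun x hx => key x hx, fun x hx => key x (fun y => ?_)⟩
  rw [QuadraticMap.polar_comm]
  exact hx y

theorem reflection_inl (Q₁ : QuadraticForm F (κ → F)) (Q₂ : QuadraticForm F (μ → F)) (v : κ → F) :
    reflectionMatrix (sumQ Q₁ Q₂) (Sum.elim v 0) = Matrix.fromBlocks (reflectionMatrix Q₁ v) 0 0 1 := by
  apply matrix_ext_mulVec
  intro x
  rw [reflectionMatrix_mulVec, polar_sumQ, sumQ_apply]
  conv_rhs => rw [← Sum.elim_comp_inl_inr x, Matrix.fromBlocks_mulVec]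
  ext i
  rcases i with i | i
  · simp [reflectionMatrix_mulVec]
  · simp

theorem reflection_inr (Q₁ : QuadraticForm F (κ → F)) (Q₂ : QuadraticForm F (μ → F)) (v : μ → F) :
    reflectionMatrix (sumQ Q₁ Q₂) (Sum.elim 0 v) = Matrix.fromBlocks 1 0 0 (reflectionMatrix Q₂ v) := by
  apply matrix_ext_mulVec
  intro x
  rw [reflectionMatrix_mulVec, polar_sumQ, sumQ_apply]
  conv_rhs => rw [← Sum.elim_comp_inl_inr x, Matrix.fromBlocks_mulVec]
  ext i
  rcases i with i | i
  · simp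
  · simp [reflectionMatrix_mulVec]

theorem fromBlocks_prod_inl (L : List (Matrix κ κ F)) :
    Matrix.fromBlocks L.prod 0 0 (1 : Matrix μ μ F) = (L.map (fun A => Matrix.fromBlocks A 0 0 (1 : Matrix μ μ F))).prod := by
  have := map_list_prod ((blockMatHom κ μ F).comp (MonoidHom.inl _ _)) L
  exact this

/-- squares lie in `Ω` -/
theorem sq_mem_Omega [Fintype F] (Q : QuadraticForm F (κ → F))
    (hQ : (QuadraticMap.polarBilin Q).Nondegenerate) (h : Fintype.card F ≠ 2 ∨ Fintype.card κ ≠ 4)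
    (a : isometryGroup F Q) : Abelianization.of a * Abelianization.of a = 1 := by
  obtain ⟨vs, hvs, hg⟩ := exists_refl_list Q hQ h a
  have hgp := eq_prod_reflT Q a vs hvs hg
  have h1 : powMonoidHom 2 (Abelianization.of a) = 1 := by
    rw [hgp, map_list_prod, map_list_prod, List.map_map, List.map_map]
    apply List.prod_eq_one
    intro x hx
    obtain ⟨v, hv, rfl⟩ := List.mem_map.1 hx
    simp only [Function.comp, powMonoidHom_apply, reflT_eq Q v (hvs v hv)]
    rw [pow_two, ← map_mul, refl_mul_self, map_one]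
  rwa [powMonoidHom_apply, pow_two] at h1

end Cfsg.Agent.Lib.Helper15
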