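import Mathlib
import Cfsg.Agent.Lib.Helper15.SumForm
import Cfsg.Agent.Lib.Helper15.PlusLagr

set_option autoImplicit false
open Cfsg
open scoped Matrix

namespace Cfsg.Agent.Lib.Helper15

open Module

variable {F : Type*} [Field F] {m : ℕ}

theorem quadFormPlus_eq_dot (v : Fin m ⊕ Fin m → F) :
    quadFormPlus m F v = (v ∘ Sum.inl) ⬝ᵥ (v ∘ Sum.inr) := rfl

theorem levi_isometry (A : GL (Fin m) F) (v : Fin m ⊕ Fin m → F) :
    quadFormPlus m F (Matrix.fromBlocks (A : Matrix (Fin m) (Fin m) F) 0 0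
      ((A : Matrix (Fin m) (Fin m) F)⁻¹).transpose *ᵥ v) = quadFormPlus m F v := by
  rw [quadFormPlus_eq_dot, quadFormPlus_eq_dot, fromBlocks_diag_mulVec_inl, fromBlocks_diag_mulVec_inr,
    Matrix.mulVec_transpose, dotProduct_comm, ← Matrix.dotProduct_mulVec, Matrix.mulVec_mulVec,
    Matrix.nonsing_inv_mul _ ((Matrix.isUnit_iff_isUnit_det _).1 A.isUnit), Matrix.one_mulVec, dotProduct_comm]

/-- the Levi embedding `A ↦ diag(A, A⁻ᵀ)` -/
noncomputable def levi (m : ℕ) (F : Type*) [Field F] : GL (Fin m) F →* isometryGroup F (qPlus m F) where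
  toFun A := ⟨⟨Matrix.fromBlocks (A : Matrix (Fin m) (Fin m) F) 0 0 ((A : Matrix (Fin m) (Fin m) F)⁻¹).transpose,
      Matrix.fromBlocks ((A : Matrix (Fin m) (Fin m) F)⁻¹) 0 0 (A : Matrix (Fin m) (Fin m) F).transpose, by
        have h := (Matrix.isUnit_iff_isUnit_det _).1 A.isUnit
        rw [Matrix.fromBlocks_multiply]
        simp only [mul_zero, zero_mul, add_zero, zero_add, ← Matrix.transpose_mul,
          Matrix.mul_nonsing_inv _ h, Matrix.transpose_one, Matrix.fromBlocks_one], by
        have h := (Matrix.isUnit_iff_isUnit_det _).1 A.isUnit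
        rw [Matrix.fromBlocks_multiply]
        simp only [mul_zero, zero_mul, add_zero, zero_add, ← Matrix.transpose_mul,
          Matrix.nonsing_inv_mul _ h, Matrix.transpose_one, Matrix.fromBlocks_one]⟩,
    (mem_isometryGroup _ _).2 (fun u => by rw [coe_qPlus]; exact levi_isometry A u)⟩
  map_one' := by
    apply isometry_ext
    simp
  map_mul' A B := by
    apply isometry_ext
    simp [Matrix.fromBlocks_multiply, Matrix.mul_inv_rev, Matrix.transpose_mul]

theorem coe_levi (A : GL (Fin m) F) :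
    (((levi m F A : isometryGroup F (qPlus m F)) : Matrix.GeneralLinearGroup (Fin m ⊕ Fin m) F) :
      Matrix (Fin m ⊕ Fin m) (Fin m ⊕ Fin m) F) =
      Matrix.fromBlocks (A : Matrix (Fin m) (Fin m) F) 0 0 ((A : Matrix (Fin m) (Fin m) F)⁻¹).transpose := rfl

/-- the vector `e_i - d f_i` -/
def hvec (m : ℕ) (F : Type*) [Field F] (D : Fin m → F) (i : Fin m) : Fin m ⊕ Fin m → F :=
  Pi.single (Sum.inl i) 1 - Pi.single (Sum.inr i) (D i)

theorem Q_hvec (D : Fin m → F) (i : Fin m) : qPlus m F (hvec m F D i) = -D i := by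
  rw [coe_qPlus]
  simp [quadFormPlus, hvec, Pi.single_apply]

theorem polar_hvec (D : Fin m → F) (i : Fin m) (x : Fin m ⊕ Fin m → F) :
    QuadraticMap.polar (qPlus m F) (hvec m F D i) x = x (Sum.inr i) - D i * x (Sum.inl i) := by
  rw [coe_qPlus, polar_quadFormPlus]
  simp [hvec, Pi.single_apply, Finset.sum_add_distrib, mul_neg, Finset.sum_neg_distrib]
  ring

theorem hvec_orth (D : Fin m → F) (i j : Fin m) (hij : i ≠ j) :
    QuadraticMap.polar (qPlus m F) (hvec m F D i) (hvec m F D j) = 0 := by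
  rw [polar_hvec]
  simp [hvec, hij]

theorem prod_hvec (D : Fin m → F) (hD : ∀ i, D i ≠ 0) (x : Fin m ⊕ Fin m → F) :
    ((List.finRange m).map (fun i => reflectionMatrix (qPlus m F) (hvec m F D i))).prod *ᵥ x =
      fun k => Sum.elim (fun i => (D i)⁻¹ * x (Sum.inr i)) (fun i => D i * x (Sum.inl i)) k := by
  rw [prod_reflection_formula (qPlus m F) (hvec m F D) (hvec_orth D) (List.finRange m) (List.nodup_finRange m) x,
    ← Fin.sum_univ_def]
  simp only [Q_hvec, polar_hvec]
  ext k
  rcases k with k | k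
  · simp only [hvec, Pi.sub_apply, Finset.sum_apply, Pi.smul_apply, Pi.single_apply, smul_eq_mul, Sum.elim_inl]
    simp
    have := hD k
    field_simp
    ring
  · simp only [hvec, Pi.sub_apply, Finset.sum_apply, Pi.smul_apply, Pi.single_apply, smul_eq_mul, Sum.elim_inr]
    simp
    have := hD k
    field_simp
    ring

end Cfsg.Agent.Lib.Helper15
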