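import Mathlib
import Cfsg.Agent.Lib.Helper15.Elus1
import Cfsg.Agent.Lib.Helper15.Levi
import Cfsg.Agent.Lib.Helper15.GeoBridge

set_option autoImplicit false

namespace Cfsg.Agent.Lib.Helper15

open Module Cfsg QuadraticMap
open scoped Matrix

theorem prime_dvd_lines {F : Type*} [Field F] [Fintype F] [CharP F 2] (d : ℕ) (r : ℕ) (hr : r.Prime)
    (h : r ∣ Nat.card {W : Submodule F (Fin d ⊕ Fin d → F) // finrank F W = 1 ∧ ∃ v ∈ W, qPlus d F v ≠ 0}) :
    r = 2 ∨ r ∣ Fintype.card F ^ d - 1 := by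
  obtain ⟨N, hN⟩ : ∃ N, N = Nat.card {W : Submodule F (Fin d ⊕ Fin d → F) //
    finrank F W = 1 ∧ ∃ v ∈ W, qPlus d F v ≠ 0} := ⟨_, rfl⟩
  rw [← hN] at h
  have hq : 1 < Fintype.card F := Fintype.one_lt_card
  obtain ⟨k, hk⟩ : ∃ k, Fintype.card F = k + 1 := ⟨Fintype.card F - 1, by omega⟩
  obtain ⟨a, ha⟩ : ∃ a, a = Fintype.card F ^ d := ⟨_, rfl⟩
  have e1 : N * k + zRec (Fintype.card F) 0 d = a * a := by
    have h1 := card_nonsing_lines (qPlus d F)
    have h2 := card_nonsing (qPlus d F)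
    rw [← hN, Nat.card_eq_fintype_card (α := F), hk, Nat.add_sub_cancel] at h1
    rw [← h1, (count_plus d).1, Nat.card_eq_fintype_card, Fintype.card_fun, Fintype.card_sum,
      Fintype.card_fin, pow_add, ← ha] at h2
    exact h2
  have e2 := zRec_closed (Fintype.card F) 0 d hq.le
  rw [zero_add, zero_add, pow_succ, two_mul, pow_add, ← ha] at e2
  rw [hk] at e2 e1
  have e3 : (k + 1) * N + a = a * a := by
    have hk0 : 0 < k := by omega
    apply Nat.eq_of_mul_eq_mul_left hk0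
    zify at e1 e2 ⊢
    linear_combination ((k : ℤ) + 1) * e1 - e2
  have ha1 : 1 ≤ a := by rw [ha]; exact Nat.one_le_pow _ _ (by omega)
  have e4 : (k + 1) * N = a * (a - 1) := by
    obtain ⟨b, rfl⟩ : ∃ b, a = b + 1 := ⟨a - 1, by omega⟩
    rw [Nat.add_sub_cancel]
    nlinarith
  have h3 : r ∣ a * (a - 1) := by rw [← e4]; exact Dvd.dvd.mul_left h _
  rcases (Nat.Prime.dvd_mul hr).1 h3 with h4 | h4
  · left
    rw [ha] at h4
    have h5 := hr.dvd_of_dvd_pow h4
    obtain ⟨n, -, hn⟩ := FiniteField.card F 2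
    rw [hn] at h5
    exact (Nat.prime_dvd_prime_iff_eq hr Nat.prime_two).1 (hr.dvd_of_dvd_pow h5)
  · right
    rw [← ha]; exact h4

theorem exists_matrix_order {F : Type*} [Field F] [Fintype F] (p : ℕ) [Fact p.Prime] [CharP F p] (d : ℕ)
    (hd : 1 ≤ d) (r : ℕ) [Fact r.Prime] (h : r ∣ Fintype.card F ^ d - 1) :
    ∃ A : GL (Fin d) F, A ^ r = 1 ∧ IsUnit ((A : Matrix (Fin d) (Fin d) F) - 1) := by
  have : NeZero d := ⟨by omega⟩
  have hK : Nat.card (FiniteField.Extension F p d)ˣ = Fintype.card F ^ d - 1 := by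
    rw [Nat.card_units, FiniteField.natCard_extension, Nat.card_eq_fintype_card]
  obtain ⟨ζ, hζ⟩ := exists_prime_orderOf_dvd_card' (G := (FiniteField.Extension F p d)ˣ) r (by rw [hK]; exact h)
  let b : Basis (Fin d) F (FiniteField.Extension F p d) :=
    Module.finBasisOfFinrankEq F _ (FiniteField.finrank_extension F p d)
  let φ := Algebra.leftMulMatrix b
  refine ⟨Units.map φ.toMonoidHom ζ, ?_, ?_⟩
  · rw [← map_pow, ← hζ, pow_orderOf_eq_one, map_one]
  · have h1 : ((ζ : FiniteField.Extension F p d) - 1) ≠ 0 := by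
      intro h0
      have : ζ = 1 := Units.ext (sub_eq_zero.1 h0)
      rw [this, orderOf_one] at hζ
      exact (Fact.out : r.Prime).one_lt.ne hζ
    have h2 : ((Units.map φ.toMonoidHom ζ : GL (Fin d) F) : Matrix (Fin d) (Fin d) F) - 1 =
        φ ((ζ : FiniteField.Extension F p d) - 1) := by
      rw [map_sub, map_one]; rfl
    rw [h2]
    exact (IsUnit.mk0 _ h1).map φ

variable {ι : Type} [Fintype ι] [DecidableEq ι] {F : Type*} [Field F]

theorem eigen_one [CharP F 2] (Q : QuadraticForm F (ι → F)) (x : isometryGroup F Q) (v : ι → F)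
    (hv : Q v ≠ 0) (c : F) (h : toEnd Q x v = c • v) : c = 1 := by
  have h2 : (2 : F) = 0 := CharTwo.two_eq_zero
  have h1 := toEnd_isIso Q x v
  rw [h, QuadraticMap.map_smul, smul_eq_mul] at h1
  have h3 : c * c = 1 := by
    apply mul_right_cancel₀ hv
    rw [h1, one_mul]
  have h4 : (c - 1) ^ 2 = 0 := by linear_combination h3 + (1 - c) * h2
  exact sub_eq_zero.1 (pow_eq_zero_iff (by norm_num) |>.1 h4)

theorem not_elusive_of [CharP F 2] (Q : QuadraticForm F (ι → F)) (x : isometryGroup F Q)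
    (hP0 : ∀ v, toEnd Q x v = v → Q v = 0) (v₀ : ι → F) (hv₀ : Q v₀ ≠ 0) :
    (∀ z : F, ((x : GL ι F) : Matrix ι ι F) ≠ z • (1 : Matrix ι ι F)) ∧
      ¬ ∃ W : Submodule F (ι → F), (finrank F W = 1 ∧ ∃ v ∈ W, Q v ≠ 0) ∧
        W.map (Matrix.toLin' ((x : GL ι F) : Matrix ι ι F)) ≤ W := by
  constructor
  · intro z hz
    have h1 : toEnd Q x v₀ = z • v₀ := by
      rw [toEnd_apply, hz, Matrix.smul_mulVec, Matrix.one_mulVec]
    have h2 := eigen_one Q x v₀ hv₀ z h1
    rw [h2, one_smul] at h1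
    exact hv₀ (hP0 _ h1)
  · rintro ⟨W, ⟨hW, v, hvW, hv⟩, hmap⟩
    have hv0 : v ≠ 0 := by
      rintro rfl
      exact hv (map_zero Q)
    have h1 : toEnd Q x v ∈ W := hmap ⟨v, hvW, rfl⟩
    obtain ⟨c, hc⟩ := (mem_line_iff hW hvW hv0 _).1 h1
    have h2 := eigen_one Q x v hv c hc.symm
    rw [h2, one_smul] at hc
    exact hv (hP0 _ hc.symm)

end Cfsg.Agent.Lib.Helper15
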