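import Mathlib
import Cfsg.Agent.Lib.Helper15.Elus2

set_option autoImplicit false

namespace Cfsg.Agent.Lib.Helper15

open Module Cfsg QuadraticMap
open scoped Matrix

variable {F : Type*} [Field F]

theorem levi_fixed (d : ℕ) (A : GL (Fin d) F) (hA : IsUnit ((A : Matrix (Fin d) (Fin d) F) - 1))
    (v : Fin d ⊕ Fin d → F) (hv : toEnd (qPlus d F) (levi d F A) v = v) : v = 0 := by
  rw [toEnd_apply, coe_levi] at hv
  have h1 : (A : Matrix (Fin d) (Fin d) F) *ᵥ (v ∘ Sum.inl) = v ∘ Sum.inl := by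
    rw [← fromBlocks_diag_mulVec_inl, hv]
  have h2 : ((A : Matrix (Fin d) (Fin d) F)⁻¹).transpose *ᵥ (v ∘ Sum.inr) = v ∘ Sum.inr := by
    rw [← fromBlocks_diag_mulVec_inr, hv]
  have hinj := Matrix.mulVec_injective_iff_isUnit.2 hA
  have hAt : IsUnit ((A : Matrix (Fin d) (Fin d) F) - 1).transpose := by
    rw [Matrix.isUnit_transpose]; exact hA
  have hinj' := Matrix.mulVec_injective_iff_isUnit.2 hAt
  have h3 : v ∘ Sum.inl = 0 := by
    apply hinj
    rw [Matrix.sub_mulVec, h1, Matrix.one_mulVec, sub_self, Matrix.mulVec_zero]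
  have h4 : v ∘ Sum.inr = 0 := by
    apply hinj'
    have hdet := (Matrix.isUnit_iff_isUnit_det _).1 A.isUnit
    have h5 : (A : Matrix (Fin d) (Fin d) F).transpose *ᵥ (v ∘ Sum.inr) = v ∘ Sum.inr := by
      conv_lhs => rw [← h2]
      rw [Matrix.mulVec_mulVec, ← Matrix.transpose_mul, Matrix.nonsing_inv_mul _ hdet, Matrix.transpose_one,
        Matrix.one_mulVec]
    rw [Matrix.transpose_sub, Matrix.transpose_one, Matrix.sub_mulVec, h5, Matrix.one_mulVec, sub_self,
      Matrix.mulVec_zero]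
  ext i
  rcases i with i | i
  · exact congrFun h3 i
  · exact congrFun h4 i

theorem plus_elusive [Fintype F] [CharP F 2] (d : ℕ) (hd : 4 ≤ d) (r : ℕ) [Fact r.Prime]
    (hrΩ : r ∣ Nat.card {W : Submodule F (Fin d ⊕ Fin d → F) //
      finrank F W = 1 ∧ ∃ v ∈ W, qPlus d F v ≠ 0}) :
    (∀ x : GL (Fin d ⊕ Fin d) F, x ∈ Geo.omegaGL (qPlus d F) →
      (∃ z : F, ((x ^ r : GL (Fin d ⊕ Fin d) F) : Matrix (Fin d ⊕ Fin d) (Fin d ⊕ Fin d) F) =
        z • (1 : Matrix (Fin d ⊕ Fin d) (Fin d ⊕ Fin d) F)) →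
      (∀ z : F, (x : Matrix (Fin d ⊕ Fin d) (Fin d ⊕ Fin d) F) ≠
        z • (1 : Matrix (Fin d ⊕ Fin d) (Fin d ⊕ Fin d) F)) →
      ∃ W : Submodule F (Fin d ⊕ Fin d → F), (finrank F W = 1 ∧ ∃ v ∈ W, qPlus d F v ≠ 0) ∧
        W.map (Matrix.toLin' (x : Matrix (Fin d ⊕ Fin d) (Fin d ⊕ Fin d) F)) ≤ W) ↔ (r = 2 ∧ Odd d) := by
  have hQ := qPlus_nondegenerate d F
  have hf := altForm_polar (qPlus d F) hQ
  have h' : Fintype.card F ≠ 2 ∨ Fintype.card (Fin d ⊕ Fin d) ≠ 4 := by
    right
    simp only [Fintype.card_sum, Fintype.card_fin]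
    omega
  have E := omData_dickson (qPlus d F) hQ h'
  have D := plus_frameData (F := F) d
  obtain ⟨s₁, -, -, hs₁⟩ := (D.xT 1).2 (by omega)
  have hv₀ : qPlus d F (s₁ 0) ≠ 0 := by rw [hs₁]; exact one_ne_zero
  have hcard : finrank F (Fin d ⊕ Fin d → F) = 2 * d := by
    rw [Module.finrank_fintype_fun_eq_card, Fintype.card_sum, Fintype.card_fin]; omega
  constructor
  · intro H
    have key : ∀ x : isometryGroup F (qPlus d F), x ∈ Omega F (qPlus d F) → x ^ r = 1 →
        (∀ v, toEnd (qPlus d F) x v = v → qPlus d F v = 0) → False := by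
      intro x hxO hxr hP0
      obtain ⟨h1, h2⟩ := not_elusive_of (qPlus d F) x hP0 _ hv₀
      refine h2 (H x.1 ((mem_omegaGL_iff _ _).2 ⟨x, hxO, rfl⟩) ⟨1, ?_⟩ h1)
      rw [one_smul]
      have : ((x ^ r : isometryGroup F (qPlus d F)) : GL (Fin d ⊕ Fin d) F) = 1 := by rw [hxr]; rfl
      have h3 : (x.1 ^ r : GL (Fin d ⊕ Fin d) F) = 1 := this
      rw [h3]; rfl
    have hr2 : r = 2 := by
      rcases prime_dvd_lines d r Fact.out hrΩ with h | h
      · exact h
      · exfalso
        by_cases hr2 : r = 2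
        · -- then `2 ∣ q ^ d - 1`, impossible
          obtain ⟨n, -, hn⟩ := FiniteField.card F 2
          rw [hr2, hn, ← pow_mul] at h
          have h3 : 2 ∣ 2 ^ ((n : ℕ) * d) := dvd_pow_self 2 (by
            have := n.pos
            exact (Nat.mul_pos this (by omega)).ne')
          have h4 : 1 ≤ 2 ^ ((n : ℕ) * d) := Nat.one_le_two_pow
          omega
        obtain ⟨A, hA1, hA2⟩ := exists_matrix_order 2 d (by omega) r h
        refine key (levi d F A) ?_ (by rw [← map_pow, hA1, map_one]) ?_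
        · rw [E.mem]
          have h3 : (dickson (qPlus d F) hQ h' (levi d F A)) ^ r = 1 := by
            rw [← map_pow, ← map_pow, hA1, map_one, map_one]
          rcases Int.units_eq_one_or (dickson (qPlus d F) hQ h' (levi d F A)) with h4 | h4
          · exact h4
          · exfalso
            rw [h4] at h3
            have hodd : Odd r := (Fact.out : r.Prime).odd_of_ne_two hr2
            rw [hodd.neg_one_pow] at h3
            exact absurd h3 (by decide)
        · intro v hv
          rw [levi_fixed d A hA2 v hv, map_zero]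
    refine ⟨hr2, ?_⟩
    by_contra hodd
    rw [Nat.not_odd_iff_even] at hodd
    obtain ⟨g, hg, s, hs⟩ := D.repA hf d (by omega) le_rfl hodd
    refine key g ?_ (by rw [hr2, ← hg]; exact pow_orderOf_eq_one g) ?_
    · rw [E.rank, hs.rank hf]; exact hodd
    · intro v hv
      have hWK : LinearMap.range (toEnd (qPlus d F) g - 1 : Module.End F (Fin d ⊕ Fin d → F)) ≤
          LinearMap.ker (toEnd (qPlus d F) g - 1 : Module.End F (Fin d ⊕ Fin d → F)) := by
        have h2 : (2 : F) = 0 := CharTwo.two_eq_zero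
        rintro _ ⟨x, rfl⟩
        rw [LinearMap.mem_ker]
        simp only [LinearMap.sub_apply, Module.End.one_apply, map_sub, (of_order_two D.inj g hg).1]
        linear_combination (norm := module) h2 • x - h2 • toEnd (qPlus d F) g x
      have h3 := LinearMap.finrank_range_add_finrank_ker
        (toEnd (qPlus d F) g - 1 : Module.End F (Fin d ⊕ Fin d → F))
      rw [hs.rank hf, hcard] at h3
      have h4 := Submodule.eq_of_le_of_finrank_eq hWK (by rw [hs.rank hf]; omega)
      have h5 : v ∈ LinearMap.ker (toEnd (qPlus d F) g - 1 : Module.End F (Fin d ⊕ Fin d → F)) := by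
        rw [mem_ker_sub_one']; exact hv
      rw [← h4, hs.range_eq hf] at h5
      exact sing_span _ s hs.2.1 (D.hCA _ _ _ hs) v h5
  · rintro ⟨rfl, hodd⟩ x hxΩ ⟨z, hz⟩ hns
    obtain ⟨g, hgO, rfl⟩ := (mem_omegaGL_iff _ _).1 hxΩ
    have h1 : ∀ v, toEnd (qPlus d F) (g ^ 2) v = z • v := by
      intro v
      rw [toEnd_apply]
      have : (((g ^ 2 : isometryGroup F (qPlus d F)) : GL (Fin d ⊕ Fin d) F) :
          Matrix (Fin d ⊕ Fin d) (Fin d ⊕ Fin d) F) = z • 1 := hz
      rw [this, Matrix.smul_mulVec, Matrix.one_mulVec]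
    have hz1 : z = 1 := eigen_one (qPlus d F) (g ^ 2) _ hv₀ z (h1 _)
    have hsq : ∀ v, toEnd (qPlus d F) g (toEnd (qPlus d F) g v) = v := by
      intro v
      have := h1 v
      rw [hz1, one_smul, pow_two, map_mul] at this
      exact this
    rcases inv_fixed_or_lagr (qPlus d F) hQ hsq with ⟨u, hu1, hu2⟩ | hL
    · have hu0 : u ≠ 0 := by
        rintro rfl
        exact hu2 (map_zero _)
      refine ⟨Submodule.span F {u}, ⟨finrank_span_singleton hu0, u, Submodule.mem_span_singleton_self u, hu2⟩, ?_⟩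
      rw [Submodule.map_span, Set.image_singleton]
      have : Matrix.toLin' ((g : GL (Fin d ⊕ Fin d) F) : Matrix (Fin d ⊕ Fin d) (Fin d ⊕ Fin d) F) u = u := hu1
      rw [this]
    · exfalso
      have h3 := hL.dim
      rw [hcard] at h3
      have h4 := (E.rank g).1 hgO
      have h5 : finrank F ↥(LinearMap.range (toEnd (qPlus d F) g - 1 : Module.End F (Fin d ⊕ Fin d → F))) = d := by
        omega
      rw [h5] at h4
      exact (Nat.not_even_iff_odd.2 hodd) h4

end Cfsg.Agent.Lib.Helper15
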