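import Cfsg.Agent.Lib.Helper15.NotMax3
import Cfsg.Agent.Lib.Helper15.Spinor
import Cfsg.Agent.Lib.Helper15.OrthoBasis

set_option autoImplicit false
open Cfsg QuadraticMap Matrix Module

namespace Cfsg.Agent.Lib.Helper15

variable {F : Type*} [Field F] {ι : Type} [Fintype ι] [DecidableEq ι]

theorem exists_between_set (Q : (ι → F) → F) (Sg : Subgroup (Matrix.GeneralLinearGroup ι F)) (S : Set (ι → F))
    (h1 : ∀ g ∈ Omega F Q, (g : Matrix.GeneralLinearGroup ι F) ∈ Sg →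
      ∀ v ∈ S, ((g : Matrix.GeneralLinearGroup ι F) : Matrix ι ι F) *ᵥ v ∈ S)
    (h2 : ∃ g ∈ Omega F Q, (∀ v ∈ S, ((g : Matrix.GeneralLinearGroup ι F) : Matrix ι ι F) *ᵥ v ∈ S) ∧
      (∀ v ∈ S, (((g⁻¹ : isometryGroup F Q) : Matrix.GeneralLinearGroup ι F) : Matrix ι ι F) *ᵥ v ∈ S) ∧
      (g : Matrix.GeneralLinearGroup ι F) ∉ Sg)
    (h3 : ∃ g ∈ Omega F Q, ¬ ∀ v ∈ S, ((g : Matrix.GeneralLinearGroup ι F) : Matrix ι ι F) *ᵥ v ∈ S) :
    ∃ K : Subgroup (Matrix.GeneralLinearGroup ι F), Sg ⊓ Geo.omegaGL Q < K ∧ K < Geo.omegaGL Q := by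
  let K' : Subgroup (Matrix.GeneralLinearGroup ι F) :=
    { carrier := {g | (∀ v ∈ S, (g : Matrix ι ι F) *ᵥ v ∈ S) ∧
        (∀ v ∈ S, ((g⁻¹ : Matrix.GeneralLinearGroup ι F) : Matrix ι ι F) *ᵥ v ∈ S)}
      one_mem' := ⟨fun v hv => by simpa using hv, fun v hv => by simpa using hv⟩
      mul_mem' := fun {a b} ha hb => ⟨fun v hv => by
        rw [Units.val_mul, ← Matrix.mulVec_mulVec]; exact ha.1 _ (hb.1 v hv), fun v hv => by
        rw [_root_.mul_inv_rev, Units.val_mul, ← Matrix.mulVec_mulVec]; exact hb.2 _ (ha.2 v hv)⟩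
      inv_mem' := fun {a} ha => ⟨ha.2, by rw [inv_inv]; exact ha.1⟩ }
  refine ⟨K' ⊓ Geo.omegaGL Q, ?_, ?_⟩
  · apply lt_of_le_of_ne
    · rintro x ⟨hxS, hxΩ⟩
      obtain ⟨g, hg, rfl⟩ := (mem_omegaGL_iff Q x).1 hxΩ
      exact ⟨⟨h1 g hg hxS, h1 g⁻¹ (inv_mem hg) (by simpa using Sg.inv_mem hxS)⟩, hxΩ⟩
    · intro he
      obtain ⟨g, hg, hg1, hg2, hgS⟩ := h2
      have : (g : Matrix.GeneralLinearGroup ι F) ∈ K' ⊓ Geo.omegaGL Q :=
        ⟨⟨hg1, hg2⟩, (mem_omegaGL_iff Q _).2 ⟨g, hg, rfl⟩⟩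
      rw [← he] at this
      exact hgS this.1
  · apply lt_of_le_of_ne inf_le_right
    intro he
    obtain ⟨g, hg, hgS⟩ := h3
    have : (g : Matrix.GeneralLinearGroup ι F) ∈ Geo.omegaGL Q := (mem_omegaGL_iff Q _).2 ⟨g, hg, rfl⟩
    rw [← he] at this
    exact hgS this.1.1

section frame
variable (Q : QuadraticForm F (ι → F)) {κ : Type*} (e : κ → ι → F) (c : F) (hc : c ≠ 0)
  (h2 : (2 : F) ≠ 0) (hQe : ∀ a, Q (e a) = c) (horth : ∀ a b, a ≠ b → polar Q (e a) (e b) = 0)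

include hQe horth in
theorem Q_frame_sub {a b : κ} (hab : a ≠ b) : Q (e a - e b) = 2 * c := by
  rw [sub_eq_add_neg, QuadraticMap.map_add Q, QuadraticMap.map_neg, polar_neg_right, hQe, hQe, horth a b hab]
  ring

include hc h2 hQe horth in
theorem swap_left {a b : κ} (hab : a ≠ b) : reflectionMatrix Q (e a - e b) *ᵥ e a = e b := by
  rw [reflectionMatrix_mulVec, Q_frame_sub Q e c hQe horth hab, polar_sub_left, polar_self, hQe,
    horth b a hab.symm, sub_zero, show (2 • c : F) = 2 * c from by rw [two_nsmul, two_mul], inv_mul_cancel₀ (mul_ne_zero h2 hc), one_smul]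
  abel

include hc h2 hQe horth in
theorem swap_right {a b : κ} (hab : a ≠ b) : reflectionMatrix Q (e a - e b) *ᵥ e b = e a := by
  rw [reflectionMatrix_mulVec, Q_frame_sub Q e c hQe horth hab, polar_sub_left, polar_self, hQe,
    horth a b hab, zero_sub, show (2 • c : F) = 2 * c from by rw [two_nsmul, two_mul], mul_neg, inv_mul_cancel₀ (mul_ne_zero h2 hc), neg_smul, one_smul]
  abel

include horth in
theorem swap_other {a b d : κ} (hda : d ≠ a) (hdb : d ≠ b) : reflectionMatrix Q (e a - e b) *ᵥ e d = e d := by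
  apply reflection_orth
  rw [polar_sub_left, horth a d hda.symm, horth b d hdb.symm, sub_zero]

include hc h2 hQe horth in
theorem swap_maps {a b : κ} (hab : a ≠ b) (v : ι → F) (hv : ∃ d, v = e d ∨ v = - e d) :
    ∃ d, reflectionMatrix Q (e a - e b) *ᵥ v = e d ∨ reflectionMatrix Q (e a - e b) *ᵥ v = - e d := by
  classical
  obtain ⟨d, hd⟩ := hv
  have key : ∃ d', reflectionMatrix Q (e a - e b) *ᵥ e d = e d' := by
    by_cases hda : d = a
    · subst hda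
      exact ⟨b, swap_left Q e c hc h2 hQe horth hab⟩
    by_cases hdb : d = b
    · subst hdb
      exact ⟨a, swap_right Q e c hc h2 hQe horth hab⟩
    · exact ⟨d, swap_other Q e horth hda hdb⟩
  obtain ⟨d', hd'⟩ := key
  rcases hd with rfl | rfl
  · exact ⟨d', Or.inl hd'⟩
  · exact ⟨d', Or.inr (by rw [Matrix.mulVec_neg, hd'])⟩

end frame

end Cfsg.Agent.Lib.Helper15
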