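import Cfsg.Agent.Lib.Helper15.FrameNM1

set_option autoImplicit false
open Cfsg QuadraticMap Matrix Module

namespace Cfsg.Agent.Lib.Helper15

variable {F : Type*} [Field F] {ι : Type} [Fintype ι] [DecidableEq ι]

theorem frame_not_max (h3 : (3 : F) = 0) (Q : QuadraticForm F (ι → F)) {t : ℕ}
    (D : Fin t → Submodule F (ι → F))
    (horthD : ∀ i j, i ≠ j → ∀ u ∈ D i, ∀ v ∈ D j, polar Q u v = 0)
    {κ : Type*} (e : κ → ι → F) (π : κ → Fin t) (c : F) (hc : c ≠ 0) (hmem : ∀ a, e a ∈ D (π a))
    (hQe : ∀ a, Q (e a) = c) (horth : ∀ a b, a ≠ b → polar Q (e a) (e b) = 0)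
    (hchar : ∀ i v, v ∈ D i → Q v = c → ∃ a, v = e a ∨ v = - e a)
    (a a' b b' : κ) (h1 : a ≠ a') (h2' : a ≠ b) (h3' : a ≠ b') (h4 : a' ≠ b) (h5 : a' ≠ b') (h6 : b ≠ b')
    (hπ : π a = π a') (hπ' : π b' ≠ π a) :
    ∃ K : Subgroup (Matrix.GeneralLinearGroup ι F),
      Geo.decompositionStabilizer D ⊓ Geo.omegaGL Q < K ∧ K < Geo.omegaGL Q := by
  have h2 : (2 : F) ≠ 0 := by
    intro h
    exact one_ne_zero (by linear_combination h3 - h : (1 : F) = 0)
  have h2c : (2 • c : F) = 2 * c := by rw [two_nsmul, two_mul]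
  have hself : ∀ x, polar Q (e x) (e x) ≠ 0 := fun x => by
    rw [polar_self, hQe, h2c]; exact mul_ne_zero h2 hc
  have hidx : ∀ x j, e x ∈ D j → j = π x := by
    intro x j hj
    by_contra hne
    exact hself x (horthD j (π x) hne _ hj _ (hmem x))
  apply exists_between_set Q _ {v | ∃ d, v = e d ∨ v = - e d}
  · rintro g hg ⟨σ, hσ⟩ v ⟨d, hd⟩
    have hvD : v ∈ D (π d) := by
      rcases hd with rfl | rfl
      · exact hmem d
      · exact (D _).neg_mem (hmem d)
    have hQv : Q v = c := by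
      rcases hd with rfl | rfl
      · exact hQe d
      · rw [QuadraticMap.map_neg, hQe]
    apply hchar (σ (π d))
    · rw [← hσ (π d)]
      exact ⟨v, hvD, by rw [Matrix.toLin'_apply]⟩
    · rw [(mem_isometryGroup _ _).1 g.2, hQv]
  · have hw1 : Q (e a - e b) ≠ 0 := by
      rw [Q_frame_sub Q e c hQe horth h2']; exact mul_ne_zero h2 hc
    have hw2 : Q (e a - e b') ≠ 0 := by
      rw [Q_frame_sub Q e c hQe horth h3']; exact mul_ne_zero h2 hc
    refine ⟨refl Q _ hw1 * refl Q _ hw2, refl_mul_refl_mem h2 Q _ _ hw1 hw2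
      ⟨2 * c, by rw [Q_frame_sub Q e c hQe horth h2', Q_frame_sub Q e c hQe horth h3']⟩, ?_, ?_, ?_⟩
    · intro v hv
      rw [Subgroup.coe_mul, Units.val_mul, coe_refl, coe_refl, ← Matrix.mulVec_mulVec]
      exact swap_maps Q e c hc h2 hQe horth h2' _ (swap_maps Q e c hc h2 hQe horth h3' v hv)
    · intro v hv
      rw [_root_.mul_inv_rev, refl_inv, refl_inv, Subgroup.coe_mul, Units.val_mul, coe_refl, coe_refl,
        ← Matrix.mulVec_mulVec]
      exact swap_maps Q e c hc h2 hQe horth h3' _ (swap_maps Q e c hc h2 hQe horth h2' v hv)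
    · rintro ⟨σ, hσ⟩
      rw [Subgroup.coe_mul, Units.val_mul, coe_refl, coe_refl] at hσ
      have e1 : (reflectionMatrix Q (e a - e b) * reflectionMatrix Q (e a - e b')) *ᵥ e a = e b' := by
        rw [← Matrix.mulVec_mulVec, swap_left Q e c hc h2 hQe horth h3', swap_other Q e horth h3'.symm h6.symm]
      have e2 : (reflectionMatrix Q (e a - e b) * reflectionMatrix Q (e a - e b')) *ᵥ e a' = e a' := by
        rw [← Matrix.mulVec_mulVec, swap_other Q e horth h1.symm h5, swap_other Q e horth h1.symm h4]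
      have m1 : e b' ∈ D (σ (π a)) := by
        rw [← hσ (π a)]
        exact ⟨e a, hmem a, by rw [Matrix.toLin'_apply, e1]⟩
      have m2 : e a' ∈ D (σ (π a)) := by
        rw [← hσ (π a)]
        exact ⟨e a', hπ ▸ hmem a', by rw [Matrix.toLin'_apply, e2]⟩
      have i1 := hidx _ _ m1
      have i2 := hidx _ _ m2
      exact hπ' (by rw [← i1, i2, hπ])
  · obtain ⟨u, hu⟩ : ∃ u, u = e a + e a' + e b + e b' := ⟨_, rfl⟩
    have hQu : Q u = c := by
      rw [hu]
      simp only [QuadraticMap.map_add Q, polar_add_left, hQe, horth _ _ h1, horth _ _ h2', horth _ _ h3',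
        horth _ _ h4, horth _ _ h5, horth _ _ h6]
      linear_combination c * h3
    have pa : polar Q u (e a) = 2 * c := by
      rw [hu]
      simp only [polar_add_left, polar_self, hQe, horth _ _ h1.symm, horth _ _ h2'.symm, horth _ _ h3'.symm, h2c]
      ring
    have pa' : polar Q u (e a') = 2 * c := by
      rw [hu]
      simp only [polar_add_left, polar_self, hQe, horth _ _ h1, horth _ _ h4.symm, horth _ _ h5.symm, h2c]
      ring
    have pb : polar Q u (e b) = 2 * c := by
      rw [hu]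
      simp only [polar_add_left, polar_self, hQe, horth _ _ h2', horth _ _ h4, horth _ _ h6.symm, h2c]
      ring
    have hu0 : Q u ≠ 0 := by rw [hQu]; exact hc
    have ha0 : Q (e a) ≠ 0 := by rw [hQe]; exact hc
    refine ⟨refl Q u hu0 * refl Q (e a) ha0, refl_mul_refl_mem h2 Q _ _ hu0 ha0 ⟨c, by rw [hQu, hQe]⟩, ?_⟩
    intro hall
    obtain ⟨d, hd⟩ := hall (e a) ⟨a, Or.inl rfl⟩
    rw [Subgroup.coe_mul, Units.val_mul, coe_refl, coe_refl, ← Matrix.mulVec_mulVec, reflection_self Q _ ha0,
      Matrix.mulVec_neg, reflectionMatrix_mulVec, hQu, pa, ← mul_assoc, mul_comm c⁻¹ 2, mul_assoc,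
      inv_mul_cancel₀ hc, mul_one] at hd
    have p1 : polar Q (-(e a - (2 : F) • u)) (e a') = c := by
      rw [polar_neg_left, polar_sub_left, polar_smul_left, horth _ _ h1, pa', smul_eq_mul]
      linear_combination c * h3
    have p2 : polar Q (-(e a - (2 : F) • u)) (e b) = c := by
      rw [polar_neg_left, polar_sub_left, polar_smul_left, horth _ _ h2', pb, smul_eq_mul]
      linear_combination c * h3
    have hda' : d = a' := by
      by_contra hne
      apply hc
      rw [← p1]
      rcases hd with hd | hd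
      · rw [hd, horth _ _ hne]
      · rw [hd, polar_neg_left, horth _ _ hne, neg_zero]
    have hdb : d = b := by
      by_contra hne
      apply hc
      rw [← p2]
      rcases hd with hd | hd
      · rw [hd, horth _ _ hne]
      · rw [hd, polar_neg_left, horth _ _ hne, neg_zero]
    exact h4 (hda'.symm.trans hdb)

end Cfsg.Agent.Lib.Helper15
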