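import Cfsg.Agent.Lib.Helper15.FrameNM2
import Cfsg.Agent.Lib.Helper15.DiagForm

set_option autoImplicit false
open Cfsg QuadraticMap Matrix Module

namespace Cfsg.Agent.Lib.Helper15

section abs
variable {F : Type*} [Field F] {W : Type*} [AddCommGroup W] [Module F W]

theorem three_eq_zero_of_card [Fintype F] (hq : Fintype.card F = 3) : (3 : F) = 0 := by
  have h0 : ((Fintype.card F : ℕ) : F) = 0 := Nat.cast_card_eq_zero F
  rw [hq] at h0
  exact_mod_cast h0

theorem frame3_char [Fintype F] (hq : Fintype.card F = 3) (Q : QuadraticForm F W) (c : F) (hc : c ≠ 0)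
    (f : Fin 3 → W) (hQf : ∀ j, Q (f j) = c) (horth : ∀ j j', j ≠ j' → polar Q (f j) (f j') = 0)
    (x : Fin 3 → F) (h : Q (∑ j, x j • f j) = c) :
    ∃ j, ∑ j, x j • f j = f j ∨ ∑ j, x j • f j = - f j := by
  have h3 := three_eq_zero_of_card hq
  rw [Fin.sum_univ_three] at h ⊢
  simp only [QuadraticMap.map_add Q, QuadraticMap.map_smul, polar_add_left, polar_smul_left, polar_smul_right,
    hQf, horth 0 1 (by decide), horth 0 2 (by decide), horth 1 2 (by decide), smul_eq_mul, mul_zero,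
    add_zero] at h
  have hsum : x 0 * x 0 + x 1 * x 1 + x 2 * x 2 = 1 := by
    apply mul_right_cancel₀ hc
    linear_combination h
  have key : ∀ y : F, y = 0 ∨ y = 1 ∨ y = -1 := fun y => by
    by_cases hy : y = 0
    · exact Or.inl hy
    · exact Or.inr (mul_self_eq_one_iff.1 (sq_eq_one_of_card_le hq.le y hy))
  rcases key (x 0) with h0 | h0 | h0 <;> rcases key (x 1) with h1 | h1 | h1 <;>
    rcases key (x 2) with h2 | h2 | h2 <;> rw [h0, h1, h2] at hsum ⊢ <;>
    first
    | exact absurd (by linear_combination hsum : (1 : F) = 0) one_ne_zero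
    | exact absurd (by linear_combination -hsum : (1 : F) = 0) one_ne_zero
    | exact absurd (by linear_combination h3 - hsum : (1 : F) = 0) one_ne_zero
    | (refine ⟨0, Or.inl ?_⟩; simp; done)
    | (refine ⟨0, Or.inr ?_⟩; simp; done)
    | (refine ⟨1, Or.inl ?_⟩; simp; done)
    | (refine ⟨1, Or.inr ?_⟩; simp; done)
    | (refine ⟨2, Or.inl ?_⟩; simp; done)
    | (refine ⟨2, Or.inr ?_⟩; simp; done)

theorem orth_of_three (Q : QuadraticForm F W) (f0 f1 f2 : W) (h01 : polar Q f0 f1 = 0) (h02 : polar Q f0 f2 = 0)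
    (h12 : polar Q f1 f2 = 0) :
    ∀ j j' : Fin 3, j ≠ j' → polar Q (![f0, f1, f2] j) (![f0, f1, f2] j') = 0 := by
  intro j j' hne
  fin_cases j <;> fin_cases j' <;>
    first
    | exact absurd rfl hne
    | exact h01
    | exact h02
    | exact h12
    | exact (polar_comm Q _ _).trans h01
    | exact (polar_comm Q _ _).trans h02
    | exact (polar_comm Q _ _).trans h12

theorem exists_frame3 [Fintype F] [FiniteDimensional F W] (hq : Fintype.card F = 3) (Q : QuadraticForm F W)
    (hnd : (polarBilin Q).Nondegenerate) (hdim : finrank F W = 3) :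
    ∃ (c : F) (f : Fin 3 → W), c ≠ 0 ∧ (∀ j, Q (f j) = c) ∧ (∀ j j', j ≠ j' → polar Q (f j) (f j') = 0) ∧
      ∀ v : W, ∃ x : Fin 3 → F, v = ∑ j, x j • f j := by
  have h3 := three_eq_zero_of_card hq
  have h2 : (2 : F) ≠ 0 := by
    intro h
    exact one_ne_zero (by linear_combination h3 - h : (1 : F) = 0)
  obtain ⟨x₀, w, hfam⟩ := diag_nf h2 2 Q hnd hdim
  obtain ⟨b, hb0, hbw⟩ := hfam.exists_basis h2 hdim
  obtain ⟨hx0, hw1, hxw, hww⟩ := hfam
  have hspan : ∀ v : W, ∃ r0 r1 r2 : F, v = r0 • x₀ + r1 • w 0 + r2 • w 1 := by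
    intro v
    refine ⟨b.repr v (Sum.inl ()), b.repr v (Sum.inr 0), b.repr v (Sum.inr 1), ?_⟩
    conv_lhs => rw [← b.sum_repr v]
    rw [Fintype.sum_sum_type, Fin.sum_univ_two, Finset.univ_unique, Finset.sum_singleton, hbw, hbw]
    rw [show b (Sum.inl (default : Unit)) = x₀ from hb0, add_assoc]
  have h01 := hww 0 1 (by decide)
  have h10 := hww 1 0 (by decide)
  rcases mul_self_eq_one_iff.1 (sq_eq_one_of_card_le hq.le _ hx0) with hc | hc
  · refine ⟨1, ![x₀, w 0, w 1], one_ne_zero, ?_, orth_of_three Q _ _ _ (hxw 0) (hxw 1) h01, ?_⟩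
    · intro j
      fin_cases j
      · exact hc
      · exact hw1 0
      · exact hw1 1
    · intro v
      obtain ⟨r0, r1, r2, hv⟩ := hspan v
      exact ⟨![r0, r1, r2], by rw [Fin.sum_univ_three]; exact hv⟩
  · have q1 : Q (w 0 + w 1) = -1 := by
      rw [QuadraticMap.map_add Q, hw1, hw1, h01]
      linear_combination h3
    have q2 : Q (w 0 - w 1) = -1 := by
      rw [sub_eq_add_neg, QuadraticMap.map_add Q, QuadraticMap.map_neg, polar_neg_right, hw1, hw1, h01]
      linear_combination h3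
    refine ⟨-1, ![x₀, w 0 + w 1, w 0 - w 1], neg_ne_zero.2 one_ne_zero, ?_, orth_of_three Q _ _ _ ?_ ?_ ?_, ?_⟩
    · intro j
      fin_cases j
      · exact hc
      · exact q1
      · exact q2
    · rw [polar_add_right, hxw, hxw, add_zero]
    · rw [polar_sub_right, hxw, hxw, sub_zero]
    · rw [polar_add_left, polar_sub_right, polar_sub_right, polar_self, polar_self, hw1, hw1, h01, h10]
      ring
    · intro v
      obtain ⟨r0, r1, r2, hv⟩ := hspan v
      refine ⟨![r0, -(r1 + r2), -(r1 - r2)], ?_⟩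
      rw [Fin.sum_univ_three, hv]
      change r0 • x₀ + r1 • w 0 + r2 • w 1 = r0 • x₀ + (-(r1 + r2)) • (w 0 + w 1) + (-(r1 - r2)) • (w 0 - w 1)
      linear_combination (norm := module) h3 • (r1 • w 0 + r2 • w 1)

end abs

end Cfsg.Agent.Lib.Helper15
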