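import Cfsg.Agent.Lib.Helper15.FrameNM3

set_option autoImplicit false
open Cfsg QuadraticMap Matrix Module

namespace Cfsg.Agent.Lib.Helper15

variable {F : Type*} [Field F] {ι : Type} [Fintype ι] [DecidableEq ι]

theorem polar_restrict (Q : QuadraticForm F (ι → F)) (W : Submodule F (ι → F)) (x y : W) :
    polar (Q.comp W.subtype) x y = polar Q (x : ι → F) (y : ι → F) := by
  simp [polar]

theorem restrict_nondegenerate (Q : QuadraticForm F (ι → F)) (W : Submodule F (ι → F))
    (hW : Geo.IsNondegenerateOn (polar Q) W) : (polarBilin (Q.comp W.subtype)).Nondegenerate := by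
  constructor
  · intro x hx
    by_contra h0
    obtain ⟨-, y, hy, hxy⟩ := hW x x.2 (fun h => h0 (Subtype.ext h))
    apply hxy
    have := hx ⟨y, hy⟩
    rwa [polarBilin_apply_apply, polar_restrict] at this
  · intro x hx
    by_contra h0
    obtain ⟨⟨y, hy, hxy⟩, -⟩ := hW x x.2 (fun h => h0 (Subtype.ext h))
    apply hxy
    have := hx ⟨y, hy⟩
    rwa [polarBilin_apply_apply, polar_restrict] at this

theorem orth3_not_max [Fintype F] (hq : Fintype.card F = 3) (Q : QuadraticForm F (ι → F)) {t : ℕ}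
    (D : Fin t → Submodule F (ι → F)) (hD : Geo.IsOrthogonalMDecomposition Q 3 D) :
    ∃ K : Subgroup (Matrix.GeneralLinearGroup ι F),
      Geo.decompositionStabilizer D ⊓ Geo.omegaGL Q < K ∧ K < Geo.omegaGL Q := by
  have h3 := three_eq_zero_of_card hq
  have ht := hD.decomp.decomp.two_le
  obtain ⟨i0, hi0⟩ : ∃ i0 : Fin t, i0 = ⟨0, by omega⟩ := ⟨_, rfl⟩
  obtain ⟨i1, hi1⟩ : ∃ i1 : Fin t, i1 = ⟨1, by omega⟩ := ⟨_, rfl⟩
  have h01 : i1 ≠ i0 := by rw [hi0, hi1]; simp
  obtain ⟨c, f, hc, hQf, hof, hspan⟩ := exists_frame3 hq (Q.comp (D i0).subtype)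
    (restrict_nondegenerate Q _ (hD.decomp.nondegenerate i0)) (hD.decomp.decomp.finrank_eq i0)
  choose φ hφ using fun i => hD.isometric i0 i
  have hpol : ∀ i (x y : D i0), polar Q ((φ i x : D i) : ι → F) ((φ i y : D i) : ι → F) =
      polar Q (x : ι → F) (y : ι → F) := by
    intro i x y
    have := hφ i (x + y)
    rw [map_add] at this
    unfold polar
    rw [← hφ i x, ← hφ i y]
    rw [← Submodule.coe_add, this, Submodule.coe_add]
  refine frame_not_max h3 Q D (fun i j hij u hu v hv => hD.decomp.orthogonal i j hij u hu v hv)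
    (fun a : Fin t × Fin 3 => ((φ a.1 (f a.2) : D a.1) : ι → F)) Prod.fst c hc (fun a => (φ a.1 (f a.2)).2)
    (fun a => by rw [hφ]; exact hQf a.2) ?_ ?_ (i0, 0) (i0, 1) (i1, 0) (i1, 1) (by simp) ?_ ?_ ?_ ?_ (by simp)
    rfl h01
  · rintro ⟨i, j⟩ ⟨i', j'⟩ hne
    by_cases hii : i = i'
    · subst hii
      have hjj : j ≠ j' := fun h => hne (by rw [h])
      change polar Q ((φ i (f j) : D i) : ι → F) ((φ i (f j') : D i) : ι → F) = 0
      rw [hpol, ← polar_restrict]
      exact hof j j' hjj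
    · exact hD.decomp.orthogonal i i' hii _ (φ i (f j)).2 _ (φ i' (f j')).2
  · intro i v hv hQv
    obtain ⟨w, hw⟩ : ∃ w, w = (φ i).symm ⟨v, hv⟩ := ⟨_, rfl⟩
    have hwv : ((φ i w : D i) : ι → F) = v := by rw [hw, LinearEquiv.apply_symm_apply]
    have hQw : (Q.comp (D i0).subtype) w = c := by
      rw [← hQv, ← hwv, hφ]
      rfl
    obtain ⟨x, hx⟩ := hspan w
    rw [hx] at hQw
    obtain ⟨j, hj⟩ := frame3_char hq _ c hc f hQf hof x hQw
    rw [← hx] at hj
    refine ⟨(i, j), ?_⟩
    rcases hj with hj | hj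
    · left
      rw [← hwv, hj]
    · right
      rw [← hwv, hj, map_neg]
      rfl
  · intro h; exact h01 (congrArg Prod.fst h).symm
  · intro h; exact h01 (congrArg Prod.fst h).symm
  · intro h; exact h01 (congrArg Prod.fst h).symm
  · intro h; exact h01 (congrArg Prod.fst h).symm

end Cfsg.Agent.Lib.Helper15
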