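import Cfsg.Agent.Lib.Helper15.FrameNM4

set_option autoImplicit false
open Cfsg QuadraticMap Matrix Module

namespace Cfsg.Agent.Lib.Helper15

section abs
variable {F : Type*} [Field F] {W : Type*} [AddCommGroup W] [Module F W]

theorem frame2_char [Fintype F] (hq : Fintype.card F = 3) (Q : QuadraticForm F W) (c : F) (hc : c ≠ 0)
    (f : Fin 2 → W) (hQf : ∀ j, Q (f j) = c) (horth : ∀ j j', j ≠ j' → polar Q (f j) (f j') = 0)
    (x : Fin 2 → F) (h : Q (∑ j, x j • f j) = c) :
    ∃ j, ∑ j, x j • f j = f j ∨ ∑ j, x j • f j = - f j := by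
  have h3 := three_eq_zero_of_card hq
  rw [Fin.sum_univ_two] at h ⊢
  simp only [QuadraticMap.map_add Q, QuadraticMap.map_smul, polar_smul_left, polar_smul_right,
    hQf, horth 0 1 (by decide), smul_eq_mul, mul_zero, add_zero] at h
  have hsum : x 0 * x 0 + x 1 * x 1 = 1 := by
    apply mul_right_cancel₀ hc
    linear_combination h
  have key : ∀ y : F, y = 0 ∨ y = 1 ∨ y = -1 := fun y => by
    by_cases hy : y = 0
    · exact Or.inl hy
    · exact Or.inr (mul_self_eq_one_iff.1 (sq_eq_one_of_card_le hq.le y hy))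
  rcases key (x 0) with h0 | h0 | h0 <;> rcases key (x 1) with h1 | h1 | h1 <;>
    rw [h0, h1] at hsum ⊢ <;>
    first
    | exact absurd (by linear_combination hsum : (1 : F) = 0) one_ne_zero
    | exact absurd (by linear_combination -hsum : (1 : F) = 0) one_ne_zero
    | (refine ⟨0, Or.inl ?_⟩; simp; done)
    | (refine ⟨0, Or.inr ?_⟩; simp; done)
    | (refine ⟨1, Or.inl ?_⟩; simp; done)
    | (refine ⟨1, Or.inr ?_⟩; simp; done)

theorem exists_frame2 [Fintype F] [FiniteDimensional F W] (hq : Fintype.card F = 3) (Q : QuadraticForm F W)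
    (hnd : (polarBilin Q).Nondegenerate) (hdim : finrank F W = 2) (hani : ∀ v : W, Q v = 0 → v = 0) :
    ∃ (c : F) (f : Fin 2 → W), c ≠ 0 ∧ (∀ j, Q (f j) = c) ∧ (∀ j j', j ≠ j' → polar Q (f j) (f j') = 0) ∧
      ∀ v : W, ∃ x : Fin 2 → F, v = ∑ j, x j • f j := by
  have h3 := three_eq_zero_of_card hq
  have h2 : (2 : F) ≠ 0 := by
    intro h
    exact one_ne_zero (by linear_combination h3 - h : (1 : F) = 0)
  obtain ⟨x₀, w, hfam⟩ := diag_nf h2 1 Q hnd hdim
  obtain ⟨b, hb0, hbw⟩ := hfam.exists_basis h2 hdim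
  obtain ⟨hx0, hw1, hxw, hww⟩ := hfam
  have hspan : ∀ v : W, ∃ r0 r1 : F, v = r0 • x₀ + r1 • w 0 := by
    intro v
    refine ⟨b.repr v (Sum.inl ()), b.repr v (Sum.inr 0), ?_⟩
    conv_lhs => rw [← b.sum_repr v]
    rw [Fintype.sum_sum_type, Fin.sum_univ_one, Finset.univ_unique, Finset.sum_singleton, hbw]
    rw [show b (Sum.inl (default : Unit)) = x₀ from hb0]
  rcases mul_self_eq_one_iff.1 (sq_eq_one_of_card_le hq.le _ hx0) with hc | hc
  · refine ⟨1, ![x₀, w 0], one_ne_zero, ?_, ?_, ?_⟩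
    · intro j
      fin_cases j
      · exact hc
      · exact hw1 0
    · intro j j' hne
      fin_cases j <;> fin_cases j' <;>
        first
        | exact absurd rfl hne
        | exact hxw 0
        | exact (polar_comm Q _ _).trans (hxw 0)
    · intro v
      obtain ⟨r0, r1, hv⟩ := hspan v
      exact ⟨![r0, r1], by rw [Fin.sum_univ_two]; exact hv⟩
  · exfalso
    have hs : Q (x₀ + w 0) = 0 := by
      rw [QuadraticMap.map_add Q, hc, hw1, hxw]
      ring
    have h0 := hani _ hs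
    have hx : x₀ = - w 0 := eq_neg_of_add_eq_zero_left h0
    rw [hx, QuadraticMap.map_neg, hw1] at hc
    exact h2 (by linear_combination hc)

end abs

variable {F : Type*} [Field F] {ι : Type} [Fintype ι] [DecidableEq ι]

theorem orth_frame_not_max [Fintype F] (hq : Fintype.card F = 3) (Q : QuadraticForm F (ι → F)) {t k : ℕ}
    (D : Fin t → Submodule F (ι → F)) (hD : Geo.IsOrthogonalMDecomposition Q k D) (i0 : Fin t)
    (c : F) (f : Fin k → D i0) (hc : c ≠ 0) (hQf : ∀ j, (Q.comp (D i0).subtype) (f j) = c)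
    (hof : ∀ j j', j ≠ j' → polar (Q.comp (D i0).subtype) (f j) (f j') = 0)
    (hchar : ∀ w : D i0, (Q.comp (D i0).subtype) w = c → ∃ j, w = f j ∨ w = - f j)
    (j0 j1 : Fin k) (hj : j0 ≠ j1) :
    ∃ K : Subgroup (Matrix.GeneralLinearGroup ι F),
      Geo.decompositionStabilizer D ⊓ Geo.omegaGL Q < K ∧ K < Geo.omegaGL Q := by
  have h3 := three_eq_zero_of_card hq
  have ht := hD.decomp.decomp.two_le
  obtain ⟨i1, h01⟩ : ∃ i1 : Fin t, i1 ≠ i0 := by
    by_cases h : i0 = ⟨0, by omega⟩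
    · exact ⟨⟨1, by omega⟩, by rw [h]; simp⟩
    · exact ⟨⟨0, by omega⟩, fun h' => h h'.symm⟩
  choose φ hφ using fun i => hD.isometric i0 i
  have hpol : ∀ i (x y : D i0), polar Q ((φ i x : D i) : ι → F) ((φ i y : D i) : ι → F) =
      polar Q (x : ι → F) (y : ι → F) := by
    intro i x y
    have := hφ i (x + y)
    rw [map_add] at this
    unfold polar
    rw [← hφ i x, ← hφ i y]
    rw [← Submodule.coe_add, this, Submodule.coe_add]
  refine frame_not_max h3 Q D (fun i j hij u hu v hv => hD.decomp.orthogonal i j hij u hu v hv)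
    (fun a : Fin t × Fin k => ((φ a.1 (f a.2) : D a.1) : ι → F)) Prod.fst c hc (fun a => (φ a.1 (f a.2)).2)
    (fun a => by rw [hφ]; exact hQf a.2) ?_ ?_ (i0, j0) (i0, j1) (i1, j0) (i1, j1) ?_ ?_ ?_ ?_ ?_ ?_
    rfl h01
  · rintro ⟨i, j⟩ ⟨i', j'⟩ hne
    by_cases hii : i = i'
    · subst hii
      have hjj : j ≠ j' := fun h => hne (by rw [h])
      change polar Q ((φ i (f j) : D i) : ι → F) ((φ i (f j') : D i) : ι → F) = 0
      rw [hpol, ← polar_restrict]
      exact hof j j' hjj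
    · exact hD.decomp.orthogonal i i' hii _ (φ i (f j)).2 _ (φ i' (f j')).2
  · intro i v hv hQv
    obtain ⟨w, hw⟩ : ∃ w, w = (φ i).symm ⟨v, hv⟩ := ⟨_, rfl⟩
    have hwv : ((φ i w : D i) : ι → F) = v := by rw [hw, LinearEquiv.apply_symm_apply]
    have hQw : (Q.comp (D i0).subtype) w = c := by
      rw [← hQv, ← hwv, hφ]
      rfl
    obtain ⟨j, hj⟩ := hchar w hQw
    refine ⟨(i, j), ?_⟩
    rcases hj with hj | hj
    · left
      rw [← hwv, hj]
    · right
      rw [← hwv, hj, map_neg]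
      rfl
  · intro h; exact hj (congrArg Prod.snd h)
  · intro h; exact h01 (congrArg Prod.fst h).symm
  · intro h; exact h01 (congrArg Prod.fst h).symm
  · intro h; exact h01 (congrArg Prod.fst h).symm
  · intro h; exact h01 (congrArg Prod.fst h).symm
  · intro h; exact hj (congrArg Prod.snd h)

theorem orth2_not_max [Fintype F] (hq : Fintype.card F = 3) (Q : QuadraticForm F (ι → F)) {t : ℕ}
    (D : Fin t → Submodule F (ι → F)) (hD : Geo.IsOrthogonalMDecomposition Q 2 D)
    (hminus : ∀ i, ¬ Geo.IsPlusTypeOn Q (D i)) :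
    ∃ K : Subgroup (Matrix.GeneralLinearGroup ι F),
      Geo.decompositionStabilizer D ⊓ Geo.omegaGL Q < K ∧ K < Geo.omegaGL Q := by
  have ht := hD.decomp.decomp.two_le
  obtain ⟨i0, hi0⟩ : ∃ i0 : Fin t, i0 = ⟨0, by omega⟩ := ⟨_, rfl⟩
  have hani : ∀ v : D i0, (Q.comp (D i0).subtype) v = 0 → v = 0 := by
    intro v hv
    by_contra h0
    apply hminus i0
    have hv0 : (v : ι → F) ≠ 0 := fun h => h0 (Subtype.ext h)
    refine ⟨Submodule.span F {(v : ι → F)}, ?_, ?_, ?_⟩
    · rw [Submodule.span_singleton_le_iff_mem]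
      exact v.2
    · intro w hw
      obtain ⟨r, rfl⟩ := Submodule.mem_span_singleton.1 hw
      have hv' : Q (v : ι → F) = 0 := hv
      change Q (r • (v : ι → F)) = 0
      rw [QuadraticMap.map_smul, hv', smul_zero]
    · rw [finrank_span_singleton hv0, hD.decomp.decomp.finrank_eq]
  obtain ⟨c, f, hc, hQf, hof, hspan⟩ := exists_frame2 hq (Q.comp (D i0).subtype)
    (restrict_nondegenerate Q _ (hD.decomp.nondegenerate i0)) (hD.decomp.decomp.finrank_eq i0) hani
  refine orth_frame_not_max hq Q D hD i0 c f hc hQf hof ?_ 0 1 (by decide)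
  intro w hw
  obtain ⟨x, hx⟩ := hspan w
  rw [hx] at hw ⊢
  exact frame2_char hq _ c hc f hQf hof x hw

end Cfsg.Agent.Lib.Helper15
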