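import Mathlib
import Cfsg.Prelude.Def_LieTypeDatum
import Cfsg.Agent.Lib.Helper15.AutLift
import Cfsg.Agent.Lib.Helper15.Central2

set_option autoImplicit false

namespace Cfsg.Agent.Lib.Helper15

open Module QuadraticMap Cfsg Matrix

theorem isKleinFour_of {C : Type*} [Group C] (hcard : Nat.card C = 4) (hexp : ∀ c : C, c * c = 1) :
    IsKleinFour C where
  card_four := hcard
  exponent_two := by
    have h1 : Monoid.exponent C ∣ 2 := Monoid.exponent_dvd_of_forall_pow_eq_one (fun c => by rw [pow_two, hexp])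
    rcases (Nat.prime_two.eq_one_or_self_of_dvd _ h1) with h | h
    · exfalso
      have := Monoid.exp_eq_one_iff.1 h
      have h2 : Nat.card C ≤ 1 := Finite.card_le_one_iff_subsingleton.2 this
      omega
    · exact h

theorem exists_klein_hom {G A C : Type*} [Group G] [Group A] [Group C] (Φ : G →* A) (χ : G →* C)
    (S : Subgroup G) (hker : ∀ g, χ g = 1 ↔ Φ g ∈ S.map Φ) (hcard : Nat.card χ.range = 4)
    (hexp : ∀ g, χ g * χ g = 1) :
    ∃ φ : Φ.range →* Multiplicative (ZMod 2 × ZMod 2), Function.Surjective φ ∧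
      φ.ker = (S.map Φ).subgroupOf Φ.range := by
  have : IsKleinFour χ.range := isKleinFour_of hcard (by
    rintro ⟨_, g, rfl⟩
    exact Subtype.ext (hexp g))
  obtain ⟨e⟩ := IsKleinFour.nonempty_mulEquiv (G₁ := χ.range) (G₂ := Multiplicative (ZMod 2 × ZMod 2))
  have hle : Φ.rangeRestrict.ker ≤ χ.rangeRestrict.ker := by
    intro g hg
    rw [MonoidHom.mem_ker] at hg ⊢
    apply Subtype.ext
    have h1 : Φ g = 1 := congrArg Subtype.val hg
    exact (hker g).2 (by rw [h1]; exact Subgroup.one_mem _)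
  set ψ : Φ.range →* χ.range :=
    Φ.rangeRestrict.liftOfSurjective Φ.rangeRestrict_surjective ⟨χ.rangeRestrict, hle⟩ with hψ
  have hψa : ∀ g, ψ (Φ.rangeRestrict g) = χ.rangeRestrict g := fun g =>
    MonoidHom.liftOfRightInverse_comp_apply _ _ _ _ g
  refine ⟨e.toMonoidHom.comp ψ, ?_, ?_⟩
  · apply e.surjective.comp
    rintro ⟨_, g, rfl⟩
    exact ⟨Φ.rangeRestrict g, hψa g⟩
  · ext ⟨_, g, rfl⟩
    rw [MonoidHom.mem_ker, Subgroup.mem_subgroupOf]
    show e (ψ (Φ.rangeRestrict g)) = 1 ↔ _
    rw [hψa, map_eq_one_iff e e.injective, ← hker]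
    constructor
    · intro h; exact congrArg Subtype.val h
    · intro h; exact Subtype.ext h

universe u

variable {F : Type u} [Field F] {ι : Type} [Fintype ι] [DecidableEq ι]

theorem iso_le_sim (Q : (ι → F) → F) : isometryGroup F Q ≤ Geo.quadSimilarityGroup (F := F) Q := by
  intro g hg
  exact ⟨1, fun v => by rw [(mem_isometryGroup Q g).1 hg v]; simp⟩

theorem sim_normalizes (Q : (ι → F) → F) : ∀ k ∈ Geo.quadSimilarityGroup (F := F) Q,
    ∀ n ∈ isometryGroup F Q, k * n * k⁻¹ ∈ isometryGroup F Q := by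
  intro k hk n hn
  obtain ⟨c, hc⟩ := hk
  rw [mem_isometryGroup] at hn ⊢
  intro u
  have h1 := hc (((k⁻¹ : GL ι F) : Matrix ι ι F) *ᵥ u)
  rw [Matrix.mulVec_mulVec, ← Units.val_mul, mul_inv_cancel, Units.val_one, Matrix.one_mulVec] at h1
  rw [Units.val_mul, Units.val_mul, ← Matrix.mulVec_mulVec, ← Matrix.mulVec_mulVec, hc, hn, ← h1]

/-- the action of the similarity group on `PΩ` -/
noncomputable def PhiGO (Q : (ι → F) → F) : Geo.quadSimilarityGroup (F := F) Q →* MulAut (POmega F Q) :=
  autP (isometryGroup F Q) (Geo.quadSimilarityGroup (F := F) Q) (sim_normalizes Q)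

theorem induced_iff (Q : (ι → F) → F) (g : GL ι F) (β : POmega F Q ≃* POmega F Q) :
    IsInducedBySemilinearPOmega Q g (RingEquiv.refl F) β ↔ IndBy (isometryGroup F Q) g β := by
  unfold IsInducedBySemilinearPOmega IndBy
  refine forall_congr' (fun s => forall_congr' (fun s' => ?_))
  have : ((((s : ↥(isometryGroup F Q)) : GL ι F) : Matrix ι ι F)).map (RingEquiv.refl F) =
      (((s : ↥(isometryGroup F Q)) : GL ι F) : Matrix ι ι F) := by
    ext i j; simp
  rw [this, Units.ext_iff, Units.val_mul, Units.val_mul]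

theorem pgoAut_eq (Q : (ι → F) → F) : pgoAut F Q = (PhiGO Q).range := by
  unfold pgoAut autSubgroupOf IsSimilarityInducedAutPOmega
  simp_rw [induced_iff]
  have := closure_indBy (isometryGroup F Q) (Geo.quadSimilarityGroup (F := F) Q) (sim_normalizes Q)
    (Geo.quadSimilarityGroup (F := F) Q) le_rfl
  rw [Subgroup.subgroupOf_self, ← MonoidHom.range_eq_map] at this
  exact this

theorem special_le_sim (Q : (ι → F) → F) : specialIsometryGL F Q ≤ Geo.quadSimilarityGroup (F := F) Q :=
  inf_le_left.trans (iso_le_sim Q)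

theorem psoAut_eq (Q : (ι → F) → F) :
    psoAut F Q = ((specialIsometryGL F Q).subgroupOf (Geo.quadSimilarityGroup (F := F) Q)).map (PhiGO Q) := by
  unfold psoAut autSubgroupOf IsSpecialIsometryInducedAutPOmega
  simp_rw [induced_iff]
  exact closure_indBy (isometryGroup F Q) (Geo.quadSimilarityGroup (F := F) Q) (sim_normalizes Q)
    (specialIsometryGL F Q) (special_le_sim Q)

theorem inn_eq (Q : (ι → F) → F) :
    Inn (POmega F Q) = (((Omega F Q).map (isometryGroup F Q).subtype).subgroupOf
      (Geo.quadSimilarityGroup (F := F) Q)).map (PhiGO Q) :=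
  inn_eq_map (isometryGroup F Q) (Geo.quadSimilarityGroup (F := F) Q) (sim_normalizes Q) (iso_le_sim Q)

/-- scalars act trivially -/
theorem PhiGO_scalar (Q : (ι → F) → F) (g : Geo.quadSimilarityGroup (F := F) Q) (c : F)
    (hg : ((g : GL ι F) : Matrix ι ι F) = c • 1) : PhiGO Q g = 1 := by
  ext x
  induction x using QuotientGroup.induction_on with
  | H s =>
    show autP _ _ _ g (QuotientGroup.mk s) = QuotientGroup.mk s
    rw [autP_mk]
    congr 1
    apply Subtype.ext
    apply Subtype.ext
    rw [coe_autP_rep]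
    have hcomm : (g : GL ι F) * ((s : isometryGroup F Q) : GL ι F) = ((s : isometryGroup F Q) : GL ι F) * g := by
      apply Units.ext
      rw [Units.val_mul, Units.val_mul, hg]
      simp
    rw [hcomm, mul_assoc, mul_inv_cancel, mul_one]

/-- the kernel consists of scalars -/
theorem scalar_of_PhiGO_eq_one [Fintype F] (h2 : (2 : F) ≠ 0) (Q : QuadraticForm F (ι → F))
    (hQ : (QuadraticMap.polarBilin Q).Nondegenerate) (hn : 5 ≤ Fintype.card ι)
    (g : Geo.quadSimilarityGroup (F := F) Q) (hg : PhiGO Q g = 1) :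
    ∃ c : F, ((g : GL ι F) : Matrix ι ι F) = c • 1 := by
  have hsq : ∀ s : Omega F Q, ((g : GL ι F) : Matrix ι ι F) * ((((s : isometryGroup F Q) : GL ι F) : Matrix ι ι F) *
      (((s : isometryGroup F Q) : GL ι F) : Matrix ι ι F)) =
      ((((s : isometryGroup F Q) : GL ι F) : Matrix ι ι F) *
      (((s : isometryGroup F Q) : GL ι F) : Matrix ι ι F)) * ((g : GL ι F) : Matrix ι ι F) := by
    intro s
    have h1 : PhiGO Q g (QuotientGroup.mk s) = QuotientGroup.mk s := by rw [hg]; rfl
    have h1' : autP _ _ (sim_normalizes Q) g (QuotientGroup.mk s) = QuotientGroup.mk s := h1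
    rw [autP_mk, QuotientGroup.eq] at h1'
    set t := autRestrict (commutator (isometryGroup F Q)) (conjSub _ _ (sim_normalizes Q) g) s with ht
    have htc : ((t : isometryGroup F Q) : GL ι F) = g * ((s : isometryGroup F Q) : GL ι F) * (g : GL ι F)⁻¹ :=
      coe_autP_rep _ _ _ g s
    have hgs : (g : GL ι F) * ((s : isometryGroup F Q) : GL ι F) = ((t : isometryGroup F Q) : GL ι F) * g := by
      rw [htc]; group
    have hgs' : ((g : GL ι F) : Matrix ι ι F) * (((s : isometryGroup F Q) : GL ι F) : Matrix ι ι F) =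
        (((t : isometryGroup F Q) : GL ι F) : Matrix ι ι F) * ((g : GL ι F) : Matrix ι ι F) := by
      rw [← Units.val_mul, hgs, Units.val_mul]
    have hts : (((t : isometryGroup F Q) : GL ι F) : Matrix ι ι F) = (((s : isometryGroup F Q) : GL ι F) : Matrix ι ι F) ∨
        (((t : isometryGroup F Q) : GL ι F) : Matrix ι ι F) = -(((s : isometryGroup F Q) : GL ι F) : Matrix ι ι F) := by
      rcases center_Omega_cases Q hQ hn _ h1' with h3 | h3
      · left
        have h4 : (t : isometryGroup F Q)⁻¹ * (s : isometryGroup F Q) = 1 := h3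
        have h5 : (s : isometryGroup F Q) = t := by
          rw [inv_mul_eq_one] at h4; exact h4.symm
        rw [h5]
      · right
        have h4 : (t : isometryGroup F Q)⁻¹ * (s : isometryGroup F Q) = negI Q := h3
        have h5 : (s : isometryGroup F Q) = t * negI Q := by
          rw [← h4]; group
        rw [h5]
        simp [coe_negI]
    rw [← mul_assoc, hgs', mul_assoc, hgs', ← mul_assoc]
    rcases hts with h | h <;> rw [h] <;> simp
  obtain ⟨c, hc⟩ := scalar_of_commute_eich Q hQ (by rwa [finrank_fintype_fun_eq_card])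
    (Matrix.toLinAlgEquiv' ((g : GL ι F) : Matrix ι ι F)) (by
      intro y z hy hyz
      have hyz' : polar Q y ((2 : F)⁻¹ • z) = 0 := by rw [polar_smul_right, hyz, smul_zero]
      obtain ⟨k, hk, hkΩ⟩ := eich_mem_Omega Q hQ (Or.inr (by omega)) y ((2 : F)⁻¹ • z) hy hyz'
      have hz : z = (2 : F)⁻¹ • z + (2 : F)⁻¹ • z := by
        rw [← add_smul]
        have : (2 : F)⁻¹ + (2 : F)⁻¹ = 1 := by field_simp; norm_num
        rw [this, one_smul]
      rw [hz, eich_add Q y _ _ hy hyz' hyz', ← hk]
      have := hsq ⟨k, hkΩ⟩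
      refine LinearMap.ext (fun x => ?_)
      simp only [Module.End.mul_apply, toEnd_apply, Matrix.toLinAlgEquiv'_apply, Matrix.mulVec_mulVec]
      simp only [← mul_assoc] at this ⊢
      rw [this])
  refine ⟨c, ?_⟩
  apply matrix_ext_mulVec
  intro x
  have := hc x
  rw [Matrix.toLinAlgEquiv'_apply] at this
  rw [this, Matrix.smul_mulVec, Matrix.one_mulVec]

end Cfsg.Agent.Lib.Helper15
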