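import Mathlib
import Cfsg.Agent.Lib.Helper15.GOAut

set_option autoImplicit false

namespace Cfsg.Agent.Lib.Helper15

open Module QuadraticMap Cfsg Matrix

universe u

variable {F : Type u} [Field F] {ι : Type} [Fintype ι] [DecidableEq ι]

/-- the action of the isometry group on `PΩ` -/
noncomputable def PhiO (Q : (ι → F) → F) : isometryGroup F Q →* MulAut (POmega F Q) :=
  (PhiGO Q).comp (Subgroup.inclusion (iso_le_sim Q))

theorem psoAut_eq' (Q : (ι → F) → F) : psoAut F Q = (specialIsometryGroup F Q).map (PhiO Q) := by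
  rw [psoAut_eq]
  ext β
  simp only [Subgroup.mem_map, Subgroup.mem_subgroupOf]
  constructor
  · rintro ⟨k, hk, rfl⟩
    refine ⟨⟨k, hk.1⟩, ?_, rfl⟩
    rw [mem_special_iff]
    have h1 : Matrix.GeneralLinearGroup.det (k : GL ι F) = 1 := hk.2
    have := congrArg Units.val h1
    simpa using this
  · rintro ⟨o, ho, rfl⟩
    refine ⟨Subgroup.inclusion (iso_le_sim Q) o, ⟨o.2, ?_⟩, rfl⟩
    rw [mem_special_iff] at ho
    show Matrix.GeneralLinearGroup.det (o : GL ι F) = 1
    apply Units.ext
    simpa using ho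

theorem inn_eq' (Q : (ι → F) → F) : Inn (POmega F Q) = (Omega F Q).map (PhiO Q) := by
  rw [inn_eq]
  ext β
  simp only [Subgroup.mem_map, Subgroup.mem_subgroupOf]
  constructor
  · rintro ⟨k, ⟨o, ho, hok⟩, rfl⟩
    refine ⟨o, ho, ?_⟩
    show PhiGO Q (Subgroup.inclusion (iso_le_sim Q) o) = PhiGO Q k
    congr 1
    exact Subtype.ext hok
  · rintro ⟨o, ho, rfl⟩
    exact ⟨Subgroup.inclusion (iso_le_sim Q) o, ⟨o, ho, rfl⟩, rfl⟩

theorem mem_ker_PhiO [Fintype F] (h2 : (2 : F) ≠ 0) (Q : QuadraticForm F (ι → F))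
    (hQ : (QuadraticMap.polarBilin Q).Nondegenerate) (hn : 5 ≤ Fintype.card ι) (o : isometryGroup F Q) :
    o ∈ (PhiO Q).ker ↔ o = 1 ∨ o = negI Q := by
  rw [MonoidHom.mem_ker]
  constructor
  · intro h
    obtain ⟨c, hc⟩ := scalar_of_PhiGO_eq_one h2 Q hQ hn _ h
    have hc' : ((o : GL ι F) : Matrix ι ι F) = c • 1 := hc
    obtain ⟨x, hx⟩ := exists_rep' Q hQ (by omega) 1
    have h1 := isometry_apply Q o x
    rw [hc', Matrix.smul_mulVec, Matrix.one_mulVec, QuadraticMap.map_smul, hx, smul_eq_mul, mul_one] at h1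
    have h4 : (c - 1) * (c + 1) = 0 := by linear_combination h1
    rcases mul_eq_zero.1 h4 with h5 | h5
    · left
      apply isometry_ext
      have : c = 1 := by linear_combination h5
      rw [hc', this, one_smul]; rfl
    · right
      apply isometry_ext
      have : c = -1 := by linear_combination h5
      rw [hc', this, coe_negI]; simp
  · rintro (rfl | rfl)
    · exact map_one _
    · exact PhiGO_scalar Q _ (-1) (by
        show (((negI Q : isometryGroup F Q) : GL ι F) : Matrix ι ι F) = _
        rw [coe_negI]; simp)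

theorem relIndex_inn_pso [Fintype F] (h2 : (2 : F) ≠ 0) (Q : QuadraticForm F (ι → F))
    (hQ : (QuadraticMap.polarBilin Q).Nondegenerate) (hn : 5 ≤ Fintype.card ι) (heven : Even (Fintype.card ι)) :
    (negI Q ∈ Omega F Q → (Inn (POmega F Q)).relIndex (psoAut F Q) = 2) ∧
    (negI Q ∉ Omega F Q → (Inn (POmega F Q)).relIndex (psoAut F Q) = 1) := by
  have h : Fintype.card F ≠ 2 ∨ Fintype.card ι ≠ 4 := Or.inr (by omega)
  rw [inn_eq', psoAut_eq', Subgroup.relIndex_map_map]
  have hΩS : Omega F Q ≤ specialIsometryGroup F Q := by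
    unfold specialIsometryGroup
    exact Abelianization.commutator_subset_ker _
  have hnegS : negI Q ∈ specialIsometryGroup F Q := by
    rw [mem_special_iff, coe_negI, Matrix.det_neg, Matrix.det_one, mul_one, heven.neg_one_pow]
  have hkerS : (PhiO Q).ker ≤ specialIsometryGroup F Q := by
    intro o ho
    rcases (mem_ker_PhiO h2 Q hQ hn o).1 ho with rfl | rfl
    · exact Subgroup.one_mem _
    · exact hnegS
  rw [sup_eq_left.2 hkerS]
  have hrel : (Omega F Q).relIndex (specialIsometryGroup F Q) = 2 := by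
    have h1 := Subgroup.relIndex_mul_index hΩS
    rw [index_Omega_odd h2 Q hQ (by omega), index_special_odd h2 Q hQ (by omega)] at h1
    omega
  constructor
  · intro hmem
    have : (PhiO Q).ker ≤ Omega F Q := by
      intro o ho
      rcases (mem_ker_PhiO h2 Q hQ hn o).1 ho with rfl | rfl
      · exact Subgroup.one_mem _
      · exact hmem
    rw [sup_eq_left.2 this, hrel]
  · intro hmem
    rw [Subgroup.relIndex_eq_one]
    intro x hx
    by_cases hxΩ : x ∈ Omega F Q
    · exact Subgroup.mem_sup_left hxΩ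
    · have hd : ∀ y, y ∈ specialIsometryGroup F Q → y ∉ Omega F Q → theta Q y = -1 := by
        intro y hy hyΩ
        rw [mem_special_iff_dickson h2 Q hQ h] at hy
        rw [mem_Omega_iff_chars h2 Q hQ h] at hyΩ
        rcases Int.units_eq_one_or (theta Q y) with h5 | h5
        · exact absurd ⟨hy, h5⟩ hyΩ
        · exact h5
      have h6 : x * negI Q ∈ Omega F Q := by
        rw [mem_Omega_iff_chars h2 Q hQ h, map_mul, map_mul, hd x hx hxΩ, hd _ hnegS hmem,
          (mem_special_iff_dickson h2 Q hQ h x).1 hx, (mem_special_iff_dickson h2 Q hQ h _).1 hnegS]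
        simp
      have h7 : x = (x * negI Q) * negI Q := by rw [mul_assoc, negI_mul_self, mul_one]
      rw [h7]
      exact Subgroup.mul_mem _ (Subgroup.mem_sup_left h6)
        (Subgroup.mem_sup_right ((mem_ker_PhiO h2 Q hQ hn _).2 (Or.inr rfl)))

end Cfsg.Agent.Lib.Helper15
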