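import Mathlib
import Cfsg.Agent.Lib.Helper15.Similarity
import Cfsg.Agent.Lib.Helper15.GOAut2

set_option autoImplicit false

namespace Cfsg.Agent.Lib.Helper15

open Module QuadraticMap Cfsg Matrix

theorem exists_similarity {F V : Type*} [Field F] [Fintype F] [AddCommGroup V] [Module F V] [FiniteDimensional F V]
    (k : ℕ) (hV : Module.finrank F V = 2 * (k + 1)) (Q : QuadraticForm F V)
    (hQ : (QuadraticMap.polarBilin Q).Nondegenerate) (c : F) :
    ∃ g : V →ₗ[F] V, ∀ v, Q (g v) = c * Q v := by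
  rcases even_nf k Q hQ hV with ⟨e, f, h⟩ | ⟨e, f, x, y, ζ, h⟩
  · obtain ⟨b, hbe, hbf⟩ := h.exists_basis hV
    obtain ⟨ha, hb, hc'⟩ := h
    refine ⟨b.constr F (Sum.elim (fun i => c • e i) f), constr_similarity b Q Q _ c ?_ ?_⟩
    · rintro (i | i)
      · simp [hbe, QuadraticMap.map_smul, (ha i).1]
      · simp [hbf, (ha i).2]
    · rintro (i | i) (j | j)
      · simp [hbe, (hc' i j).1]
      · simp [hbe, hbf, hb i j]
      · simp [hbe, hbf, QuadraticMap.polar_comm Q (f i) (e j), hb j i]
      · simp [hbf, (hc' i j).2]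
  · obtain ⟨b, hbe, hbf, hbx, hby⟩ := h.exists_basis hV
    obtain ⟨hζ, ⟨ha, hb, hc'⟩, hxy, h1, h2, h3⟩ := h
    obtain ⟨s, t, hst⟩ := ell_rep ζ hζ c
    have hyx : QuadraticMap.polar Q y x = 1 := by rw [QuadraticMap.polar_comm]; exact h2
    obtain ⟨gx, gy, hgx, hgy, hgxy, horth⟩ : ∃ gx gy : V, Q gx = c ∧ Q gy = c * ζ ∧
        QuadraticMap.polar Q gx gy = c ∧ (∀ i, QuadraticMap.polar Q (e i) gx = 0 ∧
          QuadraticMap.polar Q (e i) gy = 0 ∧ QuadraticMap.polar Q (f i) gx = 0 ∧
          QuadraticMap.polar Q (f i) gy = 0) := by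
      refine ⟨s • x + t • y, (-(ζ * t)) • x + (s + t) • y, ?_, ?_, ?_, ?_⟩
      · rw [QuadraticMap.map_add Q, QuadraticMap.map_smul, QuadraticMap.map_smul,
          QuadraticMap.polar_smul_left, QuadraticMap.polar_smul_right, h1, h2, h3]
        simp only [smul_eq_mul]
        linear_combination hst
      · rw [QuadraticMap.map_add Q, QuadraticMap.map_smul, QuadraticMap.map_smul,
          QuadraticMap.polar_smul_left, QuadraticMap.polar_smul_right, h1, h2, h3]
        simp only [smul_eq_mul]
        linear_combination ζ * hst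
      · simp only [QuadraticMap.polar_add_left, QuadraticMap.polar_add_right, QuadraticMap.polar_smul_left,
          QuadraticMap.polar_smul_right, QuadraticMap.polar_self, h1, h2, h3, hyx, smul_eq_mul]
        linear_combination hst
      · intro i
        simp [(hxy i).1, (hxy i).2.1, (hxy i).2.2.1, (hxy i).2.2.2]
    have hgyx : QuadraticMap.polar Q gy gx = c := by rw [QuadraticMap.polar_comm]; exact hgxy
    refine ⟨b.constr F (Sum.elim (Sum.elim (fun i => c • e i) f) ![gx, gy]),
      constr_similarity b Q Q _ c ?_ ?_⟩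
    · rintro ((i | i) | i)
      · simp [hbe, QuadraticMap.map_smul, (ha i).1]
      · simp [hbf, (ha i).2]
      · fin_cases i
        · simp [hbx, h1, hgx]
        · simp [hby, h3, hgy]
    · rintro ((i | i) | i) ((j | j) | j)
      · simp [hbe, (hc' i j).1]
      · simp [hbe, hbf, hb i j]
      · fin_cases j <;> simp [hbe, hbx, hby, (hxy i).1, (hxy i).2.1, (horth i).1, (horth i).2.1]
      · simp [hbe, hbf, QuadraticMap.polar_comm Q (f i) (e j), hb j i]
      · simp [hbf, (hc' i j).2]
      · fin_cases j <;> simp [hbf, hbx, hby, (hxy i).2.2.1, (hxy i).2.2.2, (horth i).2.2.1, (horth i).2.2.2]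
      · fin_cases i <;> simp [hbe, hbx, hby, QuadraticMap.polar_comm Q _ (e j), (hxy j).1, (hxy j).2.1,
          (horth j).1, (horth j).2.1]
      · fin_cases i <;> simp [hbf, hbx, hby, QuadraticMap.polar_comm Q _ (f j), (hxy j).2.2.1, (hxy j).2.2.2,
          (horth j).2.2.1, (horth j).2.2.2]
      · fin_cases i <;> fin_cases j <;>
          simp [hbx, hby, QuadraticMap.polar_self, h1, h2, h3, hyx, hgx, hgy, hgxy, hgyx] <;> ring


universe u

variable {F : Type u} [Field F] {ι : Type} [Fintype ι] [DecidableEq ι]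

theorem exists_sim_GL [Fintype F] (Q : QuadraticForm F (ι → F))
    (hQ : (QuadraticMap.polarBilin Q).Nondegenerate) (k : ℕ) (hk : Fintype.card ι = 2 * (k + 1))
    (c : F) (hc : c ≠ 0) : ∃ g : GL ι F, ∀ v, Q ((g : Matrix ι ι F) *ᵥ v) = c * Q v := by
  obtain ⟨f, hf⟩ := exists_similarity k (by rw [finrank_fintype_fun_eq_card, hk]) Q hQ c
  have hinj := injective_of_similarity Q Q f c hc hf hQ
  refine ⟨(Matrix.mulVec_injective_iff_isUnit.1 (show Function.Injective (LinearMap.toMatrix' f).mulVec by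
      intro x y hxy
      simp only [LinearMap.toMatrix'_mulVec] at hxy
      exact hinj hxy)).unit, fun v => ?_⟩
  rw [IsUnit.unit_spec, LinearMap.toMatrix'_mulVec]
  exact hf v

theorem det_sq_eq (Q : QuadraticForm F (ι → F)) (hQ : (QuadraticMap.polarBilin Q).Nondegenerate)
    (g : Matrix ι ι F) (c : F) (hc : ∀ v, Q (g *ᵥ v) = c * Q v) : g.det * g.det = c ^ Fintype.card ι := by
  have hcomp : LinearMap.BilinForm.comp (polarBilin Q) (Matrix.toLin' g) (Matrix.toLin' g) = c • polarBilin Q := by
    refine LinearMap.ext (fun x => LinearMap.ext (fun y => ?_))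
    simp only [LinearMap.BilinForm.comp_apply, Matrix.toLin'_apply, polarBilin_apply_apply,
      LinearMap.smul_apply, smul_eq_mul]
    unfold QuadraticMap.polar
    rw [← Matrix.mulVec_add, hc, hc, hc]
    ring
  have h1 := congrArg LinearMap.BilinForm.toMatrix' hcomp
  rw [LinearMap.BilinForm.toMatrix'_comp, LinearMap.toMatrix'_toLin', map_smul] at h1
  have h2 := congrArg Matrix.det h1
  rw [Matrix.det_mul, Matrix.det_mul, Matrix.det_transpose, Matrix.det_smul] at h2
  have h3 : (LinearMap.BilinForm.toMatrix' (polarBilin Q)).det ≠ 0 := by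
    have := (LinearMap.BilinForm.nondegenerate_iff_det_ne_zero (Pi.basisFun F ι)).1 hQ
    rwa [LinearMap.BilinForm.toMatrix_basisFun] at this
  apply mul_right_cancel₀ h3
  linear_combination h2

section chars

variable (Q : QuadraticForm F (ι → F)) (hne : ∃ x, Q x ≠ 0)

theorem mult_unique (hne : ∃ x, Q x ≠ 0) (g : Matrix ι ι F) (c c' : F) (hc : ∀ v, Q (g *ᵥ v) = c * Q v)
    (hc' : ∀ v, Q (g *ᵥ v) = c' * Q v) : c = c' := by
  obtain ⟨x, hx⟩ := hne
  apply mul_right_cancel₀ hx
  rw [← hc, ← hc']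

/-- the multiplier of a similarity -/
noncomputable def mult (hne : ∃ x, Q x ≠ 0) : Geo.quadSimilarityGroup (F := F) Q →* Fˣ :=
  MonoidHom.mk' (fun g => Classical.choose g.2) (by
    intro a b
    apply Units.ext
    apply mult_unique Q hne (((a * b : Geo.quadSimilarityGroup (F := F) Q) : GL ι F) : Matrix ι ι F)
    · exact Classical.choose_spec (a * b).2
    · intro v
      have ha := Classical.choose_spec a.2
      have hb := Classical.choose_spec b.2
      rw [Subgroup.coe_mul, Units.val_mul, ← Matrix.mulVec_mulVec, ha, hb, Units.val_mul, mul_assoc])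

theorem mult_spec (g : Geo.quadSimilarityGroup (F := F) Q) (v : ι → F) :
    Q (((g : GL ι F) : Matrix ι ι F) *ᵥ v) = (mult Q hne g : F) * Q v :=
  Classical.choose_spec g.2 v

theorem mult_eq (g : Geo.quadSimilarityGroup (F := F) Q) (c : F)
    (hc : ∀ v, Q (((g : GL ι F) : Matrix ι ι F) *ᵥ v) = c * Q v) : (mult Q hne g : F) = c :=
  mult_unique Q hne _ _ _ (mult_spec Q hne g) hc

end chars

end Cfsg.Agent.Lib.Helper15
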