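import Mathlib
import Cfsg.Agent.Lib.Helper15.GOAut3

set_option autoImplicit false

namespace Cfsg.Agent.Lib.Helper15

open Module QuadraticMap Cfsg Matrix

universe u

variable {F : Type u} [Field F] {ι : Type} [Fintype ι] [DecidableEq ι]

theorem units_int_cast_inj (h2 : (2 : F) ≠ 0) (a b : ℤˣ) (h : (((a : ℤ) : F)) = ((b : ℤ) : F)) : a = b := by
  rcases Int.units_eq_one_or a with rfl | rfl <;> rcases Int.units_eq_one_or b with rfl | rfl
  · rfl
  · exfalso; apply h2
    simp only [Units.val_one, Int.cast_one, Units.val_neg, Int.cast_neg] at h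
    linear_combination h
  · exfalso; apply h2
    simp only [Units.val_one, Int.cast_one, Units.val_neg, Int.cast_neg] at h
    linear_combination -h
  · rfl

section chars

variable (Q : QuadraticForm F (ι → F)) (hQ : (QuadraticMap.polarBilin Q).Nondegenerate)
  (hne : ∃ x, Q x ≠ 0) (m : ℕ) (hm : Fintype.card ι = 2 * m)

open Classical in
/-- the sign `det g / μ(g)^m` -/
noncomputable def sgnVal (g : Geo.quadSimilarityGroup (F := F) Q) : ℤˣ :=
  if ((g : GL ι F) : Matrix ι ι F).det = (mult Q hne g : F) ^ m then 1 else -1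

include hQ hm in
theorem sgnVal_spec (g : Geo.quadSimilarityGroup (F := F) Q) :
    ((g : GL ι F) : Matrix ι ι F).det = ((sgnVal Q hne m g : ℤ) : F) * (mult Q hne g : F) ^ m := by
  unfold sgnVal
  split_ifs with h
  · simp [h]
  · have h1 := det_sq_eq Q hQ _ _ (mult_spec Q hne g)
    rw [hm, two_mul, pow_add] at h1
    have h3 : (((g : GL ι F) : Matrix ι ι F).det - (mult Q hne g : F) ^ m) *
        (((g : GL ι F) : Matrix ι ι F).det + (mult Q hne g : F) ^ m) = 0 := by linear_combination h1
    rcases mul_eq_zero.1 h3 with h4 | h4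
    · exact absurd (sub_eq_zero.1 h4) h
    · simp only [Units.val_neg, Units.val_one, Int.cast_neg, Int.cast_one]
      linear_combination h4

/-- the sign character -/
noncomputable def sgn (h2 : (2 : F) ≠ 0) (hQ : (QuadraticMap.polarBilin Q).Nondegenerate)
    (hm : Fintype.card ι = 2 * m) : Geo.quadSimilarityGroup (F := F) Q →* ℤˣ :=
  MonoidHom.mk' (sgnVal Q hne m) (by
    intro a b
    apply units_int_cast_inj h2
    have ha := sgnVal_spec Q hQ hne m hm a
    have hb := sgnVal_spec Q hQ hne m hm b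
    have hab := sgnVal_spec Q hQ hne m hm (a * b)
    rw [Subgroup.coe_mul, Units.val_mul, Matrix.det_mul, ha, hb, map_mul, Units.val_mul, mul_pow] at hab
    have h0 : (mult Q hne a : F) ^ m * (mult Q hne b : F) ^ m ≠ 0 :=
      mul_ne_zero (pow_ne_zero _ (Units.ne_zero _)) (pow_ne_zero _ (Units.ne_zero _))
    apply mul_right_cancel₀ h0
    rw [Units.val_mul, Int.cast_mul]
    linear_combination -hab)

theorem sgn_apply (h2 : (2 : F) ≠ 0) (g : Geo.quadSimilarityGroup (F := F) Q) :
    sgn Q hne m h2 hQ hm g = sgnVal Q hne m g := rfl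

end chars

/-- scalar matrices -/
noncomputable def scalGL (ι : Type) [Fintype ι] [DecidableEq ι] (F : Type u) [Field F] : Fˣ →* GL ι F :=
  Units.map (Matrix.scalar ι : F →+* Matrix ι ι F).toMonoidHom

theorem coe_scalGL (c : Fˣ) : ((scalGL ι F c : GL ι F) : Matrix ι ι F) = (c : F) • 1 := by
  show Matrix.scalar ι (c : F) = _
  rw [Matrix.scalar_apply, Matrix.smul_one_eq_diagonal]

theorem scalGL_mem (Q : QuadraticForm F (ι → F)) (c : Fˣ) : scalGL ι F c ∈ Geo.quadSimilarityGroup (F := F) Q := by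
  refine ⟨c * c, fun v => ?_⟩
  rw [coe_scalGL, Matrix.smul_mulVec, Matrix.one_mulVec, QuadraticMap.map_smul, Units.val_mul, smul_eq_mul]

open Classical in
/-- the two characters of the similarity group -/
noncomputable def chiGO [Fintype F] (Q : QuadraticForm F (ι → F)) (hne : ∃ x, Q x ≠ 0) (m : ℕ) (h2 : (2 : F) ≠ 0)
    (hQ : (QuadraticMap.polarBilin Q).Nondegenerate)
    (hm : Fintype.card ι = 2 * m) : Geo.quadSimilarityGroup (F := F) Q →* ℤˣ × ℤˣ :=
  ((quadraticChar F).toUnitHom.comp (mult Q hne)).prod (sgn Q hne m h2 hQ hm)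

open Classical in
theorem chiGO_eq_one_iff [Fintype F] (Q : QuadraticForm F (ι → F)) (hne : ∃ x, Q x ≠ 0) (m : ℕ) (h2 : (2 : F) ≠ 0)
    (hQ : (QuadraticMap.polarBilin Q).Nondegenerate)
    (hm : Fintype.card ι = 2 * m) (g : Geo.quadSimilarityGroup (F := F) Q) :
    chiGO Q hne m h2 hQ hm g = 1 ↔ IsSquare (mult Q hne g : F) ∧
      ((g : GL ι F) : Matrix ι ι F).det = (mult Q hne g : F) ^ m := by
  unfold chiGO
  rw [MonoidHom.prod_apply, Prod.mk_eq_one, MonoidHom.comp_apply, Units.ext_iff, MulChar.coe_toUnitHom,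
    Units.val_one, quadraticChar_one_iff_isSquare (Units.ne_zero _), sgn_apply]
  refine and_congr_right (fun _ => ?_)
  unfold sgnVal
  split_ifs with h
  · simp [h]
  · simp only [h, iff_false]
    decide

theorem klein_pgo_pso [Fintype F] (h2 : (2 : F) ≠ 0) (Q : QuadraticForm F (ι → F))
    (hQ : (QuadraticMap.polarBilin Q).Nondegenerate) (hn : 5 ≤ Fintype.card ι) (m : ℕ)
    (hm : Fintype.card ι = 2 * m) :
    ∃ φ : ↥(pgoAut F Q) →* Multiplicative (ZMod 2 × ZMod 2), Function.Surjective φ ∧
      φ.ker = (psoAut F Q).subgroupOf (pgoAut F Q) := by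
  classical
  obtain ⟨u, hu⟩ := exists_rep' Q hQ (by omega) 1
  have hu0 : Q u ≠ 0 := by rw [hu]; exact one_ne_zero
  have hne : ∃ x, Q x ≠ 0 := ⟨u, hu0⟩
  rw [pgoAut_eq, psoAut_eq]
  refine exists_klein_hom (PhiGO Q) (chiGO Q hne m h2 hQ hm) _ ?_ ?_ ?_
  · intro g
    rw [chiGO_eq_one_iff]
    constructor
    · rintro ⟨⟨c, hc⟩, hdet⟩
      have hc0 : c ≠ 0 := by
        rintro rfl
        exact (Units.ne_zero (mult Q hne g)) (by rw [hc]; simp)
      set cu : Fˣ := Units.mk0 c hc0 with hcu
      set z : Geo.quadSimilarityGroup (F := F) Q := ⟨scalGL ι F cu⁻¹, scalGL_mem Q _⟩ with hz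
      have hzc : ((z : GL ι F) : Matrix ι ι F) = c⁻¹ • 1 := by
        rw [hz]
        show ((scalGL ι F cu⁻¹ : GL ι F) : Matrix ι ι F) = _
        rw [coe_scalGL]; simp [hcu]
      have hΦ : PhiGO Q (z * g) = PhiGO Q g := by
        rw [map_mul, PhiGO_scalar Q z _ hzc, one_mul]
      rw [← hΦ]
      refine Subgroup.mem_map_of_mem _ ?_
      rw [Subgroup.mem_subgroupOf]
      have hcoe : (((z * g : Geo.quadSimilarityGroup (F := F) Q) : GL ι F) : Matrix ι ι F) =
          c⁻¹ • ((g : GL ι F) : Matrix ι ι F) := by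
        rw [Subgroup.coe_mul, Units.val_mul, hzc]; simp
      constructor
      · show ((z * g : Geo.quadSimilarityGroup (F := F) Q) : GL ι F) ∈ isometryGroup F Q
        rw [mem_isometryGroup]
        intro v
        rw [hcoe, Matrix.smul_mulVec, QuadraticMap.map_smul, mult_spec Q hne, hc, smul_eq_mul]
        field_simp
      · show Matrix.GeneralLinearGroup.det ((z * g : Geo.quadSimilarityGroup (F := F) Q) : GL ι F) = 1
        apply Units.ext
        rw [Matrix.GeneralLinearGroup.val_det_apply, hcoe, Matrix.det_smul, hdet, hc, hm, Units.val_one]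
        rw [two_mul, pow_add, mul_pow, inv_pow]
        have : c ^ m ≠ 0 := pow_ne_zero _ hc0
        field_simp
    · rintro ⟨s, hs, hsg⟩
      rw [SetLike.mem_coe, Subgroup.mem_subgroupOf] at hs
      have h1 : PhiGO Q (g * s⁻¹) = 1 := by rw [map_mul, map_inv, hsg, mul_inv_cancel]
      obtain ⟨c, hc⟩ := scalar_of_PhiGO_eq_one h2 Q hQ hn _ h1
      have hg : ((g : GL ι F) : Matrix ι ι F) = c • ((s : GL ι F) : Matrix ι ι F) := by
        have h3 : g = (g * s⁻¹) * s := by group
        have h4 : ((g : GL ι F) : Matrix ι ι F) =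
            (((g * s⁻¹ : Geo.quadSimilarityGroup (F := F) Q) : GL ι F) : Matrix ι ι F) *
              ((s : GL ι F) : Matrix ι ι F) := by
          rw [← Units.val_mul, ← Subgroup.coe_mul, ← h3]
        rw [h4, hc]; simp
      have hmu : (mult Q hne g : F) = c * c := by
        apply mult_eq
        intro v
        rw [hg, Matrix.smul_mulVec, QuadraticMap.map_smul, (mem_isometryGroup Q _).1 hs.1, smul_eq_mul]
      refine ⟨⟨c, hmu⟩, ?_⟩
      have hdet : ((s : GL ι F) : Matrix ι ι F).det = 1 := by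
        have h5 : Matrix.GeneralLinearGroup.det (s : GL ι F) = 1 := hs.2
        have := congrArg Units.val h5
        simpa using this
      rw [hg, Matrix.det_smul, hdet, hmu, hm, mul_one, two_mul, pow_add, mul_pow]
  · have hsurj : Function.Surjective (chiGO Q hne m h2 hQ hm) := by
      obtain ⟨a, ha⟩ := exists_nonsquare (F := F) h2
      have ha0 : a ≠ 0 := by rintro rfl; exact ha IsSquare.zero
      obtain ⟨k, hk⟩ : ∃ k, m = k + 1 := ⟨m - 1, by omega⟩
      obtain ⟨g₁, hg₁⟩ := exists_sim_GL Q hQ k (by rw [hm, hk]) a ha0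
      set G₁ : Geo.quadSimilarityGroup (F := F) Q := ⟨g₁, ⟨Units.mk0 a ha0, hg₁⟩⟩ with hG₁
      set G₂ : Geo.quadSimilarityGroup (F := F) Q := Subgroup.inclusion (iso_le_sim Q) (refl Q u hu0) with hG₂
      have h1 : (chiGO Q hne m h2 hQ hm G₁).1 = -1 := by
        unfold chiGO
        rw [MonoidHom.prod_apply, MonoidHom.comp_apply, Units.ext_iff, MulChar.coe_toUnitHom]
        have : (mult Q hne G₁ : F) = a := mult_eq Q hne G₁ a hg₁
        rw [this]
        exact quadraticChar_neg_one_iff_not_isSquare.2 ha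
      have h3 : chiGO Q hne m h2 hQ hm G₂ = (1, -1) := by
        have hmu : (mult Q hne G₂ : F) = 1 := mult_eq Q hne G₂ 1 (fun v => by
          rw [one_mul]; exact isometry_apply Q (refl Q u hu0) v)
        unfold chiGO
        rw [MonoidHom.prod_apply, MonoidHom.comp_apply, Prod.mk.injEq]
        constructor
        · rw [Units.ext_iff, MulChar.coe_toUnitHom, hmu]; simp
        · rw [sgn_apply]
          unfold sgnVal
          rw [if_neg]
          rw [hmu, one_pow]
          show (((refl Q u hu0 : isometryGroup F Q) : GL ι F) : Matrix ι ι F).det ≠ 1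
          rw [coe_refl, det_reflectionMatrix Q u hu0]
          intro h; apply h2; linear_combination -h
      have hfirst : ∀ x : ℤˣ, ∃ g, (chiGO Q hne m h2 hQ hm g).1 = x := by
        intro x
        rcases Int.units_eq_one_or x with rfl | rfl
        · exact ⟨1, by rw [map_one]; rfl⟩
        · exact ⟨G₁, h1⟩
      rintro ⟨x, y⟩
      obtain ⟨g, hg⟩ := hfirst x
      by_cases hy : (chiGO Q hne m h2 hQ hm g).2 = y
      · exact ⟨g, Prod.ext hg hy⟩
      · refine ⟨g * G₂, ?_⟩
        rw [map_mul, h3]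
        refine Prod.ext (by simp [hg]) ?_
        simp only [Prod.snd_mul, mul_neg, mul_one]
        rcases Int.units_eq_one_or (chiGO Q hne m h2 hQ hm g).2 with h5 | h5 <;>
          rcases Int.units_eq_one_or y with rfl | rfl <;> simp_all
    rw [MonoidHom.range_eq_top.2 hsurj]
    simp [Nat.card_prod]
  · intro g
    exact Prod.ext (Int.units_mul_self _) (Int.units_mul_self _)

end Cfsg.Agent.Lib.Helper15
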