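import Mathlib
import Cfsg.Agent.Lib.Helper15.GOAut4
import Cfsg.Agent.Lib.Helper15.D8

set_option autoImplicit false

namespace Cfsg.Agent.Lib.Helper15

open Module QuadraticMap Cfsg Matrix

theorem exists_hom_of_range {G A C : Type*} [Group G] [Group A] [Group C] (Φ : G →* A) (χ : G →* C)
    (hsurj : Function.Surjective χ) (R : Subgroup A) (hker : ∀ g, χ g = 1 ↔ Φ g ∈ R) :
    ∃ φ : Φ.range →* C, Function.Surjective φ ∧ φ.ker = R.subgroupOf Φ.range := by
  have hle : Φ.rangeRestrict.ker ≤ χ.ker := by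
    intro g hg
    rw [MonoidHom.mem_ker] at hg ⊢
    have h1 : Φ g = 1 := congrArg Subtype.val hg
    exact (hker g).2 (by rw [h1]; exact Subgroup.one_mem _)
  set ψ : Φ.range →* C :=
    Φ.rangeRestrict.liftOfSurjective Φ.rangeRestrict_surjective ⟨χ, hle⟩ with hψ
  have hψa : ∀ g, ψ (Φ.rangeRestrict g) = χ g := fun g =>
    MonoidHom.liftOfRightInverse_comp_apply _ _ _ _ g
  refine ⟨ψ, ?_, ?_⟩
  · intro c
    obtain ⟨g, rfl⟩ := hsurj c
    exact ⟨Φ.rangeRestrict g, hψa g⟩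
  · ext ⟨_, g, rfl⟩
    rw [MonoidHom.mem_ker, Subgroup.mem_subgroupOf]
    show ψ (Φ.rangeRestrict g) = 1 ↔ _
    rw [hψa, hker]

theorem inn_normal (G : Type*) [Group G] : (MulAut.conj : G →* MulAut G).range.Normal := by
  constructor
  rintro _ ⟨g, rfl⟩ φ
  refine ⟨φ g, ?_⟩
  ext x
  simp [MulAut.conj_apply]

universe u

variable {F : Type u} [Field F] {ι : Type} [Fintype ι] [DecidableEq ι]

theorem polar_sim (Q : QuadraticForm F (ι → F)) (g : Matrix ι ι F) (c : F) (hc : ∀ v, Q (g *ᵥ v) = c * Q v)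
    (x y : ι → F) : polar Q (g *ᵥ x) (g *ᵥ y) = c * polar Q x y := by
  unfold QuadraticMap.polar
  rw [← Matrix.mulVec_add, hc, hc, hc]
  ring

/-- conjugating a reflection by a similarity -/
theorem sim_conj_refl (Q : QuadraticForm F (ι → F)) (d : Geo.quadSimilarityGroup (F := F) Q) (c : F) (hc0 : c ≠ 0)
    (hc : ∀ v, Q (((d : GL ι F) : Matrix ι ι F) *ᵥ v) = c * Q v) (u : ι → F) (hu : Q u ≠ 0)
    (hu' : Q (((d : GL ι F) : Matrix ι ι F) *ᵥ u) ≠ 0) :
    d * Subgroup.inclusion (iso_le_sim Q) (refl Q u hu) * d⁻¹ =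
      Subgroup.inclusion (iso_le_sim Q) (refl Q (((d : GL ι F) : Matrix ι ι F) *ᵥ u) hu') := by
  apply Subtype.ext
  apply Units.ext
  apply matrix_ext_mulVec
  intro x
  show (((d : GL ι F) : Matrix ι ι F) * reflectionMatrix Q u * (((d : GL ι F)⁻¹ : GL ι F) : Matrix ι ι F)) *ᵥ x =
    reflectionMatrix Q (((d : GL ι F) : Matrix ι ι F) *ᵥ u) *ᵥ x
  have hx : ((d : GL ι F) : Matrix ι ι F) *ᵥ ((((d : GL ι F)⁻¹ : GL ι F) : Matrix ι ι F) *ᵥ x) = x := by
    rw [Matrix.mulVec_mulVec, ← Units.val_mul, mul_inv_cancel, Units.val_one, Matrix.one_mulVec]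
  rw [← Matrix.mulVec_mulVec, ← Matrix.mulVec_mulVec, reflectionMatrix_mulVec, reflectionMatrix_mulVec,
    Matrix.mulVec_sub, Matrix.mulVec_smul, hx, hc]
  congr 2
  conv_rhs => rw [← hx]
  rw [polar_sim Q _ c hc]
  field_simp

section main

variable [Fintype F] (h2 : (2 : F) ≠ 0) (Q : QuadraticForm F (ι → F))
  (hQ : (QuadraticMap.polarBilin Q).Nondegenerate) (hn : 5 ≤ Fintype.card ι) (m : ℕ)
  (hm : Fintype.card ι = 2 * m) (hne : ∃ x, Q x ≠ 0)

include hn in
theorem exists_scalar_mul (g : Geo.quadSimilarityGroup (F := F) Q)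
    (hg : chiGO Q hne m h2 hQ hm g = 1) :
    ∃ z : Geo.quadSimilarityGroup (F := F) Q, PhiGO Q z = 1 ∧
      ((z * g : Geo.quadSimilarityGroup (F := F) Q) : GL ι F) ∈ specialIsometryGL F Q := by
  rw [chiGO_eq_one_iff] at hg
  obtain ⟨⟨c, hc⟩, hdet⟩ := hg
  have hc0 : c ≠ 0 := by
    rintro rfl
    exact (Units.ne_zero (mult Q hne g)) (by rw [hc]; simp)
  set cu : Fˣ := Units.mk0 c hc0 with hcu
  set z : Geo.quadSimilarityGroup (F := F) Q := ⟨scalGL ι F cu⁻¹, scalGL_mem Q _⟩ with hz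
  have hzc : ((z : GL ι F) : Matrix ι ι F) = c⁻¹ • 1 := by
    rw [hz]
    show ((scalGL ι F cu⁻¹ : GL ι F) : Matrix ι ι F) = _
    rw [coe_scalGL]; simp [hcu]
  refine ⟨z, PhiGO_scalar Q z _ hzc, ?_⟩
  have hcoe : (((z * g : Geo.quadSimilarityGroup (F := F) Q) : GL ι F) : Matrix ι ι F) =
      c⁻¹ • ((g : GL ι F) : Matrix ι ι F) := by
    rw [Subgroup.coe_mul, Units.val_mul, hzc]; simp
  constructor
  · show ((z * g : Geo.quadSimilarityGroup (F := F) Q) : GL ι F) ∈ isometryGroup F Q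
    rw [mem_isometryGroup]
    intro v
    rw [hcoe, Matrix.smul_mulVec, QuadraticMap.map_smul, mult_spec Q hne, hc, smul_eq_mul]
    field_simp
  · show Matrix.GeneralLinearGroup.det ((z * g : Geo.quadSimilarityGroup (F := F) Q) : GL ι F) = 1
    apply Units.ext
    rw [Matrix.GeneralLinearGroup.val_det_apply, hcoe, Matrix.det_smul, hdet, hc, hm, Units.val_one]
    rw [two_mul, pow_add, mul_pow, inv_pow]
    have : c ^ m ≠ 0 := pow_ne_zero _ hc0
    field_simp

include hn in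
theorem chiGO_eq_one_of_pso (g : Geo.quadSimilarityGroup (F := F) Q) (hg : PhiGO Q g ∈ psoAut F Q) :
    chiGO Q hne m h2 hQ hm g = 1 := by
  rw [psoAut_eq] at hg
  rw [chiGO_eq_one_iff]
  obtain ⟨s, hs, hsg⟩ := hg
  rw [SetLike.mem_coe, Subgroup.mem_subgroupOf] at hs
  have h1 : PhiGO Q (g * s⁻¹) = 1 := by rw [map_mul, map_inv, hsg, mul_inv_cancel]
  obtain ⟨c, hc⟩ := scalar_of_PhiGO_eq_one h2 Q hQ hn _ h1
  have hg : ((g : GL ι F) : Matrix ι ι F) = c • ((s : GL ι F) : Matrix ι ι F) := by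
    have h3 : g = (g * s⁻¹) * s := by group
    have h4 : ((g : GL ι F) : Matrix ι ι F) =
        (((g * s⁻¹ : Geo.quadSimilarityGroup (F := F) Q) : GL ι F) : Matrix ι ι F) *
          ((s : GL ι F) : Matrix ι ι F) := by
      rw [← Units.val_mul, ← Subgroup.coe_mul, ← h3]
    rw [h4, hc]; simp
  have hmu : (mult Q hne g : F) = c * c := by
    apply mult_eq
    intro v
    rw [hg, Matrix.smul_mulVec, QuadraticMap.map_smul, (mem_isometryGroup Q _).1 hs.1, smul_eq_mul]
  refine ⟨⟨c, hmu⟩, ?_⟩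
  have hdet : ((s : GL ι F) : Matrix ι ι F).det = 1 := by
    have h5 : Matrix.GeneralLinearGroup.det (s : GL ι F) = 1 := hs.2
    have := congrArg Units.val h5
    simpa using this
  rw [hg, Matrix.det_smul, hdet, hmu, hm, mul_one, two_mul, pow_add, mul_pow]

theorem chiGO_refl (u : ι → F) (hu0 : Q u ≠ 0) :
    chiGO Q hne m h2 hQ hm (Subgroup.inclusion (iso_le_sim Q) (refl Q u hu0)) = (1, -1) := by
  classical
  set G₂ : Geo.quadSimilarityGroup (F := F) Q := Subgroup.inclusion (iso_le_sim Q) (refl Q u hu0) with hG₂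
  have hmu : (mult Q hne G₂ : F) = 1 := mult_eq Q hne G₂ 1 (fun v => by
    rw [one_mul]; exact isometry_apply Q (refl Q u hu0) v)
  unfold chiGO
  rw [MonoidHom.prod_apply, MonoidHom.comp_apply, Prod.mk.injEq]
  constructor
  · rw [Units.ext_iff, MulChar.coe_toUnitHom, hmu]; simp
  · rw [sgn_apply]
    unfold sgnVal
    rw [if_neg]
    rw [hmu, one_pow]
    show (((refl Q u hu0 : isometryGroup F Q) : GL ι F) : Matrix ι ι F).det ≠ 1
    rw [coe_refl, det_reflectionMatrix Q u hu0]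
    intro h; apply h2; linear_combination -h

theorem chiGO_fst_of_nonsquare (g : Geo.quadSimilarityGroup (F := F) Q) (a : F) (ha : ¬ IsSquare a)
    (hg : ∀ v, Q (((g : GL ι F) : Matrix ι ι F) *ᵥ v) = a * Q v) :
    (chiGO Q hne m h2 hQ hm g).1 = -1 := by
  classical
  unfold chiGO
  rw [MonoidHom.prod_apply, MonoidHom.comp_apply, Units.ext_iff, MulChar.coe_toUnitHom]
  have : (mult Q hne g : F) = a := mult_eq Q hne g a hg
  rw [this]
  exact quadraticChar_neg_one_iff_not_isSquare.2 ha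

include h2 hQ hn in
theorem incl_mem_comap_iff (hneg : negI Q ∈ Omega F Q) (o : isometryGroup F Q) :
    PhiGO Q (Subgroup.inclusion (iso_le_sim Q) o) ∈ Inn (POmega F Q) ↔ o ∈ Omega F Q := by
  rw [inn_eq']
  constructor
  · rintro ⟨w, hw, hwo⟩
    have h1 : PhiO Q (o * w⁻¹) = 1 := by
      rw [map_mul, map_inv, hwo]
      exact mul_inv_cancel _
    have h3 : o = (o * w⁻¹) * w := by group
    rw [h3]
    refine Subgroup.mul_mem _ ?_ hw
    rcases (mem_ker_PhiO h2 Q hQ hn _).1 h1 with h4 | h4 <;> rw [h4]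
    · exact Subgroup.one_mem _
    · exact hneg
  · intro ho
    exact ⟨o, ho, rfl⟩

include h2 hQ hn hm in
theorem relIndex_inn_pgo (hneg : negI Q ∈ Omega F Q) : (Inn (POmega F Q)).relIndex (pgoAut F Q) = 8 := by
  have h1 : Inn (POmega F Q) ≤ psoAut F Q := by
    rw [inn_eq', psoAut_eq']
    apply Subgroup.map_mono
    unfold specialIsometryGroup
    exact Abelianization.commutator_subset_ker _
  have h3 : psoAut F Q ≤ pgoAut F Q := by
    rw [psoAut_eq, pgoAut_eq]
    exact Subgroup.map_le_range _ _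
  rw [← Subgroup.relIndex_mul_relIndex _ _ _ h1 h3,
    (relIndex_inn_pso h2 Q hQ hn (by rw [hm]; exact even_two_mul m)).1 hneg]
  obtain ⟨φ, hφ, hker⟩ := klein_pgo_pso h2 Q hQ hn m hm
  have h4 : (psoAut F Q).relIndex (pgoAut F Q) = 4 := by
    show ((psoAut F Q).subgroupOf (pgoAut F Q)).index = 4
    rw [← hker, Subgroup.index_ker, MonoidHom.range_eq_top.2 hφ]
    simp [Nat.card_prod]
  rw [h4]

set_option maxHeartbeats 1600000 in
include h2 hQ hn hm in
theorem dihedral_pgo_inn (hneg : negI Q ∈ Omega F Q) :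
    ∃ φ : ↥(pgoAut F Q) →* DihedralGroup 4, Function.Surjective φ ∧
      φ.ker = (Inn (POmega F Q)).subgroupOf (pgoAut F Q) := by
  classical
  have h : Fintype.card F ≠ 2 ∨ Fintype.card ι ≠ 4 := Or.inr (by omega)
  obtain ⟨u, hu⟩ := exists_rep' Q hQ (by omega) 1
  have hu0 : Q u ≠ 0 := by rw [hu]; exact one_ne_zero
  have hne : ∃ x, Q x ≠ 0 := ⟨u, hu0⟩
  haveI := inn_normal (POmega F Q)
  set K : Subgroup (Geo.quadSimilarityGroup (F := F) Q) := (Inn (POmega F Q)).comap (PhiGO Q) with hK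
  have hKn : K.Normal := Subgroup.Normal.comap inferInstance _
  have hKmem : ∀ g, g ∈ K ↔ PhiGO Q g ∈ Inn (POmega F Q) := fun g => Iff.rfl
  have hcardK : Nat.card (Geo.quadSimilarityGroup (F := F) Q ⧸ K) = 8 := by
    show K.index = 8
    rw [hK, Subgroup.index_comap, ← pgoAut_eq, relIndex_inn_pgo h2 Q hQ hn m hm hneg]
  have hfin : Finite (Geo.quadSimilarityGroup (F := F) Q ⧸ K) := Nat.finite_of_card_ne_zero (by rw [hcardK]; norm_num)
  have hinnpso : Inn (POmega F Q) ≤ psoAut F Q := by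
    rw [inn_eq', psoAut_eq']
    apply Subgroup.map_mono
    unfold specialIsometryGroup
    exact Abelianization.commutator_subset_ker _
  have hKle : K ≤ (chiGO Q hne m h2 hQ hm).ker := fun g hg =>
    chiGO_eq_one_of_pso h2 Q hQ hn m hm hne g (hinnpso hg)
  set χ : (Geo.quadSimilarityGroup (F := F) Q ⧸ K) →* ℤˣ × ℤˣ := QuotientGroup.lift K _ hKle with hχ
  obtain ⟨a, ha⟩ := exists_nonsquare (F := F) h2
  have ha0 : a ≠ 0 := by rintro rfl; exact ha IsSquare.zero
  obtain ⟨k, hk⟩ : ∃ k, m = k + 1 := ⟨m - 1, by omega⟩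
  obtain ⟨g₁, hg₁⟩ := exists_sim_GL Q hQ k (by rw [hm, hk]) a ha0
  set d : Geo.quadSimilarityGroup (F := F) Q := ⟨g₁, ⟨Units.mk0 a ha0, hg₁⟩⟩ with hd
  have hdu : Q ((g₁ : Matrix ι ι F) *ᵥ u) = a := by rw [hg₁, hu, mul_one]
  have hdu0 : Q ((g₁ : Matrix ι ι F) *ᵥ u) ≠ 0 := by rw [hdu]; exact ha0
  set incl := Subgroup.inclusion (iso_le_sim Q) with hincl
  set x : Geo.quadSimilarityGroup (F := F) Q := incl (refl Q u hu0) with hx
  have hconj : d * x * d⁻¹ = incl (refl Q ((g₁ : Matrix ι ι F) *ᵥ u) hdu0) :=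
    sim_conj_refl Q d a ha0 hg₁ u hu0 hdu0
  have hθu : theta Q (refl Q u hu0) = -1 := (theta_refl h2 Q u hu0).1 (by rw [hu]; exact IsSquare.one)
  have hθdu : theta Q (refl Q _ hdu0) = 1 := (theta_refl h2 Q _ hdu0).2 (by rw [hdu]; exact ha)
  have hmk1 : ∀ o : isometryGroup F Q, (QuotientGroup.mk (incl o) : _ ⧸ K) = 1 ↔ o ∈ Omega F Q := by
    intro o
    rw [QuotientGroup.eq_one_iff, hKmem]
    exact incl_mem_comap_iff h2 Q hQ hn hneg o
  have hconj' : (QuotientGroup.mk d : _ ⧸ K) * QuotientGroup.mk x * (QuotientGroup.mk d)⁻¹ =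
      QuotientGroup.mk (incl (refl Q ((g₁ : Matrix ι ι F) *ᵥ u) hdu0)) := by
    rw [← hconj]; rfl
  obtain ⟨e⟩ := dihedral_of_relations hcardK χ (QuotientGroup.mk x) (QuotientGroup.mk d)
    (by
      rw [← QuotientGroup.mk_mul, hx, ← map_mul, refl_mul_self, map_one]; rfl)
    (by
      show chiGO Q hne m h2 hQ hm x = _
      exact chiGO_refl h2 Q hQ m hm hne u hu0)
    (by
      show (chiGO Q hne m h2 hQ hm d).1 = _
      exact chiGO_fst_of_nonsquare h2 Q hQ m hm hne d a ha hg₁)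
    (by
      rw [hconj', hx, ← QuotientGroup.mk_mul, ← QuotientGroup.mk_mul, ← map_mul, ← map_mul,
        QuotientGroup.eq, ← map_inv, ← map_mul, hKmem]
      rw [incl_mem_comap_iff h2 Q hQ hn hneg, mem_Omega_iff_chars h2 Q hQ h]
      simp only [map_mul, map_inv, dickson_refl, hθu, hθdu]
      decide)
    (by
      rw [hconj', hx, ← QuotientGroup.mk_mul, ← map_mul, Ne, hmk1, mem_Omega_iff_chars h2 Q hQ h]
      simp only [map_mul, dickson_refl, hθu, hθdu]
      decide)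
    (by
      have hchi : chiGO Q hne m h2 hQ hm (d * d) = 1 := by rw [map_mul]; exact units_prod_sq _
      obtain ⟨z, hz, hzs⟩ := exists_scalar_mul h2 Q hQ hn m hm hne (d * d) hchi
      set o : isometryGroup F Q := ⟨_, hzs.1⟩ with ho
      have hoS : dickson Q hQ h o = 1 := by
        rw [← mem_special_iff_dickson h2 Q hQ h, mem_special_iff]
        have h5 : Matrix.GeneralLinearGroup.det ((z * (d * d) : Geo.quadSimilarityGroup (F := F) Q) : GL ι F) = 1 :=
          hzs.2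
        have h8 := congrArg Units.val h5
        rw [Matrix.GeneralLinearGroup.val_det_apply, Units.val_one] at h8
        exact h8
      have hzd : (QuotientGroup.mk d : _ ⧸ K) * QuotientGroup.mk d = QuotientGroup.mk (incl o) := by
        have h6 : incl o = z * (d * d) := Subtype.ext rfl
        rw [h6, QuotientGroup.mk_mul, QuotientGroup.mk_mul]
        have h7 : (QuotientGroup.mk z : _ ⧸ K) = 1 := by
          rw [QuotientGroup.eq_one_iff, hKmem, hz]; exact Subgroup.one_mem _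
        rw [h7, one_mul]
      rw [hzd, hconj', hx, ← QuotientGroup.mk_mul, ← map_mul]
      by_cases hoΩ : o ∈ Omega F Q
      · left; exact (hmk1 o).2 hoΩ
      · right
        have hθo : theta Q o = -1 := by
          rw [mem_Omega_iff_chars h2 Q hQ h] at hoΩ
          rcases Int.units_eq_one_or (theta Q o) with h5 | h5
          · exact absurd ⟨hoS, h5⟩ hoΩ
          · exact h5
        rw [QuotientGroup.eq, ← map_inv, ← map_mul, hKmem, incl_mem_comap_iff h2 Q hQ hn hneg,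
          mem_Omega_iff_chars h2 Q hQ h]
        simp only [map_mul, map_inv, dickson_refl, hθu, hθdu, hoS, hθo]
        decide)
  rw [pgoAut_eq]
  refine exists_hom_of_range (PhiGO Q) (e.toMonoidHom.comp (QuotientGroup.mk' K))
    (e.surjective.comp (QuotientGroup.mk'_surjective K)) _ ?_
  intro g
  show e (QuotientGroup.mk g) = 1 ↔ _
  rw [map_eq_one_iff e e.injective, QuotientGroup.eq_one_iff, hKmem]

include h2 hQ hn hm in
theorem klein_pgo_inn (hneg : negI Q ∉ Omega F Q) :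
    ∃ φ : ↥(pgoAut F Q) →* Multiplicative (ZMod 2 × ZMod 2), Function.Surjective φ ∧
      φ.ker = (Inn (POmega F Q)).subgroupOf (pgoAut F Q) := by
  have h1 : Inn (POmega F Q) ≤ psoAut F Q := by
    rw [inn_eq', psoAut_eq']
    apply Subgroup.map_mono
    unfold specialIsometryGroup
    exact Abelianization.commutator_subset_ker _
  have h3 := (relIndex_inn_pso h2 Q hQ hn (by rw [hm]; exact even_two_mul m)).2 hneg
  rw [Subgroup.relIndex_eq_one] at h3
  rw [le_antisymm h1 h3]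
  exact klein_pgo_pso h2 Q hQ hn m hm

end main

end Cfsg.Agent.Lib.Helper15
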