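import Mathlib
import Cfsg.Agent.Lib.Helper15.Simp6
import Cfsg.Agent.Lib.Helper15.GeoBridge

set_option autoImplicit false

namespace Cfsg.Agent.Lib.Helper15

open Module QuadraticMap Cfsg Matrix

variable {F : Type*} [Field F] {ι : Type} [Fintype ι] [DecidableEq ι]

/-- all Eichler transformations with first vector `u` lie in `H` -/
def GoodV (Q : QuadraticForm F (ι → F)) (H : Subgroup (isometryGroup F Q)) (u : ι → F) : Prop :=
  Q u = 0 ∧ ∀ z, polar Q u z = 0 → ∀ k : isometryGroup F Q, toEnd Q k = eichL Q u z → k ∈ H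

theorem GoodV.conj {Q : QuadraticForm F (ι → F)} {H : Subgroup (isometryGroup F Q)} {u : ι → F}
    (h : GoodV Q H u) (g : isometryGroup F Q) (hg : g ∈ H) : GoodV Q H (toEnd Q g u) := by
  refine ⟨by rw [toEnd_isIso Q g u, h.1], fun z hz k hk => ?_⟩
  have h1 := toEnd_conj_eich Q g⁻¹ k _ _ hk
  have h2 : toEnd Q g⁻¹ (toEnd Q g u) = u := by
    rw [← Module.End.mul_apply, ← map_mul, inv_mul_cancel, map_one]; rfl
  rw [h2, inv_inv] at h1
  have h3 : polar Q u (toEnd Q g⁻¹ z) = 0 := by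
    calc polar Q u (toEnd Q g⁻¹ z) = polar Q (toEnd Q g⁻¹ (toEnd Q g u)) (toEnd Q g⁻¹ z) := by rw [h2]
      _ = polar Q (toEnd Q g u) z := (toEnd_isIso Q g⁻¹).polar _ _
      _ = 0 := hz
  have h4 := h.2 _ h3 _ h1
  have : k = g * (g⁻¹ * k * g) * g⁻¹ := by group
  rw [this]; exact H.mul_mem (H.mul_mem hg h4) (H.inv_mem hg)

theorem GoodV.smul {Q : QuadraticForm F (ι → F)} {H : Subgroup (isometryGroup F Q)} {u : ι → F}
    (h : GoodV Q H u) (c : F) : GoodV Q H (c • u) := by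
  refine ⟨by rw [QuadraticMap.map_smul, h.1, smul_zero], fun z hz k hk => ?_⟩
  refine h.2 (c • z) ?_ k (by rw [hk, eich_smul_left])
  rw [polar_smul_right, ← polar_smul_left]; exact hz

theorem GoodV.zero (Q : QuadraticForm F (ι → F)) (H : Subgroup (isometryGroup F Q)) : GoodV Q H 0 := by
  refine ⟨map_zero Q, fun z _ k hk => ?_⟩
  rw [eich_zero_left, ← map_one (toEnd Q)] at hk
  rw [toEnd_injective Q hk]
  exact H.one_mem

theorem GoodV.link [Fintype F] (Q : QuadraticForm F (ι → F)) (hQ : (polarBilin Q).Nondegenerate)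
    (hn : 5 ≤ Fintype.card ι) {H : Subgroup (isometryGroup F Q)} (u u' w : ι → F) (hu : GoodV Q H u)
    (hu' : GoodV Q H u') (huu : polar Q u u' ≠ 0) (hw : Q w = 0) (huw : polar Q u w ≠ 0) : GoodV Q H w := by
  set p := polar Q u u' with hp
  set p' := polar Q u w with hp'
  set w' := (p / p') • w with hw'
  have hQw' : Q w' = 0 := by rw [hw', QuadraticMap.map_smul, hw, smul_zero]
  have h2 : polar Q u w' = p := by
    rw [hw', polar_smul_right, ← hp', smul_eq_mul]; field_simp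
  obtain ⟨h3, h4⟩ := eich_link Q u u' w' hu'.1 hQw' p huu rfl h2
  obtain ⟨k, hk, -⟩ := eich_mem_Omega Q hQ (Or.inr (by omega)) u _ hu.1 h3
  have hkH := hu.2 _ h3 k hk
  have h5 := hu'.conj k hkH
  rw [hk, h4] at h5
  have : w = (p' / p) • w' := by
    rw [hw', smul_smul]
    have : p' / p * (p / p') = 1 := by field_simp
    rw [this, one_smul]
  rw [this]; exact h5.smul _

theorem GoodV.all [Fintype F] (Q : QuadraticForm F (ι → F)) (hQ : (polarBilin Q).Nondegenerate)
    (hn : 5 ≤ Fintype.card ι) {H : Subgroup (isometryGroup F Q)} (u u' : ι → F) (hu : GoodV Q H u)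
    (hu' : GoodV Q H u') (huu : polar Q u u' ≠ 0) (w : ι → F) (hw : Q w = 0) : GoodV Q H w := by
  by_cases h1 : polar Q u w = 0
  · by_cases hw0 : w = 0
    · rw [hw0]; exact GoodV.zero Q H
    · have hu0 : u ≠ 0 := by
        rintro rfl
        simp at huu
      obtain ⟨v, hv, hvu, hvw⟩ := exists_sing_nonorth_both Q hQ u w hu0 hw0 hu.1 hw h1
      have hgv : GoodV Q H v := GoodV.link Q hQ hn u u' v hu hu' huu hv (by rwa [polar_comm])
      exact GoodV.link Q hQ hn v u w hgv hu hvu hw hvw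
  · exact GoodV.link Q hQ hn u u' w hu hu' huu hw h1

theorem Omega_le_of_good [Fintype F] (Q : QuadraticForm F (ι → F)) (hQ : (polarBilin Q).Nondegenerate)
    (hn : 5 ≤ Fintype.card ι) {H : Subgroup (isometryGroup F Q)} (h : ∀ w, Q w = 0 → GoodV Q H w) :
    Omega F Q ≤ H := by
  rw [Omega_eq_closure_sieg Q hQ hn, Subgroup.closure_le]
  rintro k ⟨y, z, hy, -, hyz, hk⟩
  exact (h y hy).2 z hyz k hk

theorem Omega_le_of_good_pair [Fintype F] (Q : QuadraticForm F (ι → F)) (hQ : (polarBilin Q).Nondegenerate)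
    (hn : 5 ≤ Fintype.card ι) {H : Subgroup (isometryGroup F Q)} (u u' : ι → F) (hu : GoodV Q H u)
    (hu' : GoodV Q H u') (huu : polar Q u u' ≠ 0) : Omega F Q ≤ H :=
  Omega_le_of_good Q hQ hn (GoodV.all Q hQ hn u u' hu hu' huu)

/-- any overgroup of a parabolic subgroup moving the subspace contains `Ω` -/
theorem parabolic_max [Fintype F] (Q : QuadraticForm F (ι → F)) (hQ : (polarBilin Q).Nondegenerate)
    (hn : 5 ≤ Fintype.card ι) (W : Submodule F (ι → F)) (hW : ∀ w ∈ W, Q w = 0)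
    (hstar : ∀ w', Q w' = 0 → w' ∉ W → (∀ s ∈ W, polar Q s w' = 0) →
      ∃ z v, Q z = 0 ∧ polar Q z v = 0 ∧ (∀ s ∈ W, polar Q s z = 0) ∧ (∀ s ∈ W, polar Q s v = 0) ∧
        polar Q w' z ≠ 0 ∧ Q v ≠ 0)
    (M : Subgroup (isometryGroup F Q)) (hM : ∀ g ∈ Omega F Q, Stab W g → g ∈ M) (h : isometryGroup F Q)
    (hh : h ∈ M) (hns : ¬ Stab W h) : Omega F Q ≤ M := by
  have hgood : ∀ u ∈ W, GoodV Q M u := by
    intro u hu
    refine ⟨hW u hu, fun z hz k hk => ?_⟩
    obtain ⟨k', hk', hkΩ⟩ := eich_mem_Omega Q hQ (Or.inr (by omega)) u z (hW u hu) hz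
    have : k = k' := toEnd_injective Q (by rw [hk, hk'])
    rw [this]
    apply hM k' hkΩ
    intro x hx
    rw [← toEnd_apply, hk', eichL_apply, polar_of_sing hW hu hx]
    simp only [mul_zero, sub_zero, neg_zero, zero_smul, add_zero]
    exact W.add_mem hx (W.smul_mem _ hu)
  unfold Stab at hns
  push Not at hns
  obtain ⟨w, hw, hhw⟩ := hns
  rw [← toEnd_apply] at hhw
  set u' := toEnd Q h w with hu'
  have hgu' : GoodV Q M u' := (hgood w hw).conj h hh
  by_cases hex : ∃ s ∈ W, polar Q s u' ≠ 0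
  · obtain ⟨s, hs, hsu⟩ := hex
    exact Omega_le_of_good_pair Q hQ hn s u' (hgood s hs) hgu' hsu
  · push Not at hex
    obtain ⟨z, v, hz, hzv, hWz, hWv, hu'z, hv⟩ := hstar u' hgu'.1 hhw hex
    obtain ⟨k, hk, hkΩ⟩ := eich_mem_Omega Q hQ (Or.inr (by omega)) z v hz hzv
    have hkM : k ∈ M := by
      apply hM k hkΩ
      intro x hx
      rw [← toEnd_apply, hk, eichL_apply, polar_comm Q v x, hWv x hx, polar_comm Q z x, hWz x hx]
      simpa using hx
    have h1 := hgu'.conj k hkM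
    refine Omega_le_of_good_pair Q hQ hn _ u' h1 hgu' ?_
    rw [hk, eichL_apply, polar_add_left, polar_add_left, polar_smul_left, polar_smul_left, polar_self,
      hgu'.1, polar_comm Q z u']
    have : (2 : ℕ) • (0 : F) + (polar Q v u' - Q v * polar Q u' z) • polar Q u' z +
      (-polar Q u' z) • polar Q v u' = - (Q v * polar Q u' z * polar Q u' z) := by
      simp only [smul_eq_mul, smul_zero]; ring
    rw [this]
    exact neg_ne_zero.2 (mul_ne_zero (mul_ne_zero hv hu'z) hu'z)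

omit [Fintype ι] [DecidableEq ι] in
theorem sing_sup_span (Q : QuadraticForm F (ι → F)) (U : Submodule F (ι → F)) (hU : ∀ u ∈ U, Q u = 0)
    (x : ι → F) (hx : Q x = 0) (hUx : ∀ u ∈ U, polar Q u x = 0) :
    ∀ t ∈ U ⊔ Submodule.span F {x}, Q t = 0 := by
  intro t ht
  obtain ⟨u, hu, y, hy, rfl⟩ := Submodule.mem_sup.1 ht
  obtain ⟨c, rfl⟩ := Submodule.mem_span_singleton.1 hy
  rw [Q_add_one, hU u hu, hx, hUx u hu]; ring

/-- the condition needed for maximality -/
theorem exists_star (Q : QuadraticForm F (ι → F)) (hQ : (polarBilin Q).Nondegenerate)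
    (W : Submodule F (ι → F)) (hW : ∀ w ∈ W, Q w = 0)
    (hne : ¬ ∃ U : Submodule F (ι → F), (∀ u ∈ U, Q u = 0) ∧ 2 * finrank F U = Fintype.card ι ∧
      finrank F U = finrank F W + 1)
    (w' : ι → F) (hw' : Q w' = 0) (hnW : w' ∉ W) (horth : ∀ s ∈ W, polar Q s w' = 0) :
    ∃ z v, Q z = 0 ∧ polar Q z v = 0 ∧ (∀ s ∈ W, polar Q s z = 0) ∧ (∀ s ∈ W, polar Q s v = 0) ∧
        polar Q w' z ≠ 0 ∧ Q v ≠ 0 := by
  obtain ⟨z, hz, hWz, hwz⟩ := exists_sing_partner Q hQ W w' hnW hw' horth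
  set O := LinearMap.BilinForm.orthogonal (polarBilin Q) W with hO
  set U := (O ⊓ LinearMap.ker (polarBilin Q w')) ⊓ LinearMap.ker (polarBilin Q z) with hU
  by_cases hex : ∃ v ∈ U, Q v ≠ 0
  · obtain ⟨v, hvU, hv⟩ := hex
    refine ⟨z, v, hz, ?_, hWz, ?_, by rw [hwz]; exact one_ne_zero, hv⟩
    · exact hvU.2
    · intro s hs
      exact (LinearMap.BilinForm.mem_orthogonal_iff.1 hvU.1.1) s hs
  · exfalso
    push Not at hex
    have h1 := finrank_le_inf_ker O (polarBilin Q w')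
    have h2 : finrank F ↥(O ⊓ LinearMap.ker (polarBilin Q w')) ≤ finrank F U + 1 :=
      finrank_le_inf_ker (O ⊓ LinearMap.ker (polarBilin Q w')) (polarBilin Q z)
    have h3 : finrank F O = finrank F (ι → F) - finrank F W := LinearMap.BilinForm.finrank_orthogonal hQ W
    rw [finrank_fintype_fun_eq_card] at h3
    have h4 := Submodule.finrank_le W
    rw [finrank_fintype_fun_eq_card] at h4
    have hwU : w' ∉ U := by
      intro hc
      have : polar Q z w' = 0 := hc.2
      rw [polar_comm, hwz] at this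
      exact one_ne_zero this
    have h5 := Submodule.finrank_sup_span_singleton hwU
    have h6 := finrank_le_of_sing hQ (sing_sup_span Q U hex w' hw' (fun u hu => by
      have : polar Q w' u = 0 := hu.1.2
      rw [polar_comm]; exact this))
    have h7 := Submodule.finrank_sup_span_singleton hnW
    have h8 := finrank_le_of_sing hQ (sing_sup_span Q W hW w' hw' horth)
    rw [finrank_fintype_fun_eq_card] at h6 h8
    apply hne
    refine ⟨_, sing_sup_span Q W hW w' hw' horth, ?_, h7⟩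
    omega

theorem exists_omega_not_stab [Fintype F] (Q : QuadraticForm F (ι → F)) (hQ : (polarBilin Q).Nondegenerate)
    (hn : 5 ≤ Fintype.card ι) (W : Submodule F (ι → F)) (hW0 : W ≠ ⊥) (hW : ∀ w ∈ W, Q w = 0) :
    ∃ g ∈ Omega F Q, ¬ Stab W g := by
  obtain ⟨w, hw, hw0⟩ := Submodule.exists_mem_ne_zero_of_ne_bot hW0
  obtain ⟨y, hy, hwy⟩ := exists_hyp_partner Q hQ w hw0 (hW w hw)
  have hy0 : y ≠ 0 := by
    rintro rfl
    simp at hwy
  have := omega_pretransitive Q hQ hn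
  obtain ⟨g, hg⟩ := MulAction.exists_smul_eq (Omega F Q) (mkPt Q w hw0 (hW w hw)) (mkPt Q y hy0 hy)
  refine ⟨g, g.2, fun hs => ?_⟩
  rw [smul_mkPt] at hg
  have h1 : Submodule.span F {toEnd Q (g : isometryGroup F Q) w} = Submodule.span F {y} :=
    congrArg Subtype.val hg
  have h2 : y ∈ Submodule.span F {toEnd Q (g : isometryGroup F Q) w} := by
    rw [h1]; exact Submodule.mem_span_singleton_self _
  obtain ⟨c, hc⟩ := Submodule.mem_span_singleton.1 h2
  have h3 : y ∈ W := by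
    rw [← hc]; exact W.smul_mem _ (hs w hw)
  rw [polar_of_sing hW hw h3] at hwy
  exact zero_ne_one hwy

theorem parabolic_isMaximalIn [Fintype F] (Q : QuadraticForm F (ι → F)) (hQ : (polarBilin Q).Nondegenerate)
    (hn : 5 ≤ Fintype.card ι) (W : Submodule F (ι → F)) (hW0 : W ≠ ⊥) (hW : ∀ w ∈ W, Q w = 0)
    (hne : ¬ ∃ U : Submodule F (ι → F), (∀ u ∈ U, Q u = 0) ∧ 2 * finrank F U = Fintype.card ι ∧
      finrank F U = finrank F W + 1) :
    Geo.IsMaximalIn (Geo.omegaGL Q) (Geo.subspaceStabilizer W ⊓ Geo.omegaGL Q) := by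
  constructor
  · apply lt_of_le_of_ne inf_le_right
    intro he
    obtain ⟨g, hg, hgB⟩ := exists_omega_not_stab Q hQ hn W hW0 hW
    have : (g : Matrix.GeneralLinearGroup ι F) ∈ Geo.omegaGL Q := (mem_omegaGL_iff Q _).2 ⟨g, hg, rfl⟩
    rw [← he] at this
    exact hgB ((stab_iff_mem W g).2 this.1)
  · intro M hM1 hM2
    by_cases hall : M ≤ Geo.subspaceStabilizer W
    · left
      exact le_antisymm (le_inf hall hM2) hM1
    · right
      apply le_antisymm hM2
      obtain ⟨x, hxM, hxW⟩ := SetLike.not_le_iff_exists.1 hall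
      obtain ⟨g, hg, rfl⟩ := (mem_omegaGL_iff Q x).1 (hM2 hxM)
      have key := parabolic_max Q hQ hn W hW (exists_star Q hQ W hW hne)
        (M.comap (isometryGroup F Q).subtype) (fun k hk hs => by
          rw [Subgroup.mem_comap]
          exact hM1 ⟨(stab_iff_mem W k).1 hs, (mem_omegaGL_iff Q _).2 ⟨k, hk, rfl⟩⟩) g hxM
        (fun hs => hxW ((stab_iff_mem W g).1 hs))
      intro y hy
      obtain ⟨k, hk, rfl⟩ := (mem_omegaGL_iff Q y).1 hy
      exact key hk

end Cfsg.Agent.Lib.Helper15
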