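import Mathlib
import Cfsg.Agent.Lib.Helper15.ParMax1
import Cfsg.Agent.Lib.Helper15.ParMax2

set_option autoImplicit false

namespace Cfsg.Agent.Lib.Helper15

open Module QuadraticMap Cfsg Matrix

variable {F : Type*} [Field F] {ι : Type} [Fintype ι] [DecidableEq ι]

theorem exists_hpair_orth_two [Finite F] (Q : QuadraticForm F (ι → F)) (hQ : (polarBilin Q).Nondegenerate)
    (hn : 7 ≤ Fintype.card ι) (v v' : ι → F) :
    ∃ e f, HPair Q e f ∧ polar Q v e = 0 ∧ polar Q v' e = 0 ∧ polar Q v f = 0 ∧ polar Q v' f = 0 := by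
  set S := Submodule.span F {v, v'} with hS
  set K := LinearMap.ker (polarBilin Q v) ⊓ LinearMap.ker (polarBilin Q v') with hK
  have h1 := finrank_le_inf_ker (⊤ : Submodule F (ι → F)) (polarBilin Q v)
  have h2 := finrank_le_inf_ker (⊤ ⊓ LinearMap.ker (polarBilin Q v)) (polarBilin Q v')
  rw [finrank_top, finrank_fintype_fun_eq_card] at h1
  rw [top_inf_eq] at h1 h2
  have h3 : finrank F S ≤ 2 := finrank_span_pair_le (F := F) v v'
  have h2' : finrank F ↥(LinearMap.ker (polarBilin Q v)) ≤ finrank F K + 1 := h2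
  obtain ⟨e, heK, heS, hQe⟩ := exists_sing_avoid Q S K (by omega)
  have hev : polar Q v e = 0 := heK.1
  have hev' : polar Q v' e = 0 := heK.2
  obtain ⟨f, hQf, hSf, hef⟩ := exists_sing_partner Q hQ S e heS hQe (by
    intro s hs
    rw [hS] at hs
    obtain ⟨a, b, rfl⟩ := Submodule.mem_span_pair.1 hs
    rw [polar_add_left, polar_smul_left, polar_smul_left, hev, hev']; simp)
  refine ⟨e, f, ⟨hQe, hQf, hef⟩, hev, hev', ?_, ?_⟩
  · exact hSf v (Submodule.subset_span (by simp))
  · exact hSf v' (Submodule.subset_span (by simp))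

theorem nonsing_point_max [Fintype F] (Q : QuadraticForm F (ι → F)) (hQ : (polarBilin Q).Nondegenerate)
    (hn : 7 ≤ Fintype.card ι) (v : ι → F) (hv0 : v ≠ 0)
    (M : Subgroup (isometryGroup F Q)) (hM : ∀ g ∈ Omega F Q, Stab (Submodule.span F {v}) g → g ∈ M)
    (h : isometryGroup F Q) (hh : h ∈ M) (hns : ¬ Stab (Submodule.span F {v}) h) : Omega F Q ≤ M := by
  set v' := toEnd Q h v with hv'
  have hv'v : v' ∉ Submodule.span F {v} := by
    intro hc
    apply hns
    intro w hw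
    obtain ⟨c, rfl⟩ := Submodule.mem_span_singleton.1 hw
    rw [Matrix.mulVec_smul, ← toEnd_apply]
    exact Submodule.smul_mem _ _ hc
  -- Eichler transformations orthogonal to `v`
  have h1 : ∀ u z, Q u = 0 → polar Q u z = 0 → polar Q v u = 0 → polar Q v z = 0 →
      ∀ k : isometryGroup F Q, toEnd Q k = eichL Q u z → k ∈ M := by
    intro u z hu huz hvu hvz k hk
    obtain ⟨k', hk', hkΩ⟩ := eich_mem_Omega Q hQ (Or.inr (by omega)) u z hu huz
    have : k = k' := toEnd_injective Q (by rw [hk, hk'])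
    rw [this]
    apply hM k' hkΩ
    intro x hx
    obtain ⟨c, rfl⟩ := Submodule.mem_span_singleton.1 hx
    rw [← toEnd_apply, hk', map_smul, eichL_apply, polar_comm Q z v, hvz, polar_comm Q u v, hvu]
    simp only [mul_zero, sub_zero, neg_zero, zero_smul, add_zero]
    exact Submodule.smul_mem _ _ (Submodule.mem_span_singleton_self _)
  have hinv : ∀ x, toEnd Q h (toEnd Q h⁻¹ x) = x := by
    intro x
    rw [← Module.End.mul_apply, ← map_mul, mul_inv_cancel, map_one]; rfl
  have h2 : ∀ u z, Q u = 0 → polar Q u z = 0 → polar Q v' u = 0 → polar Q v' z = 0 →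
      ∀ k : isometryGroup F Q, toEnd Q k = eichL Q u z → k ∈ M := by
    intro u z hu huz hvu hvz k hk
    set u₀ := toEnd Q h⁻¹ u with hu₀
    set z₀ := toEnd Q h⁻¹ z with hz₀
    have e1 : Q u₀ = 0 := by rw [hu₀, toEnd_isIso Q h⁻¹ u, hu]
    have e2 : polar Q u₀ z₀ = 0 := by rw [hu₀, hz₀, (toEnd_isIso Q h⁻¹).polar, huz]
    have e3 : polar Q v u₀ = 0 := by
      rw [← (toEnd_isIso Q h).polar, ← hv', hu₀, hinv, hvu]
    have e4 : polar Q v z₀ = 0 := by
      rw [← (toEnd_isIso Q h).polar, ← hv', hz₀, hinv, hvz]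
    obtain ⟨k₀, hk₀, -⟩ := eich_mem_Omega Q hQ (Or.inr (by omega)) u₀ z₀ e1 e2
    have hk₀M := h1 u₀ z₀ e1 e2 e3 e4 k₀ hk₀
    have e5 := toEnd_conj_eich Q h k₀ u₀ z₀ hk₀
    rw [hu₀, hz₀, hinv, hinv, ← hk] at e5
    rw [← toEnd_injective Q e5]
    exact M.mul_mem (M.mul_mem hh hk₀M) (M.inv_mem hh)
  have hgood : ∀ u, Q u = 0 → polar Q v u = 0 → polar Q v' u = 0 → v ∉ Submodule.span F {u, v'} →
      GoodV Q M u := by
    intro u hu hvu hv'u hnot
    refine ⟨hu, fun z huz k hk => ?_⟩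
    obtain ⟨w, hwS, hvw⟩ := exists_orth_sep Q hQ _ v hnot
    have huw : polar Q u w = 0 := hwS u (Submodule.subset_span (by simp))
    have hv'w : polar Q v' w = 0 := hwS v' (Submodule.subset_span (by simp))
    set z₂ := polar Q v z • w with hz₂
    set z₁ := z - z₂ with hz₁
    have a1 : polar Q u z₂ = 0 := by rw [hz₂, polar_smul_right, huw, smul_zero]
    have a2 : polar Q u z₁ = 0 := by rw [hz₁, polar_sub_right, huz, a1, sub_zero]
    have a3 : polar Q v z₁ = 0 := by
      rw [hz₁, polar_sub_right, hz₂, polar_smul_right, hvw]; simp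
    have a4 : polar Q v' z₂ = 0 := by rw [hz₂, polar_smul_right, hv'w, smul_zero]
    obtain ⟨k₁, hk₁, -⟩ := eich_mem_Omega Q hQ (Or.inr (by omega)) u z₁ hu a2
    obtain ⟨k₂, hk₂, -⟩ := eich_mem_Omega Q hQ (Or.inr (by omega)) u z₂ hu a1
    have e1 : k = k₁ * k₂ := by
      apply toEnd_injective Q
      rw [map_mul, hk, hk₁, hk₂, ← eich_add Q u z₁ z₂ hu a2 a1, hz₁, sub_add_cancel]
    rw [e1]
    exact M.mul_mem (h1 u z₁ hu a2 hvu a3 k₁ hk₁) (h2 u z₂ hu a1 hv'u a4 k₂ hk₂)
  obtain ⟨e, f, hef, hve, hv'e, hvf, hv'f⟩ := exists_hpair_orth_two Q hQ hn v v'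
  have hnot : ∀ x y, polar Q y x = 1 → polar Q v y = 0 → polar Q v' y = 0 → v ∉ Submodule.span F {x, v'} := by
    intro x y hyx hvy hv'y hc
    obtain ⟨a, b, hab⟩ := Submodule.mem_span_pair.1 hc
    have e1 : polar Q y v = a := by
      rw [← hab, polar_add_right, polar_smul_right, polar_smul_right, hyx, polar_comm Q y v', hv'y]; simp
    rw [polar_comm, hvy] at e1
    rw [← e1, zero_smul, zero_add] at hab
    have hb : b ≠ 0 := by
      rintro rfl
      rw [zero_smul] at hab
      exact hv0 hab.symm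
    apply hv'v
    rw [Submodule.mem_span_singleton]
    exact ⟨b⁻¹, by rw [← hab, smul_smul, inv_mul_cancel₀ hb, one_smul]⟩
  refine Omega_le_of_good_pair Q hQ (by omega) e f
    (hgood e hef.Qe hve hv'e (hnot e f (by rw [polar_comm]; exact hef.ef) hvf hv'f))
    (hgood f hef.Qf hvf hv'f (hnot f e hef.ef hve hv'e)) (by rw [hef.ef]; exact one_ne_zero)

theorem nonsing_point_isMaximalIn [Fintype F] (Q : QuadraticForm F (ι → F)) (hQ : (polarBilin Q).Nondegenerate)
    (hn : 7 ≤ Fintype.card ι) (v : ι → F) (hv : Q v ≠ 0) :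
    Geo.IsMaximalIn (Geo.omegaGL Q) (Geo.subspaceStabilizer (Submodule.span F {v}) ⊓ Geo.omegaGL Q) := by
  have hv0 : v ≠ 0 := by
    rintro rfl
    simp at hv
  constructor
  · apply lt_of_le_of_ne inf_le_right
    intro he
    obtain ⟨e, f, hef, hve, -, -, -⟩ := exists_hpair_orth_two Q hQ hn v v
    have hvs : v ∉ Submodule.span F {e} := by
      intro hc
      obtain ⟨c, rfl⟩ := Submodule.mem_span_singleton.1 hc
      rw [QuadraticMap.map_smul, hef.Qe, smul_zero] at hv
      exact hv rfl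
    obtain ⟨z, hzS, hvz⟩ := exists_orth_sep Q hQ _ v hvs
    have hez : polar Q e z = 0 := hzS e (Submodule.mem_span_singleton_self _)
    obtain ⟨g, hg, hgΩ⟩ := eich_mem_Omega Q hQ (Or.inr (by omega)) e z hef.Qe hez
    have : (g : Matrix.GeneralLinearGroup ι F) ∈ Geo.omegaGL Q := (mem_omegaGL_iff Q _).2 ⟨g, hgΩ, rfl⟩
    rw [← he] at this
    have h1 := (stab_iff_mem _ g).2 this.1 v (Submodule.mem_span_singleton_self _)
    rw [← toEnd_apply, hg, eichL_apply, polar_comm Q z v, hvz, polar_comm Q e v, hve] at h1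
    simp only [mul_zero, sub_zero, neg_zero, zero_smul, add_zero, one_smul] at h1
    have h2 := (Submodule.add_mem_iff_right _ (Submodule.mem_span_singleton_self v)).1 h1
    obtain ⟨c, hc⟩ := Submodule.mem_span_singleton.1 h2
    have h3 : Q e = c * c * Q v := by rw [← hc, QuadraticMap.map_smul, smul_eq_mul]
    rw [hef.Qe] at h3
    have hc0 : c = 0 := by
      by_contra h0
      exact (mul_ne_zero (mul_ne_zero h0 h0) hv) h3.symm
    rw [hc0, zero_smul] at hc
    exact hef.e_ne_zero hc.symm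
  · intro M hM1 hM2
    by_cases hall : M ≤ Geo.subspaceStabilizer (Submodule.span F {v})
    · left
      exact le_antisymm (le_inf hall hM2) hM1
    · right
      apply le_antisymm hM2
      obtain ⟨x, hxM, hxW⟩ := SetLike.not_le_iff_exists.1 hall
      obtain ⟨g, hg, rfl⟩ := (mem_omegaGL_iff Q x).1 (hM2 hxM)
      have key := nonsing_point_max Q hQ hn v hv0
        (M.comap (isometryGroup F Q).subtype) (fun k hk hs => by
          rw [Subgroup.mem_comap]
          exact hM1 ⟨(stab_iff_mem _ k).1 hs, (mem_omegaGL_iff Q _).2 ⟨k, hk, rfl⟩⟩) g hxM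
        (fun hs => hxW ((stab_iff_mem _ g).1 hs))
      intro y hy
      obtain ⟨k, hk, rfl⟩ := (mem_omegaGL_iff Q y).1 hy
      exact key hk

end Cfsg.Agent.Lib.Helper15
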