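import Mathlib
import Cfsg.Agent.Lib.Helper15.GOAut3
import Cfsg.Agent.Lib.Helper15.ParMax10

set_option autoImplicit false

namespace Cfsg.Agent.Lib.Helper15

open Module QuadraticMap Cfsg Matrix

variable {F : Type*} [Field F] [Fintype F] {ι : Type} [Fintype ι] [DecidableEq ι]

/-- a big subspace represents every scalar -/
theorem q_exists_norm_in (Q : QuadraticForm F (ι → F)) (hQ : (polarBilin Q).Nondegenerate)
    (K : Submodule F (ι → F)) (h : Fintype.card ι + 3 ≤ 2 * finrank F K) (c : F) : ∃ x ∈ K, Q x = c := by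
  have h1 := LinearMap.BilinForm.finrank_orthogonal hQ K
  have h0 := Submodule.finrank_le K
  rw [finrank_fintype_fun_eq_card] at h1 h0
  obtain ⟨e, heK, heS, hQe⟩ := exists_sing_avoid Q (LinearMap.BilinForm.orthogonal (polarBilin Q) K) K (by omega)
  rw [LinearMap.BilinForm.mem_orthogonal_iff] at heS
  push Not at heS
  obtain ⟨f, hfK, hfe⟩ := heS
  have hfe' : polar Q f e ≠ 0 := hfe
  refine ⟨f + ((c - Q f) / polar Q f e) • e, K.add_mem hfK (K.smul_mem _ heK), ?_⟩
  rw [Q_add_one, hQe]
  field_simp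
  ring

/-- vectors with prescribed inner products and prescribed norm -/
theorem q_exists_prescribed (Q : QuadraticForm F (ι → F)) (hQ : (polarBilin Q).Nondegenerate) {r : ℕ}
    (z : Fin r → ι → F) (hz : LinearIndependent F z) (γ : Fin r → F) (c : F)
    (hn : 2 * r + 5 ≤ Fintype.card ι) : ∃ x, (∀ i, polar Q x (z i) = γ i) ∧ Q x = c := by
  obtain ⟨φ, hφ⟩ : ∃ φ : (ι → F) →ₗ[F] F, ∀ i, φ (z i) = γ i := by
    obtain ⟨φ, hφ⟩ := LinearMap.exists_extend ((Basis.span hz).constr F γ)
    refine ⟨φ, fun i => ?_⟩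
    have h1 := congrArg (fun l => l (Basis.span hz i)) hφ
    simp only [LinearMap.comp_apply, Basis.constr_basis] at h1
    rw [← h1]
    congr 1
    exact (congrArg Subtype.val (Basis.span_apply hz i)).symm
  set x₀ := (LinearMap.BilinForm.toDual (polarBilin Q) hQ).symm φ with hx₀
  have hx₀' : ∀ v, polar Q x₀ v = φ v := fun v =>
    LinearMap.BilinForm.apply_toDual_symm_apply (B := polarBilin Q) (hB := hQ) φ v
  set L : (ι → F) →ₗ[F] (Fin r → F) := LinearMap.pi fun i => polarBilin Q (z i) with hL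
  have h1 := LinearMap.finrank_range_add_finrank_ker L
  rw [finrank_fintype_fun_eq_card] at h1
  have h2 : finrank F (LinearMap.range L) ≤ r := by
    have := Submodule.finrank_le (LinearMap.range L)
    rwa [finrank_fintype_fun_eq_card, Fintype.card_fin] at this
  have h3 := finrank_le_inf_ker (LinearMap.ker L) (polarBilin Q x₀)
  obtain ⟨y, hy, hQy⟩ := q_exists_norm_in Q hQ (LinearMap.ker L ⊓ LinearMap.ker (polarBilin Q x₀)) (by omega)
    (c - Q x₀)
  have hy1 : ∀ i, polar Q (z i) y = 0 := fun i => congrFun (LinearMap.mem_ker.1 hy.1) i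
  have hy2 : polar Q x₀ y = 0 := LinearMap.mem_ker.1 hy.2
  refine ⟨x₀ + y, fun i => ?_, ?_⟩
  · rw [polar_add_left, hx₀', hφ, polar_comm, hy1, add_zero]
  · rw [QuadraticMap.map_add Q, hQy, hy2]; ring

/-- Witt's theorem for families, inside the special orthogonal group -/
theorem so_witt (Q : QuadraticForm F (ι → F)) (hQ : (polarBilin Q).Nondegenerate) {r : ℕ}
    (x y : Fin r → ι → F) (hx : LinearIndependent F x) (hy : LinearIndependent F y)
    (hq : ∀ i, Q (x i) = Q (y i)) (hg : ∀ i j, polar Q (x i) (x j) = polar Q (y i) (y j))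
    (hn : 2 * r + 5 ≤ Fintype.card ι) :
    ∃ g : GL ι F, (∀ v, Q ((g : Matrix ι ι F) *ᵥ v) = Q v) ∧ g ∈ Geo.specialLinear ι F ∧
      ∀ i, (g : Matrix ι ι F) *ᵥ x i = y i := by
  obtain ⟨τ, hτ, hτx⟩ := witt_family Q hQ r x y hx hy hq hg
  have hA : ∀ v, Q (LinearMap.toMatrix' τ *ᵥ v) = Q v := by
    intro v
    rw [LinearMap.toMatrix'_mulVec]
    exact hτ.isIso v
  have hd := det_sq_eq Q hQ (LinearMap.toMatrix' τ) 1 (fun v => by rw [hA, one_mul])
  rw [one_pow] at hd
  have hd' : (LinearMap.toMatrix' τ).det = 1 ∨ (LinearMap.toMatrix' τ).det = -1 :=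
    mul_self_eq_one_iff.1 hd
  rcases hd' with h1 | h1
  · refine ⟨Matrix.GeneralLinearGroup.mkOfDetNeZero (LinearMap.toMatrix' τ) (by rw [h1]; exact one_ne_zero),
      hA, ?_, fun i => ?_⟩
    · unfold Geo.specialLinear
      rw [MonoidHom.mem_ker, Units.ext_iff]
      exact h1
    · change LinearMap.toMatrix' τ *ᵥ x i = y i
      rw [LinearMap.toMatrix'_mulVec]
      exact hτx i
  · obtain ⟨c, hc, hQc⟩ := q_exists_prescribed Q hQ y hy (fun _ => 0) 1 hn
    have hQc0 : Q c ≠ 0 := by rw [hQc]; exact one_ne_zero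
    have hdet : (reflectionMatrix Q c * LinearMap.toMatrix' τ).det = 1 := by
      rw [Matrix.det_mul, det_reflectionMatrix Q c hQc0, h1]; ring
    refine ⟨Matrix.GeneralLinearGroup.mkOfDetNeZero (reflectionMatrix Q c * LinearMap.toMatrix' τ)
      (by rw [hdet]; exact one_ne_zero), fun v => ?_, ?_, fun i => ?_⟩
    · change Q ((reflectionMatrix Q c * LinearMap.toMatrix' τ) *ᵥ v) = Q v
      rw [← Matrix.mulVec_mulVec, Q_reflection Q c _ hQc0, hA]
    · unfold Geo.specialLinear
      rw [MonoidHom.mem_ker, Units.ext_iff]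
      exact hdet
    · change (reflectionMatrix Q c * LinearMap.toMatrix' τ) *ᵥ x i = y i
      rw [← Matrix.mulVec_mulVec, LinearMap.toMatrix'_mulVec, hτx, reflectionMatrix_mulVec, hc, mul_zero,
        zero_smul, sub_zero]

/-- writing a vector as a sum of two vectors of prescribed norm, orthogonal to a given vector -/
theorem q_exists_norm_decomp (Q : QuadraticForm F (ι → F)) (hQ : (polarBilin Q).Nondegenerate)
    (h2 : (2 : F) ≠ 0) (hn : 11 ≤ Fintype.card ι) (v w : ι → F) (hvw : LinearIndependent F ![v, w]) (ν : F) :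
    ∃ z u, polar Q z v = 0 ∧ Q z = ν ∧ Q (w - z) = ν ∧ polar Q v u = 0 ∧ polar Q w u = 0 ∧ polar Q z u = 1 := by
  obtain ⟨u, hu, huu⟩ := q_exists_prescribed Q hQ ![v, w] hvw (fun _ => 0) 1 (by omega)
  have huv : polar Q u v = 0 := hu 0
  have huw : polar Q u w = 0 := hu 1
  have hvu : polar Q v u = 0 := by rw [polar_comm]; exact huv
  have hwu : polar Q w u = 0 := by rw [polar_comm]; exact huw
  have hind : LinearIndependent F ![v, w, u] := by
    rw [Fintype.linearIndependent_iff]
    intro g hg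
    rw [Fin.sum_univ_three] at hg
    simp only [Matrix.cons_val_zero, Matrix.cons_val_one, Matrix.cons_val_two, Matrix.head_cons,
      Matrix.tail_cons] at hg
    have h2' : g 2 = 0 := by
      have := congrArg (fun t => polar Q t u) hg
      simp only [polar_add_left, polar_smul_left, hvu, hwu, polar_self, huu, polar_zero_left, smul_eq_mul] at this
      have h3 : g 2 * 2 = 0 := by linear_combination this
      rcases mul_eq_zero.1 h3 with h | h
      · exact h
      · exact absurd h h2
    rw [h2', zero_smul, add_zero] at hg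
    obtain ⟨h0, h1⟩ := LinearIndependent.pair_iff.1 hvw _ _ hg
    intro i
    fin_cases i
    · exact h0
    · exact h1
    · exact h2'
  obtain ⟨z, hz, hzz⟩ := q_exists_prescribed Q hQ ![v, w, u] hind ![0, Q w, 1] ν (by omega)
  have hzv : polar Q z v = 0 := hz 0
  have hzw : polar Q z w = Q w := hz 1
  have hzu : polar Q z u = 1 := hz 2
  refine ⟨z, u, hzv, hzz, ?_, hvu, hwu, hzu⟩
  have : w - z = w - (1 : F) • z := by rw [one_smul]
  rw [this, Q_sub_smul, hzz, hzw]
  ring

end Cfsg.Agent.Lib.Helper15
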