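import Mathlib
import Cfsg.Agent.Lib.Helper15.GOMax1

set_option autoImplicit false

namespace Cfsg.Agent.Lib.Helper15

open Module QuadraticMap Cfsg Matrix

variable {F : Type*} [Field F] [Fintype F] {ι : Type} [Fintype ι] [DecidableEq ι]

/-- a linear bijection preserving orthogonality to anisotropic vectors is a similarity -/
theorem q_sim_of_perp (Q : QuadraticForm F (ι → F)) (hQ : (polarBilin Q).Nondegenerate) (h2 : (2 : F) ≠ 0)
    (hn : 9 ≤ Fintype.card ι) (g : GL ι F)
    (hg : ∀ c y, Q c ≠ 0 → polar Q y c = 0 →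
      polar Q ((g : Matrix ι ι F) *ᵥ y) ((g : Matrix ι ι F) *ᵥ c) = 0) :
    g ∈ Geo.quadSimilarityGroup Q := by
  have hμ : ∀ c, Q c ≠ 0 → ∀ x, polar Q ((g : Matrix ι ι F) *ᵥ x) ((g : Matrix ι ι F) *ᵥ c) =
      (Q ((g : Matrix ι ι F) *ᵥ c) / Q c) * polar Q x c := by
    intro c hc x
    have h1 : polar Q (x - (polar Q x c / (2 * Q c)) • c) c = 0 := by
      rw [polar_sub_left, polar_smul_left, polar_self', smul_eq_mul]
      field_simp
      ring
    have h3 := hg c _ hc h1
    rw [Matrix.mulVec_sub, Matrix.mulVec_smul, polar_sub_left, polar_smul_left, polar_self', smul_eq_mul] at h3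
    field_simp at h3 ⊢
    linear_combination h3
  obtain ⟨c₀, -, hc₀⟩ := q_exists_prescribed Q hQ (Fin.elim0 : Fin 0 → ι → F) linearIndependent_empty_type
    Fin.elim0 1 (by omega)
  have hc₀0 : Q c₀ ≠ 0 := by rw [hc₀]; exact one_ne_zero
  have hc₀n : c₀ ≠ 0 := by
    rintro rfl
    exact hc₀0 (map_zero Q)
  set μ₀ := Q ((g : Matrix ι ι F) *ᵥ c₀) with hμ₀
  have c1 : ∀ c, Q c ≠ 0 → polar Q c c₀ ≠ 0 → Q ((g : Matrix ι ι F) *ᵥ c) / Q c = μ₀ := by
    intro c hc hcc
    have e1 := hμ c hc c₀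
    have e2 := hμ c₀ hc₀0 c
    rw [polar_comm, e2, hc₀, div_one, polar_comm Q c₀ c] at e1
    exact (mul_right_cancel₀ hcc e1).symm
  have c2 : ∀ x x', polar Q ((g : Matrix ι ι F) *ᵥ x') ((g : Matrix ι ι F) *ᵥ x) = μ₀ * polar Q x' x := by
    intro x x'
    by_cases hx : ∃ a : F, a • c₀ = x
    · obtain ⟨a, rfl⟩ := hx
      rw [Matrix.mulVec_smul, polar_smul_right, polar_smul_right, hμ c₀ hc₀0, hc₀, div_one, smul_eq_mul,
        smul_eq_mul]
      ring
    · push Not at hx
      have hind : LinearIndependent F ![c₀, x] := (LinearIndependent.pair_iff' hc₀n).2 hx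
      obtain ⟨δ, hδ0, hδ⟩ : ∃ δ : F, δ ≠ 0 ∧ δ ≠ polar Q x c₀ := by
        by_cases h1 : polar Q x c₀ = 1
        · refine ⟨-1, neg_ne_zero.2 one_ne_zero, ?_⟩
          rw [h1]
          intro h
          apply h2
          linear_combination -h
        · exact ⟨1, one_ne_zero, fun h => h1 h.symm⟩
      obtain ⟨y, hy, hyy⟩ := q_exists_prescribed Q hQ ![c₀, x] hind ![δ, Q x] 1 (by omega)
      have hyc : polar Q y c₀ = δ := hy 0
      have hyx : polar Q y x = Q x := hy 1
      have hQy : Q y ≠ 0 := by rw [hyy]; exact one_ne_zero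
      have hQxy : Q (x - y) = 1 := by
        have : x - y = x - (1 : F) • y := by rw [one_smul]
        rw [this, Q_sub_smul, hyy, hyx]
        ring
      have hQxy0 : Q (x - y) ≠ 0 := by rw [hQxy]; exact one_ne_zero
      have e1 := hμ y hQy x'
      rw [c1 y hQy (by rw [hyc]; exact hδ0)] at e1
      have e2 := hμ (x - y) hQxy0 x'
      rw [c1 (x - y) hQxy0 (by rw [polar_sub_left, hyc]; exact sub_ne_zero.2 (Ne.symm hδ))] at e2
      have : x = y + (x - y) := by abel
      rw [this, Matrix.mulVec_add, polar_add_right, polar_add_right, e1, e2]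
      ring
  have c3 : ∀ x, Q ((g : Matrix ι ι F) *ᵥ x) = μ₀ * Q x := by
    intro x
    have := c2 x x
    rw [polar_self', polar_self'] at this
    apply mul_left_cancel₀ h2
    linear_combination this
  have hμ0 : μ₀ ≠ 0 := by
    intro h0
    have := c3 (((g⁻¹ : GL ι F) : Matrix ι ι F) *ᵥ c₀)
    rw [gl_mulVec_inv, h0, zero_mul] at this
    exact hc₀0 this
  exact ⟨Units.mk0 μ₀ hμ0, fun v => c3 v⟩

end Cfsg.Agent.Lib.Helper15
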