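import Mathlib
import Cfsg.Agent.Lib.Helper15.GOMax2

set_option autoImplicit false

namespace Cfsg.Agent.Lib.Helper15

open Module QuadraticMap Cfsg Matrix

variable {F : Type*} [Field F] [Fintype F] {ι : Type} [Fintype ι] [DecidableEq ι]

/-- the transvection `x ↦ x + (z, x) v` lies in `M` -/
def ZInQ (Q : QuadraticForm F (ι → F)) (M : Subgroup (GL ι F)) (v z : ι → F) : Prop :=
  ∀ k : GL ι F, (∀ x, (k : Matrix ι ι F) *ᵥ x = x + polar Q z x • v) → k ∈ M

omit [Fintype F] in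
theorem exists_tzQ (Q : QuadraticForm F (ι → F)) (v z : ι → F) (h : polar Q z v = 0) :
    ∃ k : GL ι F, ∀ x, (k : Matrix ι ι F) *ᵥ x = x + polar Q z x • v :=
  ⟨tvGL (polarBilin Q z) v h, fun _ => tvGL_mulVec _ _ _ _⟩

omit [Fintype F] in
theorem ZInQ.add {Q : QuadraticForm F (ι → F)} {M : Subgroup (GL ι F)} {v z₁ z₂ : ι → F}
    (h1 : ZInQ Q M v z₁) (h2 : ZInQ Q M v z₂) (e1 : polar Q z₁ v = 0) (e2 : polar Q z₂ v = 0) :
    ZInQ Q M v (z₁ + z₂) := by
  intro k hk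
  obtain ⟨k₁, hk₁⟩ := exists_tzQ Q v z₁ e1
  obtain ⟨k₂, hk₂⟩ := exists_tzQ Q v z₂ e2
  have : k = k₁ * k₂ := gl_ext_mulVec (fun x => by
    rw [Units.val_mul, ← Matrix.mulVec_mulVec, hk₂, hk₁, hk, polar_add_right, polar_smul_right, e1,
      polar_add_left]
    module)
  rw [this]
  exact M.mul_mem (h1 _ hk₁) (h2 _ hk₂)

omit [Fintype F] [DecidableEq ι] in
theorem polar_of_iso_mat (Q : QuadraticForm F (ι → F)) (g : Matrix ι ι F)
    (hg : ∀ v, Q (g *ᵥ v) = Q v) (x y : ι → F) :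
    polar Q (g *ᵥ x) (g *ᵥ y) = polar Q x y := by
  unfold QuadraticMap.polar
  rw [← Matrix.mulVec_add, hg, hg, hg]

omit [Fintype F] in
theorem ZInQ.conj {Q : QuadraticForm F (ι → F)} {M : Subgroup (GL ι F)} {v z : ι → F} (h : ZInQ Q M v z)
    (g : GL ι F) (hgM : g ∈ M) (hg : ∀ v, Q ((g : Matrix ι ι F) *ᵥ v) = Q v) :
    ZInQ Q M ((g : Matrix ι ι F) *ᵥ v) ((g : Matrix ι ι F) *ᵥ z) := by
  intro k hk
  have h1 : g⁻¹ * k * g ∈ M := h _ (fun x => by
    rw [Units.val_mul, Units.val_mul, ← Matrix.mulVec_mulVec, ← Matrix.mulVec_mulVec, hk, polar_of_iso_mat Q _ hg,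
      Matrix.mulVec_add, Matrix.mulVec_smul, gl_inv_mulVec, gl_inv_mulVec])
  have : k = g * (g⁻¹ * k * g) * g⁻¹ := by group
  rw [this]
  exact M.mul_mem (M.mul_mem hgM h1) (M.inv_mem hgM)

omit [Fintype F] [DecidableEq ι] in
theorem finrank_four_ker (φ₁ φ₂ φ₃ φ₄ : (ι → F) →ₗ[F] F) :
    Fintype.card ι ≤ finrank F ↥(LinearMap.ker φ₁ ⊓ LinearMap.ker φ₂ ⊓ LinearMap.ker φ₃ ⊓ LinearMap.ker φ₄) + 4 := by
  have h1 := finrank_le_inf_ker (⊤ : Submodule F (ι → F)) φ₁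
  have h2 := finrank_le_inf_ker (LinearMap.ker φ₁) φ₂
  have h3 := finrank_le_inf_ker (LinearMap.ker φ₁ ⊓ LinearMap.ker φ₂) φ₃
  have h4 := finrank_le_inf_ker (LinearMap.ker φ₁ ⊓ LinearMap.ker φ₂ ⊓ LinearMap.ker φ₃) φ₄
  rw [finrank_top, finrank_fintype_fun_eq_card, top_inf_eq] at h1
  omega

/-- an overgroup of the special orthogonal group which is not contained in the similarity group
contains a transvection -/
theorem go_exists_tv (Q : QuadraticForm F (ι → F)) (hQ : (polarBilin Q).Nondegenerate) (h2 : (2 : F) ≠ 0)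
    (hn : 13 ≤ Fintype.card ι) (M : Subgroup (GL ι F))
    (hSO : ∀ g : GL ι F, (∀ v, Q ((g : Matrix ι ι F) *ᵥ v) = Q v) → g ∈ Geo.specialLinear ι F → g ∈ M)
    (hns : ¬ M ≤ Geo.quadSimilarityGroup Q) :
    ∃ b z₀, Q b = 1 ∧ z₀ ≠ 0 ∧ polar Q z₀ b = 0 ∧ ZInQ Q M b z₀ := by
  have hRR : ∀ a b (ha : Q a ≠ 0) (hb : Q b ≠ 0), (refl Q a ha).1 * (refl Q b hb).1 ∈ M := by
    intro a b ha hb
    apply hSO
    · intro v
      rw [Units.val_mul, ← Matrix.mulVec_mulVec]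
      exact (Q_reflection Q a _ ha).trans (Q_reflection Q b v hb)
    · unfold Geo.specialLinear
      rw [MonoidHom.mem_ker, Units.ext_iff]
      change (reflectionMatrix Q a * reflectionMatrix Q b).det = 1
      rw [Matrix.det_mul, det_reflectionMatrix Q a ha, det_reflectionMatrix Q b hb]; ring
  obtain ⟨h, hhM, hhS⟩ := SetLike.not_le_iff_exists.1 hns
  have hinv : h⁻¹ ∉ Geo.quadSimilarityGroup Q := fun hc =>
    hhS (by simpa using (Geo.quadSimilarityGroup Q).inv_mem hc)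
  obtain ⟨c', y', hc', hy'c', hne⟩ : ∃ c y, Q c ≠ 0 ∧ polar Q y c = 0 ∧
      polar Q (((h⁻¹ : GL ι F) : Matrix ι ι F) *ᵥ y) (((h⁻¹ : GL ι F) : Matrix ι ι F) *ᵥ c) ≠ 0 := by
    by_contra hcon
    push Not at hcon
    exact hinv (q_sim_of_perp Q hQ h2 (by omega) h⁻¹ hcon)
  set c := ((h⁻¹ : GL ι F) : Matrix ι ι F) *ᵥ c' with hc
  set y := ((h⁻¹ : GL ι F) : Matrix ι ι F) *ᵥ y' with hy
  have hhc : (h : Matrix ι ι F) *ᵥ c = c' := gl_mulVec_inv h c'
  have hhy : (h : Matrix ι ι F) *ᵥ y = y' := gl_mulVec_inv h y'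
  have hc'0 : c' ≠ 0 := by
    rintro rfl
    exact hc' (map_zero Q)
  have hind : LinearIndependent F ![c', y'] := by
    apply (LinearIndependent.pair_iff' hc'0).2
    intro a ha
    have h3 := hy'c'
    rw [← ha, polar_smul_left, polar_self', smul_eq_mul] at h3
    have ha0 : a = 0 := by
      rcases mul_eq_zero.1 h3 with h | h
      · exact h
      · exact absurd h (mul_ne_zero h2 hc')
    apply hne
    rw [hy, ← ha, ha0, zero_smul, Matrix.mulVec_zero, polar_zero_left]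
  obtain ⟨d', hd', hQd'⟩ := q_exists_prescribed Q hQ ![c', y'] hind (fun _ => 0) 1 (by omega)
  have hd'c' : polar Q d' c' = 0 := hd' 0
  have hd'y' : polar Q d' y' = 0 := hd' 1
  have hQd'0 : Q d' ≠ 0 := by rw [hQd']; exact one_ne_zero
  set d := ((h⁻¹ : GL ι F) : Matrix ι ι F) *ᵥ d' with hd
  have hhd : (h : Matrix ι ι F) *ᵥ d = d' := gl_mulVec_inv h d'
  set s : GL ι F := h⁻¹ * ((refl Q c' hc').1 * (refl Q d' hQd'0).1) * h with hs
  have hsM : s ∈ M := M.mul_mem (M.mul_mem (M.inv_mem hhM) (hRR _ _ _ _)) hhM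
  have hsx : ∀ x, (s : Matrix ι ι F) *ᵥ x = x - ((Q c')⁻¹ * polar Q c' ((h : Matrix ι ι F) *ᵥ x)) • c -
      polar Q d' ((h : Matrix ι ι F) *ᵥ x) • d := by
    intro x
    simp only [hs, Units.val_mul, ← Matrix.mulVec_mulVec]
    change ((h⁻¹ : GL ι F) : Matrix ι ι F) *ᵥ (reflectionMatrix Q c' *ᵥ (reflectionMatrix Q d' *ᵥ
      ((h : Matrix ι ι F) *ᵥ x))) = _
    rw [reflectionMatrix_mulVec, reflectionMatrix_mulVec, polar_sub_right, polar_smul_right,
      polar_comm Q c' d', hd'c', hQd', smul_zero, sub_zero, inv_one, one_mul]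
    simp only [Matrix.mulVec_sub, Matrix.mulVec_smul, gl_inv_mulVec]
    rw [← hc, ← hd]
    abel
  set φc : (ι → F) →ₗ[F] F := (polarBilin Q c') ∘ₗ Matrix.mulVecLin (h : Matrix ι ι F) with hφc
  set φd : (ι → F) →ₗ[F] F := (polarBilin Q d') ∘ₗ Matrix.mulVecLin (h : Matrix ι ι F) with hφd
  -- the centre of the transvection
  obtain ⟨w, hw, hQw⟩ := q_exists_norm_in Q hQ
    (LinearMap.ker φc ⊓ LinearMap.ker φd ⊓ LinearMap.ker (polarBilin Q c) ⊓ LinearMap.ker (polarBilin Q y))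
    (by have := finrank_four_ker φc φd (polarBilin Q c) (polarBilin Q y); omega) (1 - Q y)
  have hw1 : polar Q c' ((h : Matrix ι ι F) *ᵥ w) = 0 := LinearMap.mem_ker.1 hw.1.1.1
  have hw2 : polar Q d' ((h : Matrix ι ι F) *ᵥ w) = 0 := LinearMap.mem_ker.1 hw.1.1.2
  have hw3 : polar Q c w = 0 := LinearMap.mem_ker.1 hw.1.2
  have hw4 : polar Q y w = 0 := LinearMap.mem_ker.1 hw.2
  set b := y + w with hb
  have hQb : Q b = 1 := by rw [hb, QuadraticMap.map_add Q, hQw, hw4]; ring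
  have hsb : (s : Matrix ι ι F) *ᵥ b = b := by
    rw [hsx, hb, Matrix.mulVec_add, hhy, polar_add_right, polar_add_right, hw1, hw2, polar_comm Q c' y', hy'c',
      hd'y']
    simp
  have hbc : polar Q b c ≠ 0 := by
    rw [hb, polar_add_left, polar_comm Q w c, hw3, add_zero]
    exact hne
  -- the auxiliary reflection
  obtain ⟨a, ha, hQa⟩ := q_exists_norm_in Q hQ
    (LinearMap.ker φc ⊓ LinearMap.ker φd ⊓ LinearMap.ker (polarBilin Q c) ⊓ LinearMap.ker (polarBilin Q d))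
    (by have := finrank_four_ker φc φd (polarBilin Q c) (polarBilin Q d); omega) 1
  have ha1 : polar Q c' ((h : Matrix ι ι F) *ᵥ a) = 0 := LinearMap.mem_ker.1 ha.1.1.1
  have ha2 : polar Q d' ((h : Matrix ι ι F) *ᵥ a) = 0 := LinearMap.mem_ker.1 ha.1.1.2
  have ha3 : polar Q c a = 0 := LinearMap.mem_ker.1 ha.1.2
  have ha4 : polar Q d a = 0 := LinearMap.mem_ker.1 ha.2
  have hsa : (s : Matrix ι ι F) *ᵥ a = a := by
    rw [hsx, ha1, ha2]
    simp
  have hpa : ∀ x, polar Q a ((s : Matrix ι ι F) *ᵥ x) = polar Q a x := by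
    intro x
    rw [hsx, polar_sub_right, polar_sub_right, polar_smul_right, polar_smul_right, polar_comm Q a c, ha3,
      polar_comm Q a d, ha4]
    simp
  have hQa0 : Q a ≠ 0 := by rw [hQa]; exact one_ne_zero
  have hQb0 : Q b ≠ 0 := by rw [hQb]; exact one_ne_zero
  have hRa : ∀ x, reflectionMatrix Q a *ᵥ x = x - polar Q a x • a := by
    intro x
    rw [reflectionMatrix_mulVec, hQa, inv_one, one_mul]
  have hRb : ∀ x, reflectionMatrix Q b *ᵥ x = x - polar Q b x • b := by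
    intro x
    rw [reflectionMatrix_mulVec, hQb, inv_one, one_mul]
  have hsib : ((s⁻¹ : GL ι F) : Matrix ι ι F) *ᵥ b = b := by
    conv_lhs => rw [← hsb]
    exact gl_inv_mulVec s b
  have hsia : ((s⁻¹ : GL ι F) : Matrix ι ι F) *ᵥ a = a := by
    conv_lhs => rw [← hsa]
    exact gl_inv_mulVec s a
  set T : GL ι F := ((refl Q b hQb0).1 * (refl Q a hQa0).1) * s⁻¹ * ((refl Q a hQa0).1 * (refl Q b hQb0).1) * s
    with hT
  have hTM : T ∈ M :=
    M.mul_mem (M.mul_mem (M.mul_mem (hRR _ _ _ _) (M.inv_mem hsM)) (hRR _ _ _ _)) hsM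
  have hTx : ∀ x, (T : Matrix ι ι F) *ᵥ x = x + (polar Q b ((s : Matrix ι ι F) *ᵥ x) - polar Q b x) • b := by
    intro x
    simp only [hT, Units.val_mul, ← Matrix.mulVec_mulVec]
    change reflectionMatrix Q b *ᵥ (reflectionMatrix Q a *ᵥ (((s⁻¹ : GL ι F) : Matrix ι ι F) *ᵥ
      (reflectionMatrix Q a *ᵥ (reflectionMatrix Q b *ᵥ ((s : Matrix ι ι F) *ᵥ x))))) = _
    simp only [hRa, hRb, Matrix.mulVec_sub, Matrix.mulVec_smul, gl_inv_mulVec, hsib, hsia, polar_sub_right,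
      polar_smul_right, polar_self', hQa, hQb, hpa, smul_eq_mul]
    module
  set ψ : (ι → F) →ₗ[F] F := (polarBilin Q b) ∘ₗ Matrix.mulVecLin (s : Matrix ι ι F) - polarBilin Q b with hψ
  set z₀ := (LinearMap.BilinForm.toDual (polarBilin Q) hQ).symm ψ with hz₀
  have hz₀x : ∀ x, polar Q z₀ x = polar Q b ((s : Matrix ι ι F) *ᵥ x) - polar Q b x := fun x =>
    LinearMap.BilinForm.apply_toDual_symm_apply (B := polarBilin Q) (hB := hQ) ψ x
  refine ⟨b, z₀, hQb, ?_, ?_, ?_⟩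
  · rintro h0
    have h3 := hz₀x c
    rw [h0, polar_zero_left, hsx, hhc, polar_self', hd'c'] at h3
    apply hbc
    have h4 : (Q c')⁻¹ * (2 * Q c') = 2 := by field_simp
    rw [h4, zero_smul, sub_zero, polar_sub_right, polar_smul_right, smul_eq_mul] at h3
    apply mul_left_cancel₀ h2
    linear_combination h3
  · rw [hz₀x, hsb, sub_self]
  · intro k hk
    have : k = T := gl_ext_mulVec (fun x => by rw [hk, hTx, hz₀x])
    rw [this]
    exact hTM

end Cfsg.Agent.Lib.Helper15
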