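import Mathlib
import Cfsg.Agent.Lib.Helper15.GOMax3

set_option autoImplicit false

namespace Cfsg.Agent.Lib.Helper15

open Module QuadraticMap Cfsg Matrix

variable {F : Type*} [Field F] [Fintype F] {ι : Type} [Fintype ι] [DecidableEq ι]

theorem go_max_in_SL (Q : QuadraticForm F (ι → F)) (hQ : (polarBilin Q).Nondegenerate) (h2 : (2 : F) ≠ 0)
    (hn : 13 ≤ Fintype.card ι) (M : Subgroup (GL ι F))
    (hM : Geo.quadSimilarityGroup Q ⊓ Geo.specialLinear ι F ≤ M)
    (hns : ¬ M ≤ Geo.quadSimilarityGroup Q) : Geo.specialLinear ι F ≤ M := by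
  have hSO : ∀ g : GL ι F, (∀ v, Q ((g : Matrix ι ι F) *ᵥ v) = Q v) → g ∈ Geo.specialLinear ι F → g ∈ M :=
    fun g h1 h3 => hM ⟨⟨1, fun v => by rw [Units.val_one, one_mul]; exact h1 v⟩, h3⟩
  obtain ⟨b, z₀, hQb, hz₀0, hz₀b, hZ₀⟩ := go_exists_tv Q hQ h2 hn M hSO hns
  have hb0 : b ≠ 0 := by
    rintro rfl
    rw [map_zero] at hQb
    exact zero_ne_one hQb
  have hindep : ∀ z, z ≠ 0 → polar Q z b = 0 → LinearIndependent F ![b, z] := by
    intro z hz hzb
    apply (LinearIndependent.pair_iff' hb0).2
    intro a ha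
    rw [← ha, polar_smul_left, polar_self', hQb, smul_eq_mul, mul_one] at hzb
    rcases mul_eq_zero.1 hzb with h | h
    · rw [h, zero_smul] at ha
      exact hz ha.symm
    · exact h2 h
  set ν := Q z₀ with hν
  have hB1 : ∀ z, polar Q z b = 0 → Q z = ν → z ≠ 0 → ZInQ Q M b z := by
    intro z hz hzz hz0
    obtain ⟨g, hg, hgS, hgx⟩ := so_witt Q hQ ![b, z₀] ![b, z] (hindep z₀ hz₀0 hz₀b) (hindep z hz0 hz)
      (by
        intro i
        fin_cases i <;> simp [hzz, ← hν])
      (by
        intro i j
        fin_cases i <;> fin_cases j <;>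
          simp [hz₀b, hz, polar_comm Q b z₀, polar_comm Q b z, hzz, ← hν]) (by omega)
    have h0 : (g : Matrix ι ι F) *ᵥ b = b := hgx 0
    have h1 : (g : Matrix ι ι F) *ᵥ z₀ = z := hgx 1
    have := hZ₀.conj g (hSO g hg hgS) hg
    rwa [h0, h1] at this
  have hB : ∀ w, polar Q w b = 0 → ZInQ Q M b w := by
    intro w hw
    by_cases hw0 : w = 0
    · intro k hk
      have : k = 1 := gl_ext_mulVec (fun x => by rw [hk, hw0, polar_zero_left]; simp)
      rw [this]; exact M.one_mem
    obtain ⟨z, u', hzv, hzz, hwz, hvu, hwu, hzu⟩ := q_exists_norm_decomp Q hQ h2 (by omega) b w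
      (hindep w hw0 hw) ν
    have hvwz : polar Q (w - z) b = 0 := by rw [polar_sub_left, hw, hzv, sub_zero]
    have e1 : ZInQ Q M b z := hB1 z hzv hzz (by
      rintro rfl
      rw [polar_zero_left] at hzu
      exact zero_ne_one hzu)
    have e2 : ZInQ Q M b (w - z) := hB1 (w - z) hvwz hwz (by
      intro h0
      have := congrArg (fun t => polar Q t u') h0
      simp only [polar_sub_left, hzu, hwu, polar_zero_left] at this
      exact one_ne_zero (by linear_combination -this))
    have := e1.add e2 hzv hvwz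
    rwa [add_sub_cancel] at this
  have hgood : GoodS M b := by
    intro φ hφ
    set z := (LinearMap.BilinForm.toDual (polarBilin Q) hQ).symm φ with hz
    have hzx : ∀ x, polar Q z x = φ x := fun x =>
      LinearMap.BilinForm.apply_toDual_symm_apply (B := polarBilin Q) (hB := hQ) φ x
    exact hB z (by rw [hzx, hφ]) _ (fun x => by rw [tvGL_mulVec, hzx])
  have hC1 : ∀ v, Q v = 1 → GoodS M v := by
    intro v hvv
    have hv : v ≠ 0 := by
      rintro rfl
      rw [map_zero] at hvv
      exact zero_ne_one hvv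
    obtain ⟨g, hg, hgS, hgx⟩ := so_witt Q hQ ![b] ![v] (LinearIndependent.of_subsingleton 0 hb0)
      (LinearIndependent.of_subsingleton 0 hv)
      (by
        intro i
        fin_cases i; simp [hvv, hQb])
      (by
        intro i j
        fin_cases i; fin_cases j; simp [hvv, hQb]) (by omega)
    have h0 : (g : Matrix ι ι F) *ᵥ b = v := hgx 0
    rw [← h0]
    exact hgood.conj g (hSO g hg hgS)
  have : Nontrivial ι := Fintype.one_lt_card_iff_nontrivial.1 (by omega)
  apply SL_le_of_good
  intro w
  by_cases hw : w = 0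
  · intro φ hφ
    have : tvGL φ w hφ = 1 := by
      apply gl_ext_mulVec
      intro x
      rw [tvGL_mulVec, hw]; simp
    rw [this]; exact M.one_mem
  · obtain ⟨v'', hv''w, hv''⟩ := q_exists_prescribed Q hQ ![w] (LinearIndependent.of_subsingleton 0 hw)
      (fun _ => 0) 1 (by omega)
    have hv''w' : polar Q v'' w = 0 := hv''w 0
    have hv''0 : v'' ≠ 0 := by
      rintro rfl
      rw [map_zero] at hv''
      exact zero_ne_one hv''
    have hind : LinearIndependent F ![v'', w] := by
      apply (LinearIndependent.pair_iff' hv''0).2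
      intro a ha
      have h1 := hv''w'
      rw [← ha, polar_smul_right, polar_self', hv'', smul_eq_mul, mul_one] at h1
      rcases mul_eq_zero.1 h1 with h | h
      · rw [h, zero_smul] at ha
        exact hw ha.symm
      · exact h2 h
    obtain ⟨z, u', hzv, hzz, hwz, hvu, hwu, hzu⟩ := q_exists_norm_decomp Q hQ h2 (by omega) v'' w hind 1
    have g1 : GoodS M z := hC1 z hzz
    have g2 : GoodS M (w - z) := hC1 (w - z) hwz
    obtain ⟨φ, hφ1, hφ0⟩ := exists_dual_one (Submodule.span F {w - z}) z (by
      intro hmem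
      obtain ⟨a, ha⟩ := Submodule.mem_span_singleton.1 hmem
      have h1 := congrArg (fun t => polar Q t u') ha
      simp only [polar_smul_left, polar_sub_left, hzu, hwu, smul_eq_mul] at h1
      have h3 : a = -1 := by linear_combination -h1
      rw [h3] at ha
      apply hw
      have : w = -((-1 : F) • (w - z) - z) := by module
      rw [this, ha, sub_self, neg_zero])
    have h0 : φ (w - z) = 0 := hφ0 _ (Submodule.mem_span_singleton_self _)
    have := g1.conj _ (g2 φ h0)
    rw [tvGL_mulVec, hφ1, one_smul, add_sub_cancel] at this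
    exact this

theorem go_isMaximalIn_SL (Q : QuadraticForm F (ι → F)) (hQ : (polarBilin Q).Nondegenerate) (h2 : (2 : F) ≠ 0)
    (hn : 13 ≤ Fintype.card ι) :
    Geo.IsMaximalIn (Geo.specialLinear ι F) (Geo.quadSimilarityGroup Q ⊓ Geo.specialLinear ι F) := by
  constructor
  · apply lt_of_le_of_ne inf_le_right
    intro he
    obtain ⟨v, -, hQv⟩ := q_exists_prescribed Q hQ (Fin.elim0 : Fin 0 → ι → F) linearIndependent_empty_type
      Fin.elim0 1 (by omega)
    have hv0 : v ≠ 0 := by
      rintro rfl
      rw [map_zero] at hQv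
      exact zero_ne_one hQv
    obtain ⟨z, hzv, hQz⟩ := q_exists_prescribed Q hQ ![v] (LinearIndependent.of_subsingleton 0 hv0)
      (fun _ => 0) 1 (by omega)
    have hzv' : polar Q z v = 0 := hzv 0
    have hind : LinearIndependent F ![v, z] := by
      apply (LinearIndependent.pair_iff' hv0).2
      intro a ha
      have h1 := hzv'
      rw [← ha, polar_smul_left, polar_self', hQv, smul_eq_mul, mul_one] at h1
      rcases mul_eq_zero.1 h1 with h | h
      · rw [h, zero_smul] at ha
        rw [← ha, map_zero] at hQz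
        exact zero_ne_one hQz
      · exact h2 h
    obtain ⟨x, hx, -⟩ := q_exists_prescribed Q hQ ![v, z] hind ![0, 1] 0 (by omega)
    have hxv : polar Q x v = 0 := hx 0
    have hxz : polar Q x z = 1 := hx 1
    have h1 : tvGL (polarBilin Q z) v hzv' ∈ Geo.specialLinear ι F := tvGL_mem_SL _ _ _
    rw [← he] at h1
    obtain ⟨c, hc⟩ := h1.1
    have e1 := hc v
    have e2 := hc x
    rw [tvGL_mulVec (polarBilin Q z) v hzv' v] at e1
    rw [tvGL_mulVec (polarBilin Q z) v hzv' x] at e2
    simp only [polarBilin_apply_apply] at e1 e2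
    rw [hzv', zero_smul, add_zero, hQv, mul_one] at e1
    rw [polar_comm Q z x, hxz, one_smul, QuadraticMap.map_add Q, hQv, hxv, ← e1, one_mul] at e2
    exact one_ne_zero (by linear_combination e2)
  · intro M hM1 hM2
    by_cases hall : M ≤ Geo.quadSimilarityGroup Q
    · left
      exact le_antisymm (le_inf hall hM2) hM1
    · right
      exact le_antisymm hM2 (go_max_in_SL Q hQ h2 hn M hM1 hall)

end Cfsg.Agent.Lib.Helper15
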