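import Mathlib
import Cfsg.Agent.Lib.Helper15.PairGeoU2
import Cfsg.Agent.Lib.Helper15.SUSub3

set_option autoImplicit false

namespace Cfsg.Agent.Lib.Helper15

open Module Matrix Cfsg Cfsg.Agent.Lib.Helper14

variable {F : Type*} [Field F] [Fintype F] {q n : ℕ}

/-- all the Siegel elements attached to the pair `(u, w)` lie in `M` -/
def SInU (q : ℕ) (M : Subgroup (GL (Fin n) F)) (u w : Fin n → F) : Prop :=
  ∀ (μ : F) (k : GL (Fin n) F), (∀ x, (k : Matrix (Fin n) (Fin n) F) *ᵥ x =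
    x + (μ * hermForm n F q x w) • u - (μ ^ q * hermForm n F q x u) • w) → k ∈ M

theorem exists_siegel (hF : Fintype.card F = q ^ 2) (μ : F) (u w : Fin n → F) (huu : hermForm n F q u u = 0)
    (hww : hermForm n F q w w = 0) (huw : hermForm n F q u w = 0) :
    ∃ k : GL (Fin n) F, k ∈ GU n F q ⊓ Geo.specialLinear (Fin n) F ∧ ∀ x, (k : Matrix (Fin n) (Fin n) F) *ᵥ x =
      x + (μ * hermForm n F q x w) • u - (μ ^ q * hermForm n F q x u) • w :=
  ⟨(guMk hF (Cfsg.Agent.Lib.Helper14.siegel q μ u w)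
      (Cfsg.Agent.Lib.Helper14.siegel_preserves hF μ u w huu hww huw)).1,
    ⟨(guMk hF _ _).2, (mem_specialLinear_iff' _).2
      (Cfsg.Agent.Lib.Helper14.siegel_det μ u w huw (hermForm_eq_zero_symm hF _ _ huw))⟩,
    fun x => Cfsg.Agent.Lib.Helper14.siegel_mulVec μ u w hww x⟩

omit [Fintype F] in
theorem SInU.conj {M : Subgroup (GL (Fin n) F)} {u w : Fin n → F} (h : SInU q M u w) (g : GL (Fin n) F)
    (hg : g ∈ M) (hgu : g ∈ GU n F q) :
    SInU q M ((g : Matrix (Fin n) (Fin n) F) *ᵥ u) ((g : Matrix (Fin n) (Fin n) F) *ᵥ w) := by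
  intro μ k hk
  have h1 : g⁻¹ * k * g ∈ M := by
    apply h μ
    intro x
    rw [Units.val_mul, Units.val_mul, ← Matrix.mulVec_mulVec, ← Matrix.mulVec_mulVec, hk, Matrix.mulVec_sub,
      Matrix.mulVec_add, Matrix.mulVec_smul, Matrix.mulVec_smul, gl_inv_mulVec, gl_inv_mulVec, gl_inv_mulVec,
      (mem_GU_iff g).1 hgu, (mem_GU_iff g).1 hgu]
  have : k = g * (g⁻¹ * k * g) * g⁻¹ := by group
  rw [this]
  exact M.mul_mem (M.mul_mem hg h1) (M.inv_mem hg)

theorem GoodU.add (hF : Fintype.card F = q ^ 2) {M : Subgroup (GL (Fin n) F)} {u u' : Fin n → F}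
    (hu : GoodU q M u) (hu' : GoodU q M u') (huu : hermForm n F q u u = 0) (h : hermForm n F q u' u ≠ 0)
    (ht : hermForm n F q u' u + hermForm n F q u' u ^ q = 0) : GoodU q M (u' + u) := by
  have hc : (hermForm n F q u' u)⁻¹ + ((hermForm n F q u' u)⁻¹) ^ q = 0 := by
    have h2 : hermForm n F q u' u ^ q = - hermForm n F q u' u := by linear_combination ht
    rw [inv_pow, h2]
    field_simp
    ring
  obtain ⟨k, hkGU, hk⟩ := exists_tv hF u _ huu hc
  have := hu'.conj k (hu _ k hc hk) hkGU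
  rwa [hk, inv_mul_cancel₀ h, one_smul] at this

/-- the core of the maximality proof -/
theorem su_pair_core (hF : Fintype.card F = q ^ 2) (hn : 7 ≤ n) {X X' : Submodule F (Fin n → F)}
    (hX : TPairU q X X') (hdim : 5 ≤ finrank F X) (M : Subgroup (GL (Fin n) F))
    (hS : ∀ u ∈ X, ∀ w ∈ X', hermForm n F q u w = 0 → SInU q M u w)
    (s : GL (Fin n) F) (hsM : s ∈ M) (hsGU : s ∈ GU n F q)
    (hsX : ∀ x' ∈ X', ∃ x ∈ X, (s : Matrix (Fin n) (Fin n) F) *ᵥ x = x')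
    (u₁ z₁ : Fin n → F) (h1 : hermForm n F q u₁ u₁ = 0) (h2 : hermForm n F q z₁ z₁ = 0)
    (h11 : hermForm n F q u₁ z₁ = 0) (hE : SInU q M u₁ z₁) (hu₁ : u₁ ∉ X')
    (hz₁ : z₁ ∉ X' ⊔ Submodule.span F {u₁}) : GU n F q ⊓ Geo.specialLinear (Fin n) F ≤ M := by
  obtain ⟨u₂, hu₂X, z₂, hz₂X, hu₂0, b1, b2, b3, b4, b5, b6⟩ := tpairU_step hF hX hdim u₁ z₁ hu₁ hz₁
  have sy := fun a b => hermForm_eq_zero_symm hF (n := n) a b
  have hu₂u₂ := hX.iso u₂ hu₂X u₂ hu₂X
  -- first conjugation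
  obtain ⟨k₁, hk₁G, hk₁⟩ := exists_siegel hF 1 u₁ z₁ h1 h2 h11
  have c1 : (k₁ : Matrix (Fin n) (Fin n) F) *ᵥ u₂ = u₂ := by
    rw [hk₁, b4, b2]; simp
  have c2 : (k₁ : Matrix (Fin n) (Fin n) F) *ᵥ z₂ = z₂ + u₁ := by
    rw [hk₁, sy _ _ b3, ← hermForm_swap hF z₁ z₂, b5]; simp
  have e1 : SInU q M u₂ (z₂ + u₁) := by
    have := (hS u₂ hu₂X z₂ hz₂X b1).conj k₁ (hE 1 k₁ hk₁) hk₁G.1
    rwa [c1, c2] at this
  set Zv := z₂ + u₁ with hZv
  have hu₂Z : hermForm n F q u₂ Zv = 0 := by rw [hZv, hermForm_add_right hF, b1, b2, add_zero]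
  have hZu₂ := sy _ _ hu₂Z
  have hZZ : hermForm n F q Zv Zv = 0 := by
    rw [hZv, hermForm_add_left, hermForm_add_right hF, hermForm_add_right hF, hX.iso' z₂ hz₂X z₂ hz₂X, sy _ _ b3,
      b3, h1]; ring
  have hZnot : Zv ∉ X' ⊔ Submodule.span F {u₂} := by
    intro hc
    apply b6
    have : u₁ = Zv - z₂ := by rw [hZv]; abel
    rw [this]
    exact Submodule.sub_mem _ hc (Submodule.mem_sup_left hz₂X)
  obtain ⟨w₀, hw₀S, hZw₀⟩ := hf_exists_sep hF _ Zv hZnot
  have hw₀X : w₀ ∈ X' := hX.mem_right hF w₀ (fun y hy => hw₀S y (Submodule.mem_sup_left hy))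
  have hu₂w₀ : hermForm n F q u₂ w₀ = 0 := hw₀S u₂ (Submodule.mem_sup_right (Submodule.mem_span_singleton_self _))
  obtain ⟨kE, hkEG, hkE⟩ := exists_siegel hF 1 u₂ Zv hu₂u₂ hZZ hu₂Z
  have hkEM : kE ∈ M := e1 1 kE hkE
  have hgood : GoodU q M u₂ := by
    intro c k hc hk
    obtain ⟨a, ha⟩ := exists_sub_pow_eq hF c hc
    obtain ⟨g, hgG, hg⟩ := exists_siegel hF (-a) u₂ w₀ hu₂u₂ (hX.iso' w₀ hw₀X w₀ hw₀X) hu₂w₀
    have hgM : g ∈ M := hS u₂ hu₂X w₀ hw₀X hu₂w₀ (-a) g hg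
    have d1 : (g : Matrix (Fin n) (Fin n) F) *ᵥ u₂ = u₂ := by
      rw [hg, hu₂w₀, hu₂u₂]; simp
    have d2 : (g : Matrix (Fin n) (Fin n) F) *ᵥ Zv = Zv + (-a) • u₂ := by
      rw [hg, hZw₀, hZu₂]; simp
    have e2 : SInU q M u₂ (Zv + (-a) • u₂) := by
      have := e1.conj g hgM hgG.1
      rwa [d1, d2] at this
    have e3 : k * kE ∈ M := by
      apply e2 1
      intro x
      rw [Units.val_mul, ← Matrix.mulVec_mulVec, hk, hkE]
      simp only [hermForm_add_left, hermForm_sub_left, hermForm_smul_left, hermForm_add_right hF,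
        hermForm_smul_right, hu₂u₂, hZu₂, neg_pow_q hF, one_pow, ← ha]
      module
    have : k = (k * kE) * kE⁻¹ := by group
    rw [this]
    exact M.mul_mem e3 (M.inv_mem hkEM)
  -- all vectors of `X` are good
  have hgoodX : ∀ x ∈ X, GoodU q M x := by
    intro x hx
    by_cases hxs : x ∈ Submodule.span F {u₂}
    · obtain ⟨c, rfl⟩ := Submodule.mem_span_singleton.1 hxs
      exact hgood.smul hF c
    have n1 : u₂ ∉ X' ⊔ Submodule.span F {x} := by
      intro hc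
      obtain ⟨x', hx', t, ht, hsum⟩ := Submodule.mem_sup.1 hc
      obtain ⟨c, rfl⟩ := Submodule.mem_span_singleton.1 ht
      have hx'0 : x' = 0 := by
        apply hX.inf_zero hF x' _ hx'
        have : x' = u₂ - c • x := by rw [← hsum]; abel
        rw [this]; exact X.sub_mem hu₂X (X.smul_mem _ hx)
      rw [hx'0, zero_add] at hsum
      have hc0 : c ≠ 0 := by
        rintro rfl
        rw [zero_smul] at hsum
        exact hu₂0 hsum.symm
      apply hxs
      rw [Submodule.mem_span_singleton]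
      exact ⟨c⁻¹, by rw [← hsum, smul_smul, inv_mul_cancel₀ hc0, one_smul]⟩
    have n2 : x ∉ X' ⊔ Submodule.span F {u₂} := by
      intro hc
      obtain ⟨x', hx', t, ht, hsum⟩ := Submodule.mem_sup.1 hc
      have hx'0 : x' = 0 := by
        apply hX.inf_zero hF x' _ hx'
        have : x' = x - t := by rw [← hsum]; abel
        rw [this]
        refine X.sub_mem hx ?_
        obtain ⟨c, rfl⟩ := Submodule.mem_span_singleton.1 ht
        exact X.smul_mem _ hu₂X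
      rw [hx'0, zero_add] at hsum
      exact hxs (by rw [← hsum]; exact ht)
    obtain ⟨w₁, hw₁S, hw₁⟩ := hf_exists_sep hF _ u₂ n1
    obtain ⟨w₂, hw₂S, hw₂⟩ := hf_exists_sep hF _ x n2
    have hw₁X : w₁ ∈ X' := hX.mem_right hF w₁ (fun y hy => hw₁S y (Submodule.mem_sup_left hy))
    have hw₂X : w₂ ∈ X' := hX.mem_right hF w₂ (fun y hy => hw₂S y (Submodule.mem_sup_left hy))
    have hxw₁ : hermForm n F q x w₁ = 0 := hw₁S x (Submodule.mem_sup_right (Submodule.mem_span_singleton_self _))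
    have hu₂w₂ : hermForm n F q u₂ w₂ = 0 := hw₂S u₂ (Submodule.mem_sup_right (Submodule.mem_span_singleton_self _))
    have p1 : hermForm n F q (x - u₂) (w₁ + w₂) = 0 := by
      rw [hermForm_sub_left, hermForm_add_right hF, hermForm_add_right hF, hxw₁, hw₂, hw₁, hu₂w₂]; ring
    have hxu := X.sub_mem hx hu₂X
    have hww := X'.add_mem hw₁X hw₂X
    obtain ⟨g, hgG, hg⟩ := exists_siegel hF 1 (x - u₂) (w₁ + w₂) (hX.iso _ hxu _ hxu) (hX.iso' _ hww _ hww) p1
    have := hgood.conj g (hS _ hxu _ hww p1 1 g hg) hgG.1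
    rw [hg, hX.iso u₂ hu₂X _ hxu, hermForm_add_right hF, hw₁, hu₂w₂] at this
    have e : u₂ + ((1 : F) * (1 + 0)) • (x - u₂) - ((1 : F) ^ q * 0) • (w₁ + w₂) = x := by
      rw [mul_zero, zero_smul, add_zero, mul_one, one_smul]; abel
    rwa [e] at this
  have hgoodX' : ∀ x' ∈ X', GoodU q M x' := by
    intro x' hx'
    obtain ⟨x, hx, rfl⟩ := hsX x' hx'
    exact (hgoodX x hx).conj s hsM hsGU
  apply SU_le_of_good hF hn
  intro v hv
  obtain ⟨x, hx, x', hx', rfl⟩ := hX.split v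
  have htr : hermForm n F q x' x + hermForm n F q x' x ^ q = 0 := by
    rw [hermForm_add_left, hermForm_add_right hF, hermForm_add_right hF, hX.iso x hx x hx,
      hX.iso' x' hx' x' hx', ← hermForm_swap hF x' x] at hv
    linear_combination hv
  by_cases hx'0 : x' = 0
  · rw [hx'0, add_zero]; exact hgoodX x hx
  by_cases hxx' : hermForm n F q x' x = 0
  · obtain ⟨x₀, hx₀, hx₀x'⟩ : ∃ x₁ ∈ X, hermForm n F q x₁ x' ≠ 0 := by
      by_contra hc
      push Not at hc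
      exact hx'0 (hX.symm.zero_of_perp hF x' hx' hc)
    obtain ⟨τ, hτ0, hτ⟩ := exists_skew hF
    -- normalise
    set x₁ := (τ / hermForm n F q x₀ x') • x₀ with hx₁def
    have hx₁ : x₁ ∈ X := X.smul_mem _ hx₀
    have hx₁x' : hermForm n F q x₁ x' = τ := by
      rw [hx₁def, hermForm_smul_left]; field_simp
    have hx'x₁ : hermForm n F q x' x₁ = -τ := by
      rw [← hermForm_swap hF, hx₁x']; linear_combination hτ
    have g1 : GoodU q M (x' + x₁) := GoodU.add hF (hgoodX x₁ hx₁) (hgoodX' x' hx') (hX.iso x₁ hx₁ x₁ hx₁)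
      (by rw [hx'x₁]; exact neg_ne_zero.2 hτ0) (by rw [hx'x₁, neg_pow_q hF]; linear_combination -hτ)
    have hd := X.sub_mem hx hx₁
    have e0 : hermForm n F q (x' + x₁) (x - x₁) = τ := by
      rw [hermForm_add_left, hf_sub_right hF, hxx', hx'x₁, hX.iso x₁ hx₁ _ hd]; ring
    have g2 : GoodU q M ((x' + x₁) + (x - x₁)) := GoodU.add hF (hgoodX _ hd) g1 (hX.iso _ hd _ hd)
      (by rw [e0]; exact hτ0) (by rw [e0]; exact hτ)
    have e : x' + x₁ + (x - x₁) = x + x' := by abel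
    rwa [e] at g2
  · have := GoodU.add hF (hgoodX x hx) (hgoodX' x' hx') (hX.iso x hx x hx) hxx' htr
    rwa [add_comm] at this

end Cfsg.Agent.Lib.Helper15
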