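import Mathlib
import Cfsg.Agent.Lib.Helper15.PairGeo

set_option autoImplicit false

namespace Cfsg.Agent.Lib.Helper15

open Module

variable {F V : Type*} [Field F] [AddCommGroup V] [Module F V]

theorem TPair.isCompl {B : LinearMap.BilinForm F V} {U U' : Submodule F V} (h : TPair B U U')
    (hB : B.Nondegenerate) : IsCompl U U' := by
  refine ⟨?_, codisjoint_iff.2 h.sup⟩
  rw [Submodule.disjoint_def]
  exact fun x hx hx' => h.inf_zero hB x hx hx'

/-- an isometry interchanging two complementary totally isotropic subspaces -/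
theorem tpair_exists_swap [FiniteDimensional F V] (B : LinearMap.BilinForm F V) (hB : B.Nondegenerate)
    (hr : B.IsRefl) (ε : F) (hε : ∀ x y, B x y = ε * B y x) {U U' : Submodule F V} (hU : TPair B U U')
    (hfr : finrank F U = finrank F U') :
    ∃ s : V →ₗ[F] V, (∀ x y, B (s x) (s y) = B x y) ∧ (∀ x ∈ U, s x ∈ U') ∧ (∀ x ∈ U', s x ∈ U) := by
  have hc := hU.isCompl hB
  let φ : U ≃ₗ[F] U' := LinearEquiv.ofFinrankEq U U' hfr
  let t : V →ₗ[F] V := LinearMap.ofIsCompl hc (U'.subtype ∘ₗ φ.toLinearMap) (U.subtype ∘ₗ φ.symm.toLinearMap)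
  have ht1 : ∀ x (hx : x ∈ U), t x = φ ⟨x, hx⟩ := fun x hx =>
    LinearMap.ofIsCompl_apply_left hc (⟨x, hx⟩ : U)
  have ht2 : ∀ x (hx : x ∈ U'), t x = φ.symm ⟨x, hx⟩ := fun x hx =>
    LinearMap.ofIsCompl_apply_right hc (⟨x, hx⟩ : U')
  have ht1' : ∀ x ∈ U, t x ∈ U' := fun x hx => by rw [ht1 x hx]; exact (φ ⟨x, hx⟩).2
  have ht2' : ∀ x ∈ U', t x ∈ U := fun x hx => by rw [ht2 x hx]; exact (φ.symm ⟨x, hx⟩).2
  have htt : ∀ x ∈ U, t (t x) = x := by
    intro x hx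
    rw [ht1 x hx, ht2 _ (φ ⟨x, hx⟩).2]
    simp
  let td : V →ₗ[F] V := LinearMap.BilinForm.leftAdjointOfNondegenerate B hB t
  have htd : ∀ x y, B (td x) y = B x (t y) :=
    LinearMap.BilinForm.isAdjointPairLeftAdjointOfNondegenerate B hB t
  have htd' : ∀ x ∈ U', td x ∈ U := by
    intro x hx
    apply hU.mem_left hB hr
    intro y hy
    apply hr
    rw [htd]
    exact hU.iso' x hx _ (ht1' y hy)
  let s : V →ₗ[F] V := LinearMap.ofIsCompl hc (t ∘ₗ U.subtype) (td ∘ₗ U'.subtype)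
  have hs1 : ∀ x ∈ U, s x = t x := fun x hx => LinearMap.ofIsCompl_apply_left hc (⟨x, hx⟩ : U)
  have hs2 : ∀ x ∈ U', s x = td x := fun x hx => LinearMap.ofIsCompl_apply_right hc (⟨x, hx⟩ : U')
  refine ⟨s, ?_, fun x hx => by rw [hs1 x hx]; exact ht1' x hx, fun x hx => by rw [hs2 x hx]; exact htd' x hx⟩
  intro x y
  obtain ⟨a, ha, a', ha', rfl⟩ := hU.split x
  obtain ⟨b, hb, b', hb', rfl⟩ := hU.split y
  rw [map_add s, map_add s, hs1 a ha, hs1 b hb, hs2 a' ha', hs2 b' hb']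
  simp only [map_add, LinearMap.add_apply]
  rw [hU.iso' _ (ht1' a ha) _ (ht1' b hb), hU.iso _ (htd' a' ha') _ (htd' b' hb'), htd a' (t b), htt b hb,
    hε (t a) (td b'), htd b' (t a), htt a ha, ← hε a b', hU.iso a ha b hb, hU.iso' a' ha' b' hb']

end Cfsg.Agent.Lib.Helper15
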