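import Mathlib
import Cfsg.Prelude.Def_GeometricClasses
import Cfsg.Agent.Lib.Helper5.SympGen
import Cfsg.Agent.Lib.Helper15.ParMax2

set_option autoImplicit false

namespace Cfsg.Agent.Lib.Helper15

open Module Matrix Cfsg Cfsg.Agent.Lib.Helper5

variable {F : Type*} [Field F] {m : ℕ}

/-- the embedding of Mathlib's symplectic group in `GL` -/
noncomputable def spHom (m : ℕ) (F : Type*) [Field F] :
    Matrix.symplecticGroup (Fin m) F →* GL (Fin m ⊕ Fin m) F :=
  (Units.map (Matrix.symplecticGroup (Fin m) F).subtype).comp toUnits.toMonoidHom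

theorem coe_spHom (A : Matrix.symplecticGroup (Fin m) F) :
    ((spHom m F A : GL (Fin m ⊕ Fin m) F) : Matrix (Fin m ⊕ Fin m) (Fin m ⊕ Fin m) F) = A.1 := rfl

theorem mem_spGL_iff (g : GL (Fin m ⊕ Fin m) F) : g ∈ spGL m F ↔
    ∀ u v, sympForm m F ((g : Matrix (Fin m ⊕ Fin m) (Fin m ⊕ Fin m) F) *ᵥ u)
      ((g : Matrix (Fin m ⊕ Fin m) (Fin m ⊕ Fin m) F) *ᵥ v) = sympForm m F u v := Iff.rfl

theorem spHom_mem (A : Matrix.symplecticGroup (Fin m) F) : spHom m F A ∈ spGL m F := by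
  rw [mem_spGL_iff]
  exact (mem_symplecticGroup_iff_preserves _).1 A.2

theorem exists_spHom_eq (g : GL (Fin m ⊕ Fin m) F) (hg : g ∈ spGL m F) : ∃ A, spHom m F A = g :=
  ⟨⟨g.1, (mem_symplecticGroup_iff_preserves _).2 hg⟩, Units.ext rfl⟩

/-- symplectic transvections in `GL` -/
noncomputable def tvSp (u : Fin m ⊕ Fin m → F) (c : F) : GL (Fin m ⊕ Fin m) F :=
  spHom m F ⟨sympTransvection m u c, sympTransvection_mem u c⟩

theorem tvSp_mulVec (u : Fin m ⊕ Fin m → F) (c : F) (x : Fin m ⊕ Fin m → F) :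
    (tvSp u c : Matrix (Fin m ⊕ Fin m) (Fin m ⊕ Fin m) F) *ᵥ x = x + (c * sympForm m F x u) • u :=
  sympTransvection_mulVec u c x

theorem tvSp_mem (u : Fin m ⊕ Fin m → F) (c : F) : tvSp u c ∈ spGL m F := spHom_mem _

def GoodP (M : Subgroup (GL (Fin m ⊕ Fin m) F)) (u : Fin m ⊕ Fin m → F) : Prop := ∀ c, tvSp u c ∈ M

theorem GoodP.conj {M : Subgroup (GL (Fin m ⊕ Fin m) F)} {u : Fin m ⊕ Fin m → F} (hu : GoodP M u)
    (g : GL (Fin m ⊕ Fin m) F) (hg : g ∈ M) (hgs : g ∈ spGL m F) :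
    GoodP M ((g : Matrix (Fin m ⊕ Fin m) (Fin m ⊕ Fin m) F) *ᵥ u) := by
  intro c
  have h2 : tvSp ((g : Matrix (Fin m ⊕ Fin m) (Fin m ⊕ Fin m) F) *ᵥ u) c = g * tvSp u c * g⁻¹ := by
    apply gl_ext_mulVec
    intro x
    rw [Units.val_mul, Units.val_mul, ← Matrix.mulVec_mulVec, ← Matrix.mulVec_mulVec, tvSp_mulVec, tvSp_mulVec,
      Matrix.mulVec_add, Matrix.mulVec_smul, gl_mulVec_inv]
    congr 3
    rw [← (mem_spGL_iff g).1 hgs (((g⁻¹ : GL (Fin m ⊕ Fin m) F) : Matrix (Fin m ⊕ Fin m) (Fin m ⊕ Fin m) F) *ᵥ x) u,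
      gl_mulVec_inv]
  rw [h2]
  exact M.mul_mem (M.mul_mem hg (hu c)) (M.inv_mem hg)

theorem GoodP.smul {M : Subgroup (GL (Fin m ⊕ Fin m) F)} {u : Fin m ⊕ Fin m → F} (hu : GoodP M u) (a : F) :
    GoodP M (a • u) := by
  intro c
  have h2 : tvSp (a • u) c = tvSp u (c * a * a) := by
    apply gl_ext_mulVec
    intro x
    rw [tvSp_mulVec, tvSp_mulVec, sympForm_smul_right, smul_smul]
    congr 2
    ring
  rw [h2]
  exact hu _

theorem GoodP.add {M : Subgroup (GL (Fin m ⊕ Fin m) F)} {u u' : Fin m ⊕ Fin m → F} (hu : GoodP M u)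
    (hu' : GoodP M u') (h : sympForm m F u' u ≠ 0) : GoodP M (u' + u) := by
  have h1 := hu'.conj _ (hu (sympForm m F u' u)⁻¹) (tvSp_mem _ _)
  rw [tvSp_mulVec, inv_mul_cancel₀ h, one_smul] at h1
  exact h1

theorem spGL_le_of_good {M : Subgroup (GL (Fin m ⊕ Fin m) F)} (h : ∀ u, GoodP M u) : spGL m F ≤ M := by
  have h1 : (tvGroup m F).map (spHom m F) ≤ M := by
    unfold tvGroup
    rw [MonoidHom.map_closure, Subgroup.closure_le]
    rintro _ ⟨A, ⟨w, c, hA⟩, rfl⟩
    have : spHom m F A = tvSp w c := Units.ext hA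
    rw [this]
    exact h w c
  intro g hg
  obtain ⟨A, rfl⟩ := exists_spHom_eq g hg
  apply h1
  refine ⟨A, ?_, rfl⟩
  rw [tvGroup_eq_top]; trivial

theorem symp_exists_ne (w : Fin m ⊕ Fin m → F) (hw : w ≠ 0) : ∃ y, sympForm m F w y ≠ 0 := by
  by_contra hc
  push Not at hc
  exact hw (sympB_sepLeft w hc)

theorem symp_exists_sep (H : Submodule F (Fin m ⊕ Fin m → F)) (u : Fin m ⊕ Fin m → F) (hu : u ∉ H) :
    ∃ y, (∀ h ∈ H, sympForm m F y h = 0) ∧ sympForm m F y u ≠ 0 :=
  exists_sep (σ := RingHom.id F) (fun _ => rfl) (sympB m F) sympB_sepRight H u hu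

/-- maximality of the stabiliser of a totally isotropic subspace: the key step -/
theorem sp_parabolic_max (W : Submodule F (Fin m ⊕ Fin m → F))
    (hW : ∀ u ∈ W, ∀ v ∈ W, sympForm m F u v = 0) (M : Subgroup (GL (Fin m ⊕ Fin m) F))
    (hM : Geo.subspaceStabilizer W ⊓ spGL m F ≤ M) (hMK : M ≤ spGL m F)
    (hns : ¬ M ≤ Geo.subspaceStabilizer W) : spGL m F ≤ M := by
  -- vectors orthogonal to `W` are good
  have hperp : ∀ z, (∀ w ∈ W, sympForm m F w z = 0) → GoodP M z := by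
    intro z hz c
    apply hM
    refine ⟨mem_stab_of_forall W _ (fun w hw => ?_), tvSp_mem _ _⟩
    rw [tvSp_mulVec, hz w hw, mul_zero, zero_smul, add_zero]
    exact hw
  have hWg : ∀ w ∈ W, GoodP M w := fun w hw => hperp w (fun w' hw' => hW w' hw' w hw)
  -- a good vector not orthogonal to `W`
  obtain ⟨y₀, a₀, hy₀, ha₀, hay⟩ : ∃ y₀ a₀, GoodP M y₀ ∧ a₀ ∈ W ∧ sympForm m F a₀ y₀ = 1 := by
    obtain ⟨x, hxM, hxW⟩ := SetLike.not_le_iff_exists.1 hns
    have : ¬ ∀ w ∈ W, (x : Matrix (Fin m ⊕ Fin m) (Fin m ⊕ Fin m) F) *ᵥ w ∈ W := fun hc => hxW (mem_stab_of_forall W x hc)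
    push Not at this
    obtain ⟨w, hw, hxw⟩ := this
    obtain ⟨z, hzW, hzv⟩ := symp_exists_sep W _ hxw
    have hz : GoodP M z := hperp z (fun w' hw' => by rw [sympForm_swap, hzW w' hw', neg_zero])
    have h1 := hz.conj x⁻¹ (M.inv_mem hxM) ((spGL m F).inv_mem (hMK hxM))
    set y := ((x⁻¹ : GL (Fin m ⊕ Fin m) F) : Matrix (Fin m ⊕ Fin m) (Fin m ⊕ Fin m) F) *ᵥ z with hy
    have h2 : sympForm m F w y ≠ 0 := by
      rw [← (mem_spGL_iff x).1 (hMK hxM) w y, hy, gl_mulVec_inv, sympForm_swap]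
      exact neg_ne_zero.2 hzv
    refine ⟨y, (sympForm m F w y)⁻¹ • w, h1, W.smul_mem _ hw, ?_⟩
    rw [sympForm_smul_left, inv_mul_cancel₀ h2]
  -- the subspace `W^⊥ + F y₀` is good
  have hU1 : ∀ (z : Fin m ⊕ Fin m → F) (c : F), (∀ w ∈ W, sympForm m F w z = 0) → GoodP M (z + c • y₀) := by
    intro z c hz
    by_cases hc : c = 0
    · rw [hc, zero_smul, add_zero]; exact hperp z hz
    by_cases hzy : sympForm m F z y₀ = 0
    · have e1 : GoodP M ((z - a₀) + c • y₀) := by
        apply GoodP.add (hy₀.smul c) (hperp _ (fun w hw => by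
          rw [sympForm_sub_right, hz w hw, hW w hw a₀ ha₀, sub_zero]))
        rw [sympForm_smul_right, sympForm_sub_left, hzy, hay]
        simpa using hc
      have e2 := GoodP.add e1 (hWg a₀ ha₀) (by
        rw [sympForm_add_right, sympForm_sub_right, hz a₀ ha₀, sympForm_self, sympForm_smul_right, hay]
        simpa using hc)
      have e3 : a₀ + (z - a₀ + c • y₀) = z + c • y₀ := by abel
      rw [e3] at e2
      exact e2
    · apply GoodP.add (hy₀.smul c) (hperp z hz)
      rw [sympForm_smul_right]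
      exact mul_ne_zero hc hzy
  apply spGL_le_of_good
  intro x
  by_cases hcase : ∀ b ∈ W, sympForm m F b y₀ = 0 → sympForm m F b x = 0
  · have e1 : x = (x - sympForm m F a₀ x • y₀) + sympForm m F a₀ x • y₀ := by abel
    rw [e1]
    apply hU1
    intro w hw
    have h1 := hcase (w - sympForm m F w y₀ • a₀) (W.sub_mem hw (W.smul_mem _ ha₀)) (by
      rw [sympForm_sub_left, sympForm_smul_left, hay]; ring)
    rw [sympForm_sub_left, sympForm_smul_left] at h1
    rw [sympForm_sub_right, sympForm_smul_right]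
    linear_combination h1
  · push Not at hcase
    obtain ⟨b₀, hb₀, hb₀y, hb₀x⟩ := hcase
    obtain ⟨b, hbW, hby, hbx⟩ : ∃ b ∈ W, sympForm m F b y₀ = 0 ∧ sympForm m F b x = 1 :=
      ⟨(sympForm m F b₀ x)⁻¹ • b₀, W.smul_mem _ hb₀, by rw [sympForm_smul_left, hb₀y, mul_zero],
        by rw [sympForm_smul_left, inv_mul_cancel₀ hb₀x]⟩
    obtain ⟨a, haW, hay', hax⟩ : ∃ a ∈ W, sympForm m F a y₀ = 1 ∧ sympForm m F a x = 0 :=
      ⟨a₀ - sympForm m F a₀ x • b, W.sub_mem ha₀ (W.smul_mem _ hbW),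
        by rw [sympForm_sub_left, sympForm_smul_left, hby, hay]; ring,
        by rw [sympForm_sub_left, sympForm_smul_left, hbx]; ring⟩
    -- the subspace fixed by the swapping element
    let W₀ : Submodule F (Fin m ⊕ Fin m → F) :=
      W ⊓ (LinearMap.ker ((sympB m F).flip y₀) ⊓ LinearMap.ker ((sympB m F).flip x))
    have hW₀ : ∀ w, w ∈ W₀ ↔ w ∈ W ∧ sympForm m F w y₀ = 0 ∧ sympForm m F w x = 0 := fun w => Iff.rfl
    set H := W₀ ⊔ Submodule.span F {a + b} with hH
    have hHW : H ≤ W := sup_le inf_le_left (by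
      rw [Submodule.span_singleton_le_iff_mem]; exact W.add_mem haW hbW)
    have hHeq : ∀ h ∈ H, sympForm m F h y₀ = sympForm m F h x := by
      intro h hh
      obtain ⟨w, hw, z, hz, rfl⟩ := Submodule.mem_sup.1 hh
      obtain ⟨c, rfl⟩ := Submodule.mem_span_singleton.1 hz
      rw [sympForm_add_left, sympForm_add_left, ((hW₀ w).1 hw).2.1, ((hW₀ w).1 hw).2.2, sympForm_smul_left,
        sympForm_smul_left, sympForm_add_left, sympForm_add_left, hay', hby, hax, hbx]
      ring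
    have haH : a ∉ H := fun hc => by
      have := hHeq a hc
      rw [hay', hax] at this
      exact one_ne_zero this
    have hbH : b ∉ H := fun hc => by
      have := hHeq b hc
      rw [hby, hbx] at this
      exact zero_ne_one this
    obtain ⟨A, -, hAH, hAa⟩ := tv_key H a b haH hbH (fun h hh => by
      rw [sympForm_sub_right, hW h (hHW hh) b hbW, hW h (hHW hh) a haW, sub_zero])
    have hAb : A.1 *ᵥ b = a := by
      have h1 := hAH (a + b) (Submodule.mem_sup_right (Submodule.mem_span_singleton_self _))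
      rw [Matrix.mulVec_add, hAa] at h1
      have : A.1 *ᵥ b = (b + A.1 *ᵥ b) - b := by abel
      rw [this, h1]; abel
    have hdec : ∀ w ∈ W, w - sympForm m F w y₀ • a - sympForm m F w x • b ∈ W₀ := by
      intro w hw
      rw [hW₀]
      refine ⟨W.sub_mem (W.sub_mem hw (W.smul_mem _ haW)) (W.smul_mem _ hbW), ?_, ?_⟩
      · rw [sympForm_sub_left, sympForm_sub_left, sympForm_smul_left, sympForm_smul_left, hay', hby]; ring
      · rw [sympForm_sub_left, sympForm_sub_left, sympForm_smul_left, sympForm_smul_left, hax, hbx]; ring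
    have hAw : ∀ w ∈ W, A.1 *ᵥ w = w - sympForm m F w y₀ • a - sympForm m F w x • b +
        sympForm m F w y₀ • b + sympForm m F w x • a := by
      intro w hw
      have e1 : w = (w - sympForm m F w y₀ • a - sympForm m F w x • b) + sympForm m F w y₀ • a +
        sympForm m F w x • b := by abel
      conv_lhs => rw [e1]
      rw [Matrix.mulVec_add, Matrix.mulVec_add, Matrix.mulVec_smul, Matrix.mulVec_smul, hAa, hAb,
        hAH _ (Submodule.mem_sup_left (hdec w hw))]
    have hAM : spHom m F A ∈ M := by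
      apply hM
      refine ⟨mem_stab_of_forall W _ (fun w hw => ?_), spHom_mem _⟩
      rw [coe_spHom, hAw w hw]
      exact W.add_mem (W.add_mem ((hW₀ _).1 (hdec w hw)).1 (W.smul_mem _ hbW)) (W.smul_mem _ haW)
    -- `A x` lies in `y₀ + W^⊥`
    have key : GoodP M (A.1 *ᵥ x) := by
      have e1 : A.1 *ᵥ x = (A.1 *ᵥ x - y₀) + (1 : F) • y₀ := by rw [one_smul]; abel
      rw [e1]
      apply hU1
      intro w hw
      rw [sympForm_sub_right]
      -- `w = A w'`
      set w' := w - sympForm m F w y₀ • a - sympForm m F w x • b + sympForm m F w y₀ • b +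
        sympForm m F w x • a with hw'
      have hw'W : w' ∈ W :=
        W.add_mem (W.add_mem ((hW₀ _).1 (hdec w hw)).1 (W.smul_mem _ hbW)) (W.smul_mem _ haW)
      have e2 : A.1 *ᵥ w' = w := by
        rw [hw', Matrix.mulVec_add, Matrix.mulVec_add, Matrix.mulVec_smul, Matrix.mulVec_smul, hAa, hAb,
          hAH _ (Submodule.mem_sup_left (hdec w hw))]
        abel
      have e3 : sympForm m F w (A.1 *ᵥ x) = sympForm m F w' x := by
        conv_lhs => rw [← e2]
        exact symp_preserves A w' x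
      rw [e3, hw', sympForm_add_left, sympForm_add_left, ((hW₀ _).1 (hdec w hw)).2.2, sympForm_smul_left,
        sympForm_smul_left, hbx, hax]
      ring
    have h2 := key.conj (spHom m F A)⁻¹ (M.inv_mem hAM) ((spGL m F).inv_mem (spHom_mem _))
    have h3 : (((spHom m F A)⁻¹ : GL (Fin m ⊕ Fin m) F) : Matrix (Fin m ⊕ Fin m) (Fin m ⊕ Fin m) F) *ᵥ
        (A.1 *ᵥ x) = x := gl_inv_mulVec (spHom m F A) x
    rw [h3] at h2
    exact h2

theorem sp_parabolic_isMaximalIn (W : Submodule F (Fin m ⊕ Fin m → F)) (hW0 : W ≠ ⊥)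
    (hW : Geo.IsTotallySingularFor (sympForm m F) W) :
    Geo.IsMaximalIn (spGL m F) (Geo.subspaceStabilizer W ⊓ spGL m F) := by
  constructor
  · apply lt_of_le_of_ne inf_le_right
    intro he
    obtain ⟨w, hw, hw0⟩ := Submodule.exists_mem_ne_zero_of_ne_bot hW0
    obtain ⟨y, hy⟩ := symp_exists_ne w hw0
    have h1 : tvSp y 1 ∈ spGL m F := tvSp_mem _ _
    rw [← he] at h1
    have h2 := ((mem_stab_iff' W _).1 h1.1 w).1 hw
    rw [tvSp_mulVec, one_mul] at h2
    have h3 := (W.smul_mem_iff hy).1 ((W.add_mem_iff_right hw).1 h2)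
    exact hy (hW w hw y h3)
  · intro M hM1 hM2
    by_cases hall : M ≤ Geo.subspaceStabilizer W
    · left
      exact le_antisymm (le_inf hall hM2) hM1
    · right
      exact le_antisymm hM2 (sp_parabolic_max W hW M hM1 hM2 hall)

end Cfsg.Agent.Lib.Helper15
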