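import Mathlib
import Cfsg.Agent.Lib.Helper15.ParMax3

set_option autoImplicit false

namespace Cfsg.Agent.Lib.Helper15

open Module Matrix Cfsg Cfsg.Agent.Lib.Helper5

variable {F : Type*} [Field F] {m : ℕ}

theorem sp_move_step {M : Subgroup (GL (Fin m ⊕ Fin m) F)} (A : Submodule F (Fin m ⊕ Fin m → F))
    (hA : ∀ u ∈ A, GoodP M u) (a b a' : Fin m ⊕ Fin m → F) (ha : a ∈ A) (ha' : a' ∈ A)
    (hb : ∀ u ∈ A, sympForm m F b u = 0) (hab : GoodP M (a + b)) (haa : sympForm m F a a' ≠ 0) :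
    GoodP M (a' + b) := by
  have hu : a' - a ∈ A := A.sub_mem ha' ha
  have e1 : sympForm m F (a + b) (a' - a) = sympForm m F a a' := by
    rw [sympForm_add_left, hb _ hu, sympForm_sub_right, sympForm_self]; ring
  have h1 := hab.conj _ (hA _ hu (sympForm m F a a')⁻¹) (tvSp_mem _ _)
  rw [tvSp_mulVec, e1, inv_mul_cancel₀ haa, one_smul] at h1
  have e2 : a + b + (a' - a) = a' + b := by abel
  rwa [e2] at h1

theorem sp_move {M : Subgroup (GL (Fin m ⊕ Fin m) F)} (A : Submodule F (Fin m ⊕ Fin m → F))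
    (hA : ∀ u ∈ A, GoodP M u) (hnd : ∀ w ∈ A, w ≠ 0 → ∃ x ∈ A, sympForm m F w x ≠ 0)
    (a b a' : Fin m ⊕ Fin m → F) (ha : a ∈ A) (ha0 : a ≠ 0) (ha' : a' ∈ A) (ha'0 : a' ≠ 0)
    (hb : ∀ u ∈ A, sympForm m F b u = 0) (hab : GoodP M (a + b)) : GoodP M (a' + b) := by
  by_cases haa : sympForm m F a a' = 0
  · obtain ⟨c, hc, hac, hca'⟩ : ∃ c ∈ A, sympForm m F a c ≠ 0 ∧ sympForm m F c a' ≠ 0 := by
      obtain ⟨p, hp, hap⟩ := hnd a ha ha0
      obtain ⟨r, hr, har⟩ := hnd a' ha' ha'0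
      by_cases h1 : sympForm m F a' p = 0
      · by_cases h2 : sympForm m F a r = 0
        · refine ⟨p + r, A.add_mem hp hr, ?_, ?_⟩
          · rw [sympForm_add_right, h2, add_zero]; exact hap
          · rw [sympForm_swap, sympForm_add_right, h1, zero_add]; exact neg_ne_zero.2 har
        · exact ⟨r, hr, h2, by rw [sympForm_swap]; exact neg_ne_zero.2 har⟩
      · exact ⟨p, hp, hap, by rw [sympForm_swap]; exact neg_ne_zero.2 h1⟩
    exact sp_move_step A hA c b a' hc ha' hb (sp_move_step A hA a b c ha hc hb hab hac) hca'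
  · exact sp_move_step A hA a b a' ha ha' hb hab haa

theorem sympB_nondeg : (sympB m F : LinearMap.BilinForm F (Fin m ⊕ Fin m → F)).Nondegenerate :=
  ⟨sympB_sepLeft, sympB_sepRight⟩

theorem sympB_isRefl : LinearMap.BilinForm.IsRefl (sympB m F : LinearMap.BilinForm F (Fin m ⊕ Fin m → F)) := by
  intro x y h
  rw [sympB_apply] at h ⊢
  rw [sympForm_swap, h, neg_zero]

theorem sp_nondeg_max (W : Submodule F (Fin m ⊕ Fin m → F)) (hW0 : W ≠ ⊥)
    (hW : Geo.IsNondegenerateOn (sympForm m F) W) (hdim : finrank F W < m)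
    (M : Subgroup (GL (Fin m ⊕ Fin m) F))
    (hM : Geo.subspaceStabilizer W ⊓ spGL m F ≤ M) (hMK : M ≤ spGL m F)
    (hns : ¬ M ≤ Geo.subspaceStabilizer W) : spGL m F ≤ M := by
  set O := LinearMap.BilinForm.orthogonal (sympB m F : LinearMap.BilinForm F (Fin m ⊕ Fin m → F)) W with hO
  have hOmem : ∀ z, z ∈ O ↔ ∀ w ∈ W, sympForm m F w z = 0 := fun z => LinearMap.BilinForm.mem_orthogonal_iff
  have hres : (LinearMap.BilinForm.restrict (sympB m F : LinearMap.BilinForm F (Fin m ⊕ Fin m → F)) W).Nondegenerate := by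
    constructor
    · intro x hx
      by_contra h0
      obtain ⟨-, y, hy, hxy⟩ := hW x.1 x.2 (fun h => h0 (Subtype.ext h))
      exact hxy (hx ⟨y, hy⟩)
    · intro x hx
      by_contra h0
      obtain ⟨⟨y, hy, hxy⟩, -⟩ := hW x.1 x.2 (fun h => h0 (Subtype.ext h))
      exact hxy (hx ⟨y, hy⟩)
  have hcompl := LinearMap.BilinForm.isCompl_orthogonal_of_restrict_nondegenerate sympB_isRefl hres
  have hdec : ∀ v, ∃ a ∈ W, ∃ b ∈ O, v = a + b := by
    intro v
    have : v ∈ W ⊔ O := by rw [hcompl.sup_eq_top]; trivial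
    obtain ⟨a, ha, b, hb, rfl⟩ := Submodule.mem_sup.1 this
    exact ⟨a, ha, b, hb, rfl⟩
  have hfr : finrank F O = 2 * m - finrank F W := by
    have := LinearMap.BilinForm.finrank_orthogonal (sympB_nondeg (m := m) (F := F)) W
    rw [finrank_fintype_fun_eq_card] at this
    simp only [Fintype.card_sum, Fintype.card_fin] at this
    rw [hO, this]; omega
  have hWg : ∀ u ∈ W, GoodP M u := by
    intro u hu c
    apply hM
    refine ⟨mem_stab_of_forall W _ (fun w hw => ?_), tvSp_mem _ _⟩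
    rw [tvSp_mulVec]
    exact W.add_mem hw (W.smul_mem _ hu)
  have hOg : ∀ z ∈ O, GoodP M z := by
    intro z hz c
    apply hM
    refine ⟨mem_stab_of_forall W _ (fun w hw => ?_), tvSp_mem _ _⟩
    rw [tvSp_mulVec, (hOmem z).1 hz w hw, mul_zero, zero_smul, add_zero]
    exact hw
  have hWnd : ∀ w ∈ W, w ≠ 0 → ∃ x ∈ W, sympForm m F w x ≠ 0 := fun w hw hw0 => (hW w hw hw0).2
  have hOnd : ∀ z ∈ O, z ≠ 0 → ∃ x ∈ O, sympForm m F z x ≠ 0 := by
    intro z hz hz0
    obtain ⟨y, hy⟩ := symp_exists_ne z hz0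
    obtain ⟨a, ha, b, hb, rfl⟩ := hdec y
    refine ⟨b, hb, ?_⟩
    rw [sympForm_add_right, sympForm_swap z a, (hOmem z).1 hz a ha, neg_zero, zero_add] at hy
    exact hy
  -- a good vector with both components non-zero
  obtain ⟨a, ha, b, hb, ha0, hb0, hab⟩ : ∃ a ∈ W, ∃ b ∈ O, a ≠ 0 ∧ b ≠ 0 ∧ GoodP M (a + b) := by
    by_contra hcon
    push Not at hcon
    have hor : ∀ s, GoodP M s → s ∈ W ∨ s ∈ O := by
      intro s hs
      obtain ⟨a, ha, b, hb, rfl⟩ := hdec s
      by_cases ha0 : a = 0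
      · right; rw [ha0, zero_add]; exact hb
      · by_cases hb0 : b = 0
        · left; rw [hb0, add_zero]; exact ha
        · exact absurd hs (hcon a ha b hb ha0 hb0)
    obtain ⟨x, hxM, hxW⟩ := SetLike.not_le_iff_exists.1 hns
    have : ¬ ∀ w ∈ W, (x : Matrix (Fin m ⊕ Fin m) (Fin m ⊕ Fin m) F) *ᵥ w ∈ W :=
      fun hc => hxW (mem_stab_of_forall W x hc)
    push Not at this
    obtain ⟨w, hw, hxw⟩ := this
    have hxs := hMK hxM
    have hxwO : (x : Matrix (Fin m ⊕ Fin m) (Fin m ⊕ Fin m) F) *ᵥ w ∈ O :=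
      (hor _ ((hWg w hw).conj x hxM hxs)).resolve_left hxw
    have hWO : ∀ w₂ ∈ W, (x : Matrix (Fin m ⊕ Fin m) (Fin m ⊕ Fin m) F) *ᵥ w₂ ∈ O := by
      intro w₂ hw₂
      rcases hor _ ((hWg w₂ hw₂).conj x hxM hxs) with h1 | h1
      · rcases hor _ ((hWg _ (W.add_mem hw hw₂)).conj x hxM hxs) with h2 | h2
        · rw [Matrix.mulVec_add] at h2
          exact absurd ((W.add_mem_iff_left h1).1 h2) hxw
        · rw [Matrix.mulVec_add] at h2
          exact (O.add_mem_iff_right hxwO).1 h2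
      · exact h1
    by_cases hOO : ∀ z ∈ O, (x : Matrix (Fin m ⊕ Fin m) (Fin m ⊕ Fin m) F) *ᵥ z ∈ O
    · -- then everything is in `O`
      have hall : ∀ v, v ∈ O := by
        intro v
        obtain ⟨a, ha, b, hb, hv⟩ := hdec (((x⁻¹ : GL (Fin m ⊕ Fin m) F) :
          Matrix (Fin m ⊕ Fin m) (Fin m ⊕ Fin m) F) *ᵥ v)
        have : v = (x : Matrix (Fin m ⊕ Fin m) (Fin m ⊕ Fin m) F) *ᵥ (a + b) := by
          rw [← hv, gl_mulVec_inv]
        rw [this, Matrix.mulVec_add]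
        exact O.add_mem (hWO a ha) (hOO b hb)
      obtain ⟨w₀, hw₀, hw₀0⟩ := Submodule.exists_mem_ne_zero_of_ne_bot hW0
      obtain ⟨y, hy, hwy⟩ := hWnd w₀ hw₀ hw₀0
      exact hwy ((hOmem y).1 (hall y) w₀ hw₀)
    · push Not at hOO
      obtain ⟨z, hz, hxz⟩ := hOO
      have hxzW : (x : Matrix (Fin m ⊕ Fin m) (Fin m ⊕ Fin m) F) *ᵥ z ∈ W :=
        (hor _ ((hOg z hz).conj x hxM hxs)).resolve_right hxz
      have hOW : ∀ z₂ ∈ O, (x : Matrix (Fin m ⊕ Fin m) (Fin m ⊕ Fin m) F) *ᵥ z₂ ∈ W := by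
        intro z₂ hz₂
        rcases hor _ ((hOg z₂ hz₂).conj x hxM hxs) with h1 | h1
        · exact h1
        · rcases hor _ ((hOg _ (O.add_mem hz hz₂)).conj x hxM hxs) with h2 | h2
          · rw [Matrix.mulVec_add] at h2
            exact (W.add_mem_iff_right hxzW).1 h2
          · rw [Matrix.mulVec_add] at h2
            exact absurd ((O.add_mem_iff_left h1).1 h2) hxz
      have h1 : O.map (Matrix.mulVecLin (x : Matrix (Fin m ⊕ Fin m) (Fin m ⊕ Fin m) F)) ≤ W := by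
        rintro _ ⟨z₂, hz₂, rfl⟩
        exact hOW z₂ hz₂
      have h2 := Submodule.finrank_mono h1
      rw [← (Submodule.equivMapOfInjective _ (gl_mulVec_injective x) O).finrank_eq, hfr] at h2
      omega
  apply spGL_le_of_good
  intro v
  obtain ⟨a', ha', b', hb', rfl⟩ := hdec v
  by_cases ha'0 : a' = 0
  · rw [ha'0, zero_add]; exact hOg b' hb'
  by_cases hb'0 : b' = 0
  · rw [hb'0, add_zero]; exact hWg a' ha'
  have h1 : GoodP M (a' + b) := sp_move W hWg hWnd a b a' ha ha0 ha' ha'0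
    (fun u hu => by rw [sympForm_swap, (hOmem b).1 hb u hu, neg_zero]) hab
  rw [add_comm] at h1
  have h2 : GoodP M (b' + a') := sp_move O hOg hOnd b a' b' hb hb0 hb' hb'0
    (fun u hu => (hOmem u).1 hu a' ha') h1
  rwa [add_comm] at h2

theorem sp_nondeg_isMaximalIn (W : Submodule F (Fin m ⊕ Fin m → F)) (hW0 : W ≠ ⊥)
    (hW : Geo.IsNondegenerateOn (sympForm m F) W) (hdim : finrank F W < m) :
    Geo.IsMaximalIn (spGL m F) (Geo.subspaceStabilizer W ⊓ spGL m F) := by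
  constructor
  · apply lt_of_le_of_ne inf_le_right
    intro he
    -- a vector outside `W`, not orthogonal to some `w ∈ W`
    obtain ⟨w, hw, hw0⟩ := Submodule.exists_mem_ne_zero_of_ne_bot hW0
    obtain ⟨y₁, hy₁, hwy₁⟩ := (hW w hw hw0).2
    obtain ⟨v, hv⟩ : ∃ v, v ∉ W := by
      by_contra hc
      push Not at hc
      have : W = ⊤ := eq_top_iff.2 (fun x _ => hc x)
      rw [this, finrank_top, finrank_fintype_fun_eq_card] at hdim
      simp at hdim
    obtain ⟨y, hy, hwy⟩ : ∃ y, y ∉ W ∧ sympForm m F w y ≠ 0 := by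
      by_cases h : sympForm m F w v = 0
      · refine ⟨v + y₁, fun hc => hv ((W.add_mem_iff_left hy₁).1 hc), ?_⟩
        rw [sympForm_add_right, h, zero_add]; exact hwy₁
      · exact ⟨v, hv, h⟩
    have h1 : tvSp y 1 ∈ spGL m F := tvSp_mem _ _
    rw [← he] at h1
    have h2 := ((mem_stab_iff' W _).1 h1.1 w).1 hw
    rw [tvSp_mulVec, one_mul] at h2
    exact hy ((W.smul_mem_iff hwy).1 ((W.add_mem_iff_right hw).1 h2))
  · intro M hM1 hM2
    by_cases hall : M ≤ Geo.subspaceStabilizer W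
    · left
      exact le_antisymm (le_inf hall hM2) hM1
    · right
      exact le_antisymm hM2 (sp_nondeg_max W hW0 hW hdim M hM1 hM2 hall)

end Cfsg.Agent.Lib.Helper15
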