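import Mathlib
import Cfsg.Agent.Lib.Helper15.ParMax4
import Cfsg.Agent.Lib.Helper15.Parity

set_option autoImplicit false

namespace Cfsg.Agent.Lib.Helper15

open Module Matrix Cfsg Cfsg.Agent.Lib.Helper5

variable {F : Type*} [Field F] {m : ℕ}

/-- one-sided nondegeneracy on a subspace -/
def NDOn (A : Submodule F (Fin m ⊕ Fin m → F)) : Prop :=
  ∀ w ∈ A, w ≠ 0 → ∃ x ∈ A, sympForm m F w x ≠ 0

/-- the part of `A` orthogonal to `a`, `b` -/
noncomputable def cutAB (A : Submodule F (Fin m ⊕ Fin m → F)) (a b : Fin m ⊕ Fin m → F) :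
    Submodule F (Fin m ⊕ Fin m → F) :=
  (A ⊓ LinearMap.ker (sympB m F a)) ⊓ LinearMap.ker (sympB m F b)

theorem mem_cutAB (A : Submodule F (Fin m ⊕ Fin m → F)) (a b x : Fin m ⊕ Fin m → F) :
    x ∈ cutAB A a b ↔ x ∈ A ∧ sympForm m F a x = 0 ∧ sympForm m F b x = 0 := by
  unfold cutAB
  simp only [Submodule.mem_inf, LinearMap.mem_ker, sympB_apply, and_assoc]

theorem finrank_cutAB (A : Submodule F (Fin m ⊕ Fin m → F)) (a b : Fin m ⊕ Fin m → F) (ha : a ∈ A)
    (hb : b ∈ A) (hab : sympForm m F a b = 1) : finrank F (cutAB A a b) + 2 = finrank F A := by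
  have h1 := finrank_inf_ker A (sympB m F a) (fun h => by
    have : sympForm m F a b = 0 := h hb
    rw [hab] at this; exact one_ne_zero this)
  have h2 := finrank_inf_ker (A ⊓ LinearMap.ker (sympB m F a)) (sympB m F b) (fun h => by
    have : sympForm m F b a = 0 := h ⟨ha, sympForm_self a⟩
    rw [sympForm_swap, hab] at this
    simp at this)
  unfold cutAB
  omega

theorem cutAB_decomp (A : Submodule F (Fin m ⊕ Fin m → F)) (a b : Fin m ⊕ Fin m → F) (ha : a ∈ A)
    (hb : b ∈ A) (hab : sympForm m F a b = 1) (y : Fin m ⊕ Fin m → F) (hy : y ∈ A) :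
    y + sympForm m F b y • a - sympForm m F a y • b ∈ cutAB A a b := by
  rw [mem_cutAB]
  refine ⟨A.sub_mem (A.add_mem hy (A.smul_mem _ ha)) (A.smul_mem _ hb), ?_, ?_⟩
  · rw [sympForm_sub_right, sympForm_add_right, sympForm_smul_right, sympForm_smul_right, sympForm_self, hab]
    ring
  · rw [sympForm_sub_right, sympForm_add_right, sympForm_smul_right, sympForm_smul_right, sympForm_self,
      sympForm_swap b a, hab]
    ring

theorem cutAB_nd (A : Submodule F (Fin m ⊕ Fin m → F)) (hA : NDOn A) (a b : Fin m ⊕ Fin m → F) (ha : a ∈ A)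
    (hb : b ∈ A) (hab : sympForm m F a b = 1) : NDOn (cutAB A a b) := by
  intro x hx hx0
  obtain ⟨hxA, hax, hbx⟩ := (mem_cutAB A a b x).1 hx
  obtain ⟨y, hy, hxy⟩ := hA x hxA hx0
  refine ⟨_, cutAB_decomp A a b ha hb hab y hy, ?_⟩
  rw [sympForm_sub_right, sympForm_add_right, sympForm_smul_right, sympForm_smul_right, sympForm_swap x a, hax,
    sympForm_swap x b, hbx]
  simpa using hxy

theorem exists_pair_of_nd (A : Submodule F (Fin m ⊕ Fin m → F)) (hA : NDOn A) (h0 : A ≠ ⊥) :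
    ∃ a ∈ A, ∃ b ∈ A, sympForm m F a b = 1 := by
  obtain ⟨a, ha, ha0⟩ := Submodule.exists_mem_ne_zero_of_ne_bot h0
  obtain ⟨b, hb, hab⟩ := hA a ha ha0
  exact ⟨a, ha, (sympForm m F a b)⁻¹ • b, A.smul_mem _ hb, by rw [sympForm_smul_right, inv_mul_cancel₀ hab]⟩

/-- nondegenerate subspaces of the same dimension orthogonal to `H` are conjugate under the
pointwise stabiliser of `H` -/
theorem sp_map_nondeg : ∀ (d : ℕ) (H A A' : Submodule F (Fin m ⊕ Fin m → F)), finrank F A = d →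
    finrank F A' = d → NDOn A → NDOn A' → (∀ h ∈ H, ∀ a ∈ A, sympForm m F h a = 0) →
    (∀ h ∈ H, ∀ a ∈ A', sympForm m F h a = 0) →
    ∃ g : Matrix.symplecticGroup (Fin m) F, (∀ h ∈ H, g.1 *ᵥ h = h) ∧ ∀ a ∈ A, g.1 *ᵥ a ∈ A' := by
  intro d
  induction d using Nat.strong_induction_on with
  | _ d ih =>
    intro H A A' hd hd' hA hA' hHA hHA'
    by_cases h0 : A = ⊥
    · refine ⟨1, fun h _ => by simp, fun a ha => ?_⟩
      rw [h0, Submodule.mem_bot] at ha
      rw [ha]; simp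
    have h0' : A' ≠ ⊥ := by
      intro h
      rw [h, finrank_bot] at hd'
      rw [← hd'] at hd
      exact h0 (Submodule.finrank_eq_zero.1 hd)
    obtain ⟨a, ha, b, hb, hab⟩ := exists_pair_of_nd A hA h0
    obtain ⟨a', ha', b', hb', hab'⟩ := exists_pair_of_nd A' hA' h0'
    obtain ⟨g₁, -, hg₁H, hg₁a⟩ := tv_key H a a'
      (fun h => by rw [hHA a h b hb] at hab; exact zero_ne_one hab)
      (fun h => by rw [hHA' a' h b' hb'] at hab'; exact zero_ne_one hab')
      (fun h hh => by rw [sympForm_sub_right, hHA' h hh a' ha', hHA h hh a ha, sub_zero])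
    set b₁ := g₁.1 *ᵥ b with hb₁
    have hab₁ : sympForm m F a' b₁ = 1 := by rw [← hg₁a, hb₁, symp_preserves, hab]
    have hHb₁ : ∀ h ∈ H, sympForm m F h b₁ = 0 := by
      intro h hh
      rw [← hg₁H h hh, hb₁, symp_preserves, hHA h hh b hb]
    have hnot : ∀ y, sympForm m F a' y = 1 → y ∉ H ⊔ Submodule.span F {a'} := by
      intro y hy hc
      obtain ⟨h, hh, z, hz, rfl⟩ := Submodule.mem_sup.1 hc
      obtain ⟨c, rfl⟩ := Submodule.mem_span_singleton.1 hz
      rw [sympForm_add_right, sympForm_smul_right, sympForm_self, sympForm_swap, hHA' h hh a' ha'] at hy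
      simp at hy
    obtain ⟨g₂, -, hg₂H, hg₂b⟩ := tv_key (H ⊔ Submodule.span F {a'}) b₁ b' (hnot _ hab₁) (hnot _ hab')
      (fun x hx => by
        obtain ⟨h, hh, z, hz, rfl⟩ := Submodule.mem_sup.1 hx
        obtain ⟨c, rfl⟩ := Submodule.mem_span_singleton.1 hz
        rw [sympForm_add_left, sympForm_smul_left, sympForm_sub_right, sympForm_sub_right, hHA' h hh b' hb',
          hHb₁ h hh, hab', hab₁]
        ring)
    have hg₂a : g₂.1 *ᵥ a' = a' := hg₂H a' (Submodule.mem_sup_right (Submodule.mem_span_singleton_self _))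
    set g := g₂ * g₁ with hg
    have hgv : ∀ x, g.1 *ᵥ x = g₂.1 *ᵥ (g₁.1 *ᵥ x) := by
      intro x
      rw [Matrix.mulVec_mulVec]; rfl
    have hgH : ∀ h ∈ H, g.1 *ᵥ h = h := by
      intro h hh
      rw [hgv, hg₁H h hh, hg₂H h (Submodule.mem_sup_left hh)]
    have hga : g.1 *ᵥ a = a' := by rw [hgv, hg₁a, hg₂a]
    have hgb : g.1 *ᵥ b = b' := by rw [hgv, ← hb₁, hg₂b]
    have hginj : Function.Injective (Matrix.mulVecLin g.1) := by
      intro x y hxy
      simp only [Matrix.mulVecLin_apply] at hxy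
      rw [← symp_inv_mulVec g x, hxy, symp_inv_mulVec]
    have hf1 := finrank_cutAB A a b ha hb hab
    have hf2 := finrank_cutAB A' a' b' ha' hb' hab'
    obtain ⟨g₃, hg₃H, hg₃A⟩ := ih (d - 2) (by omega) ((H ⊔ Submodule.span F {a'}) ⊔ Submodule.span F {b'})
      ((cutAB A a b).map (Matrix.mulVecLin g.1)) (cutAB A' a' b')
      (by rw [← (Submodule.equivMapOfInjective _ hginj (cutAB A a b)).finrank_eq]; omega) (by omega)
      (by
        rintro _ ⟨x, hx, rfl⟩ hx0
        have hx0' : x ≠ 0 := by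
          rintro rfl
          simp at hx0
        obtain ⟨y, hy, hxy⟩ := cutAB_nd A hA a b ha hb hab x hx hx0'
        refine ⟨_, ⟨y, hy, rfl⟩, ?_⟩
        simp only [Matrix.mulVecLin_apply]
        rw [symp_preserves]; exact hxy)
      (cutAB_nd A' hA' a' b' ha' hb' hab')
      (by
        rintro x hx _ ⟨y, hy, rfl⟩
        obtain ⟨hyA, hay, hby⟩ := (mem_cutAB A a b y).1 hy
        obtain ⟨x₁, hx₁, z, hz, rfl⟩ := Submodule.mem_sup.1 hx
        obtain ⟨h, hh, z', hz', rfl⟩ := Submodule.mem_sup.1 hx₁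
        obtain ⟨c, rfl⟩ := Submodule.mem_span_singleton.1 hz
        obtain ⟨c', rfl⟩ := Submodule.mem_span_singleton.1 hz'
        simp only [Matrix.mulVecLin_apply]
        rw [sympForm_add_left, sympForm_add_left, sympForm_smul_left, sympForm_smul_left, ← hga, ← hgb,
          symp_preserves, symp_preserves, hay, hby]
        conv_lhs => rw [← hgH h hh]
        rw [symp_preserves, hHA h hh y hyA]
        ring)
      (by
        rintro x hx y hy
        obtain ⟨hyA, hay, hby⟩ := (mem_cutAB A' a' b' y).1 hy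
        obtain ⟨x₁, hx₁, z, hz, rfl⟩ := Submodule.mem_sup.1 hx
        obtain ⟨h, hh, z', hz', rfl⟩ := Submodule.mem_sup.1 hx₁
        obtain ⟨c, rfl⟩ := Submodule.mem_span_singleton.1 hz
        obtain ⟨c', rfl⟩ := Submodule.mem_span_singleton.1 hz'
        rw [sympForm_add_left, sympForm_add_left, sympForm_smul_left, sympForm_smul_left, hay, hby,
          hHA' h hh y hyA]
        ring)
    refine ⟨g₃ * g, fun h hh => ?_, fun x hx => ?_⟩
    · have : (g₃ * g).1 *ᵥ h = g₃.1 *ᵥ (g.1 *ᵥ h) := by rw [Matrix.mulVec_mulVec]; rfl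
      rw [this, hgH h hh]
      exact hg₃H h (Submodule.mem_sup_left (Submodule.mem_sup_left hh))
    · have e0 : (g₃ * g).1 *ᵥ x = g₃.1 *ᵥ (g.1 *ᵥ x) := by rw [Matrix.mulVec_mulVec]; rfl
      obtain ⟨x₂, hx₂, α, β, e1⟩ : ∃ x₂ ∈ cutAB A a b, ∃ α β : F, x = x₂ + α • a + β • b :=
        ⟨_, cutAB_decomp A a b ha hb hab x hx, -sympForm m F b x, sympForm m F a x, by rw [neg_smul]; abel⟩
      have e2 : g₃.1 *ᵥ (g.1 *ᵥ x) = g₃.1 *ᵥ (g.1 *ᵥ x₂) + α • a' + β • b' := by
        rw [e1]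
        simp only [Matrix.mulVec_add, Matrix.mulVec_smul]
        rw [hga, hgb,
          hg₃H a' (Submodule.mem_sup_left (Submodule.mem_sup_right (Submodule.mem_span_singleton_self _))),
          hg₃H b' (Submodule.mem_sup_right (Submodule.mem_span_singleton_self _))]
      rw [e0, e2]
      refine A'.add_mem (A'.add_mem ?_ (A'.smul_mem _ ha')) (A'.smul_mem _ hb')
      exact ((mem_cutAB A' a' b' _).1 (hg₃A _ ⟨_, hx₂, rfl⟩)).1

end Cfsg.Agent.Lib.Helper15
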