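import Mathlib
import Cfsg.Agent.Lib.Helper15.ParMax7

set_option autoImplicit false

namespace Cfsg.Agent.Lib.Helper15

open Module Matrix Cfsg Cfsg.Agent.Lib.Helper5

section gen
variable {F : Type*} [Field F] {ι : Type} [Fintype ι] [DecidableEq ι]

theorem mem_decompStab_of_forall {t : ℕ} (D : Fin t → Submodule F (ι → F)) (k : ℕ)
    (hk : ∀ i, finrank F (D i) = k) (g : GL ι F) (σ : Equiv.Perm (Fin t))
    (h : ∀ l, ∀ x ∈ D l, (g : Matrix ι ι F) *ᵥ x ∈ D (σ l)) : g ∈ Geo.decompositionStabilizer D := by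
  refine ⟨σ, fun l => ?_⟩
  apply Submodule.eq_of_le_of_finrank_eq
  · rintro _ ⟨x, hx, rfl⟩
    rw [Matrix.toLin'_apply]
    exact h l x hx
  · have hinj : Function.Injective (Matrix.toLin' (g : Matrix ι ι F)) := gl_mulVec_injective g
    rw [← (Submodule.equivMapOfInjective _ hinj (D l)).finrank_eq, hk, hk]

end gen

variable {F : Type*} [Field F] {m : ℕ} {t k : ℕ} {D : Fin t → Submodule F (Fin m ⊕ Fin m → F)}

theorem dec_orth (hD : Geo.IsNondegenerateMDecomposition (sympForm m F) k D) {i j : Fin t} (hij : i ≠ j)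
    {x y : Fin m ⊕ Fin m → F} (hx : x ∈ D i) (hy : y ∈ D j) : sympForm m F x y = 0 :=
  hD.orthogonal i j hij x hx y hy

theorem dec_nd (hD : Geo.IsNondegenerateMDecomposition (sympForm m F) k D) (i : Fin t) : NDOn (D i) :=
  fun w hw hw0 => (hD.nondegenerate i w hw hw0).2

theorem dec_zero_of_perp (hD : Geo.IsNondegenerateMDecomposition (sympForm m F) k D) (c : Fin m ⊕ Fin m → F)
    (h : ∀ l, ∀ e ∈ D l, sympForm m F c e = 0) : c = 0 := by
  apply sympB_sepLeft c
  intro x
  have h1 : iSup D ≤ LinearMap.ker (sympB m F c) := iSup_le (fun l e he => h l e he)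
  rw [hD.decomp.iSup_eq_top] at h1
  exact h1 trivial

/-- splitting off the `i`-th component -/
theorem dec_split (hD : Geo.IsNondegenerateMDecomposition (sympForm m F) k D) (i : Fin t)
    (y : Fin m ⊕ Fin m → F) : ∃ a ∈ D i, ∃ c, (∀ e ∈ D i, sympForm m F c e = 0) ∧ y = a + c := by
  set O := LinearMap.BilinForm.orthogonal (sympB m F : LinearMap.BilinForm F (Fin m ⊕ Fin m → F)) (D i) with hO
  have h1 : iSup D ≤ D i ⊔ O := by
    apply iSup_le
    intro l
    by_cases hl : l = i
    · rw [hl]; exact le_sup_left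
    · refine le_trans ?_ le_sup_right
      intro x hx
      rw [hO, LinearMap.BilinForm.mem_orthogonal_iff]
      intro e he
      exact dec_orth hD (Ne.symm hl) he hx
  rw [hD.decomp.iSup_eq_top] at h1
  obtain ⟨a, ha, c, hc, rfl⟩ := Submodule.mem_sup.1 (h1 (Submodule.mem_top (x := y)))
  refine ⟨a, ha, c, fun e he => ?_, rfl⟩
  rw [sympForm_swap]
  have : sympForm m F e c = 0 := (LinearMap.BilinForm.mem_orthogonal_iff.1 hc) e he
  rw [this, neg_zero]

theorem dec_mem_of_perp (hD : Geo.IsNondegenerateMDecomposition (sympForm m F) k D) (i : Fin t)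
    (y : Fin m ⊕ Fin m → F) (h : ∀ l, l ≠ i → ∀ e ∈ D l, sympForm m F y e = 0) : y ∈ D i := by
  obtain ⟨a, ha, c, hc, rfl⟩ := dec_split hD i y
  have : c = 0 := by
    apply dec_zero_of_perp hD
    intro l e he
    by_cases hl : l = i
    · subst hl; exact hc e he
    · have h1 := h l hl e he
      rw [sympForm_add_left, dec_orth hD (Ne.symm hl) ha he, zero_add] at h1
      exact h1
  rw [this, add_zero]; exact ha

theorem dec_exists_swap (hD : Geo.IsNondegenerateMDecomposition (sympForm m F) k D) (i j : Fin t) :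
    ∃ g : GL (Fin m ⊕ Fin m) F, g ∈ spGL m F ∧ g ∈ Geo.decompositionStabilizer D ∧
      ∀ l, ∀ x ∈ D l, (g : Matrix (Fin m ⊕ Fin m) (Fin m ⊕ Fin m) F) *ᵥ x ∈ D (Equiv.swap i j l) := by
  by_cases hij : i = j
  · subst hij
    refine ⟨1, Subgroup.one_mem _, Subgroup.one_mem _, fun l x hx => ?_⟩
    simpa using hx
  set H : Submodule F (Fin m ⊕ Fin m → F) := ⨆ l, ⨆ (_ : l ≠ i ∧ l ≠ j), D l with hH
  have hHperp : ∀ p, (p = i ∨ p = j) → ∀ h ∈ H, ∀ a ∈ D p, sympForm m F h a = 0 := by
    intro p hp h hh a ha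
    have h1 : H ≤ LinearMap.BilinForm.orthogonal (sympB m F : LinearMap.BilinForm F (Fin m ⊕ Fin m → F)) (D p) := by
      apply iSup_le
      intro l
      apply iSup_le
      intro hl x hx
      rw [LinearMap.BilinForm.mem_orthogonal_iff]
      intro e he
      have hpl : p ≠ l := by
        rcases hp with rfl | rfl
        · exact Ne.symm hl.1
        · exact Ne.symm hl.2
      exact dec_orth hD hpl he hx
    have : sympForm m F a h = 0 := (LinearMap.BilinForm.mem_orthogonal_iff.1 (h1 hh)) a ha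
    rw [sympForm_swap, this, neg_zero]
  obtain ⟨g, hgH, hgi⟩ := sp_map_nondeg k H (D i) (D j) (hD.decomp.finrank_eq i) (hD.decomp.finrank_eq j)
    (dec_nd hD i) (dec_nd hD j) (hHperp i (Or.inl rfl)) (hHperp j (Or.inr rfl))
  have hginj : Function.Injective (Matrix.mulVecLin g.1) := by
    intro x y hxy
    simp only [Matrix.mulVecLin_apply] at hxy
    rw [← symp_inv_mulVec g x, hxy, symp_inv_mulVec]
  have hmap : (D i).map (Matrix.mulVecLin g.1) = D j := by
    apply Submodule.eq_of_le_of_finrank_eq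
    · rintro _ ⟨x, hx, rfl⟩
      exact hgi x hx
    · rw [← (Submodule.equivMapOfInjective _ hginj (D i)).finrank_eq, hD.decomp.finrank_eq, hD.decomp.finrank_eq]
  have hfix : ∀ l, l ≠ i → l ≠ j → ∀ x ∈ D l, g.1 *ᵥ x = x := by
    intro l hli hlj x hx
    apply hgH
    exact Submodule.mem_iSup_of_mem l (Submodule.mem_iSup_of_mem ⟨hli, hlj⟩ hx)
  have hall : ∀ l, ∀ x ∈ D l, ((spHom m F g : GL (Fin m ⊕ Fin m) F) : Matrix (Fin m ⊕ Fin m) (Fin m ⊕ Fin m) F) *ᵥ x ∈
      D (Equiv.swap i j l) := by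
    intro l x hx
    rw [coe_spHom]
    by_cases hli : l = i
    · subst hli
      rw [Equiv.swap_apply_left]; exact hgi x hx
    by_cases hlj : l = j
    · subst hlj
      rw [Equiv.swap_apply_right]
      apply dec_mem_of_perp hD
      intro p hp e he
      by_cases hpl : p = l
      · subst hpl
        rw [← hmap] at he
        obtain ⟨e', he', rfl⟩ := he
        simp only [Matrix.mulVecLin_apply]
        rw [symp_preserves]
        exact dec_orth hD hli hx he'
      · rw [← hfix p hp hpl e he, symp_preserves]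
        exact dec_orth hD (Ne.symm hpl) hx he
    · rw [Equiv.swap_apply_of_ne_of_ne hli hlj, hfix l hli hlj x hx]; exact hx
  exact ⟨spHom m F g, spHom_mem g, mem_decompStab_of_forall D k hD.decomp.finrank_eq _ _ hall, hall⟩

end Cfsg.Agent.Lib.Helper15
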