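import Mathlib
import Cfsg.Agent.Lib.Helper15.ParMax3
import Cfsg.Agent.Lib.Helper15.ParMax1

set_option autoImplicit false

namespace Cfsg.Agent.Lib.Helper15

open Module Matrix Cfsg QuadraticMap Cfsg.Agent.Lib.Helper5

section gen
variable {F : Type*} [Field F] {ι : Type} [Fintype ι] [DecidableEq ι]

theorem exists_iso_sing (Q : QuadraticForm F (ι → F)) (hQ : (polarBilin Q).Nondegenerate) (y y' : ι → F)
    (hy0 : y ≠ 0) (hy'0 : y' ≠ 0) (hy : Q y = 0) (hy' : Q y' = 0) :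
    ∃ g : isometryGroup F Q, toEnd Q g y = y' := by
  obtain ⟨τ, hτ, hτv⟩ := witt_family Q hQ 1 ![y] ![y'] (LinearIndependent.of_subsingleton 0 (by simpa using hy0))
    (LinearIndependent.of_subsingleton 0 (by simpa using hy'0)) (by intro i; fin_cases i; simp [hy, hy'])
    (by intro i j; fin_cases i; fin_cases j; simp [polar_self, hy, hy'])
  refine ⟨ofEnd Q hQ τ hτ.isIso, ?_⟩
  rw [toEnd_ofEnd]
  exact hτv 0

end gen

variable {F : Type*} [Field F] {m : ℕ}

theorem tvSp_conj (g : GL (Fin m ⊕ Fin m) F) (hgs : g ∈ spGL m F) (u : Fin m ⊕ Fin m → F) (c : F) :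
    tvSp ((g : Matrix (Fin m ⊕ Fin m) (Fin m ⊕ Fin m) F) *ᵥ u) c = g * tvSp u c * g⁻¹ := by
  apply gl_ext_mulVec
  intro x
  rw [Units.val_mul, Units.val_mul, ← Matrix.mulVec_mulVec, ← Matrix.mulVec_mulVec, tvSp_mulVec, tvSp_mulVec,
    Matrix.mulVec_add, Matrix.mulVec_smul, gl_mulVec_inv]
  congr 3
  rw [← (mem_spGL_iff g).1 hgs (((g⁻¹ : GL (Fin m ⊕ Fin m) F) : Matrix (Fin m ⊕ Fin m) (Fin m ⊕ Fin m) F) *ᵥ x) u,
    gl_mulVec_inv]

theorem tvSp_smul (u : Fin m ⊕ Fin m → F) (a c : F) : tvSp (a • u) c = tvSp u (c * a * a) := by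
  apply gl_ext_mulVec
  intro x
  rw [tvSp_mulVec, tvSp_mulVec, sympForm_smul_right, smul_smul]
  congr 2
  ring

theorem tvSp_zero (u : Fin m ⊕ Fin m → F) : tvSp u 0 = 1 := by
  apply gl_ext_mulVec
  intro x
  rw [tvSp_mulVec]; simp

theorem orth_max_in_sp [Fintype F] (hm : 3 ≤ m) (heven : ¬ Odd (Fintype.card F))
    (Q : QuadraticForm F (Fin m ⊕ Fin m → F)) (hQ : (polarBilin Q).Nondegenerate)
    (hpol : ∀ u v, polar Q u v = sympForm m F u v) (M : Subgroup (GL (Fin m ⊕ Fin m) F))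
    (hM : Geo.quadSimilarityGroup Q ⊓ spGL m F ≤ M) (hMK : M ≤ spGL m F)
    (hns : ¬ M ≤ Geo.quadSimilarityGroup Q) : spGL m F ≤ M := by
  have hchar : ringChar F = 2 := by
    rw [FiniteField.even_card_iff_char_two]
    rcases Nat.even_or_odd (Fintype.card F) with h | h
    · exact Nat.even_iff.1 h
    · exact absurd h heven
  have : CharP F 2 := ringChar.of_eq hchar
  have h2 : (2 : F) = 0 := CharTwo.two_eq_zero
  have hfr : 5 ≤ finrank F (Fin m ⊕ Fin m → F) := by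
    rw [finrank_fintype_fun_eq_card]; simp; omega
  obtain ⟨e, f, -, -, hef, -⟩ := exists_two_hpairs Q hQ hfr
  have hsum : ∀ x, ∃ d₁ d₂ d₃, Q d₁ = 0 ∧ Q d₂ = 0 ∧ Q d₃ = 0 ∧ x = d₁ + d₂ + d₃ := by
    intro x
    obtain ⟨d₁, d₂, d₃, -, -, -, h1, h2, h3, h4⟩ := sum_three_singular Q ⊤ e f hef trivial trivial x trivial
    exact ⟨d₁, d₂, d₃, h1, h2, h3, h4⟩
  -- isometries lie in `M`
  have hiso : ∀ g : isometryGroup F Q, (g : GL (Fin m ⊕ Fin m) F) ∈ M := by
    intro g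
    apply hM
    refine ⟨⟨1, fun v => ?_⟩, ?_⟩
    · rw [Units.val_one, one_mul]; exact isometry_apply Q g v
    · refine (mem_spGL_iff _).2 (fun u v => ?_)
      rw [← hpol, ← hpol]
      exact (toEnd_isIso Q g).polar u v
  obtain ⟨h, hhM, hhQ⟩ := SetLike.not_le_iff_exists.1 hns
  have hhs := hMK hhM
  have hhpol : ∀ u v, polar Q ((h : Matrix (Fin m ⊕ Fin m) (Fin m ⊕ Fin m) F) *ᵥ u)
      ((h : Matrix (Fin m ⊕ Fin m) (Fin m ⊕ Fin m) F) *ᵥ v) = polar Q u v := by
    intro u v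
    rw [hpol, hpol]; exact (mem_spGL_iff h).1 hhs u v
  -- a singular vector with non-singular image
  obtain ⟨y, hy, hhy⟩ : ∃ y, Q y = 0 ∧ Q ((h : Matrix (Fin m ⊕ Fin m) (Fin m ⊕ Fin m) F) *ᵥ y) ≠ 0 := by
    by_contra hcon
    push Not at hcon
    apply hhQ
    refine ⟨1, fun x => ?_⟩
    rw [Units.val_one, one_mul]
    obtain ⟨d₁, d₂, d₃, h1, h2, h3, rfl⟩ := hsum x
    rw [Matrix.mulVec_add, Matrix.mulVec_add]
    have e1 : ∀ a b c : Fin m ⊕ Fin m → F, Q (a + b + c) = Q a + Q b + Q c + polar Q a b + polar Q a c +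
        polar Q b c := by
      intro a b c
      have := polar_add_left Q a b c
      simp only [polar] at this ⊢
      linear_combination this
    rw [e1, e1, hcon _ h1, hcon _ h2, hcon _ h3, h1, h2, h3, hhpol, hhpol, hhpol]
  have hy0 : y ≠ 0 := by
    rintro rfl
    simp at hhy
  set u := (h : Matrix (Fin m ⊕ Fin m) (Fin m ⊕ Fin m) F) *ᵥ y with hu
  -- the orthogonal transvection
  have htv : tvSp u (Q u)⁻¹ ∈ M := by
    apply hM
    refine ⟨⟨1, fun x => ?_⟩, tvSp_mem _ _⟩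
    rw [Units.val_one, one_mul, tvSp_mulVec, Q_add_one, hpol]
    field_simp
    linear_combination (sympForm m F x u ^ 2) * h2
  have hc0 : tvSp y (Q u)⁻¹ ∈ M := by
    have h1 := tvSp_conj h⁻¹ ((spGL m F).inv_mem hhs) u (Q u)⁻¹
    rw [hu, gl_inv_mulVec, ← hu] at h1
    rw [h1]
    exact M.mul_mem (M.mul_mem (M.inv_mem hhM) htv) (M.inv_mem (M.inv_mem hhM))
  have hgy : GoodP M y := by
    intro c
    by_cases hc : c = 0
    · rw [hc, tvSp_zero]; exact M.one_mem
    obtain ⟨α, hα⟩ := FiniteField.isSquare_of_char_two hchar (c * Q u)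
    have hα0 : α ≠ 0 := by
      rintro rfl
      rw [mul_zero] at hα
      exact (mul_ne_zero hc hhy) hα
    obtain ⟨g, hg⟩ := exists_iso_sing Q hQ y (α • y) hy0 (smul_ne_zero hα0 hy0) hy
      (by rw [QuadraticMap.map_smul, hy, smul_zero])
    rw [toEnd_apply] at hg
    have h1 := tvSp_conj (g : GL (Fin m ⊕ Fin m) F) (hMK (hiso g)) y (Q u)⁻¹
    rw [hg, tvSp_smul] at h1
    have e1 : (Q u)⁻¹ * α * α = c := by
      rw [mul_assoc, ← hα]; field_simp
    rw [e1] at h1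
    rw [h1]
    exact M.mul_mem (M.mul_mem (hiso g) hc0) (M.inv_mem (hiso g))
  have hsing : ∀ w, Q w = 0 → GoodP M w := by
    intro w hw
    by_cases hw0 : w = 0
    · intro c
      have : tvSp w c = 1 := by
        apply gl_ext_mulVec
        intro x
        rw [tvSp_mulVec, hw0]; simp
      rw [this]; exact M.one_mem
    obtain ⟨g, hg⟩ := exists_iso_sing Q hQ y w hy0 hw0 hy hw
    rw [toEnd_apply] at hg
    rw [← hg]
    exact hgy.conj _ (hiso g) (hMK (hiso g))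
  apply spGL_le_of_good
  intro x
  by_cases hx : Q x = 0
  · exact hsing x hx
  have hx0 : x ≠ 0 := by
    rintro rfl
    simp at hx
  obtain ⟨w, hw⟩ := symp_exists_ne x hx0
  obtain ⟨s, hs, hxs⟩ : ∃ s, Q s = 0 ∧ sympForm m F x s ≠ 0 := by
    obtain ⟨d₁, d₂, d₃, h1, h2, h3, rfl⟩ := hsum w
    by_contra hcon
    push Not at hcon
    apply hw
    rw [sympForm_add_right, sympForm_add_right, hcon _ h1, hcon _ h2, hcon _ h3]; simp
  set c := Q x / sympForm m F x s with hc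
  have hc0 : c ≠ 0 := div_ne_zero hx hxs
  have e1 : Q (x + (-c) • s) = 0 := by
    rw [Q_add_one, hs, hpol, hc]; field_simp; ring
  have h3 := GoodP.add ((hsing s hs).smul c) (hsing _ e1) (by
    rw [sympForm_smul_right, sympForm_add_left, sympForm_smul_left, sympForm_self]
    simpa using ⟨hc0, hxs⟩)
  have e2 : x + (-c) • s + c • s = x := by rw [neg_smul]; abel
  rwa [e2] at h3

theorem orth_isMaximalIn_sp [Fintype F] (hm : 3 ≤ m) (heven : ¬ Odd (Fintype.card F))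
    (Q : QuadraticForm F (Fin m ⊕ Fin m → F)) (hQ : (polarBilin Q).Nondegenerate)
    (hpol : ∀ u v, polar Q u v = sympForm m F u v) :
    Geo.IsMaximalIn (spGL m F) (Geo.quadSimilarityGroup Q ⊓ spGL m F) := by
  constructor
  · apply lt_of_le_of_ne inf_le_right
    intro he
    have hfr : 5 ≤ finrank F (Fin m ⊕ Fin m → F) := by
      rw [finrank_fintype_fun_eq_card]; simp; omega
    obtain ⟨e, f, -, -, hef, -⟩ := exists_two_hpairs Q hQ hfr
    have h1 : tvSp e 1 ∈ spGL m F := tvSp_mem _ _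
    rw [← he] at h1
    obtain ⟨c, hc⟩ := h1.1
    have h2 := hc f
    rw [tvSp_mulVec, Q_add_one, hef.Qf, hef.Qe, hpol, ← hpol f e, polar_comm, hef.ef] at h2
    simp at h2
  · intro M hM1 hM2
    by_cases hall : M ≤ Geo.quadSimilarityGroup Q
    · left
      exact le_antisymm (le_inf hall hM2) hM1
    · right
      exact le_antisymm hM2 (orth_max_in_sp hm heven Q hQ hpol M hM1 hM2 hall)

end Cfsg.Agent.Lib.Helper15
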