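import Mathlib
import Cfsg.Agent.Lib.Helper15.PairGeo
import Cfsg.Agent.Lib.Helper15.ParMax5
import Cfsg.Agent.Lib.Helper15.ParMax4

set_option autoImplicit false

namespace Cfsg.Agent.Lib.Helper15

open Module Matrix Cfsg Cfsg.Agent.Lib.Helper5

variable {F : Type*} [Field F] {m : ℕ}

/-- short root elements of the symplectic group -/
noncomputable def srSp (u w : Fin m ⊕ Fin m → F) : GL (Fin m ⊕ Fin m) F :=
  tvSp (u + w) 1 * tvSp u (-1) * tvSp w (-1)

theorem srSp_mulVec (u w x : Fin m ⊕ Fin m → F) (h : sympForm m F u w = 0) :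
    (srSp u w : Matrix (Fin m ⊕ Fin m) (Fin m ⊕ Fin m) F) *ᵥ x =
      x + sympForm m F x u • w + sympForm m F x w • u := by
  have h' : sympForm m F w u = 0 := by rw [sympForm_swap, h, neg_zero]
  unfold srSp
  rw [Units.val_mul, Units.val_mul, ← Matrix.mulVec_mulVec, ← Matrix.mulVec_mulVec, tvSp_mulVec, tvSp_mulVec,
    tvSp_mulVec]
  simp only [sympForm_add_left, sympForm_add_right, sympForm_smul_left, sympForm_self, h, h']
  module

theorem srSp_mem (u w : Fin m ⊕ Fin m → F) : srSp u w ∈ spGL m F :=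
  (spGL m F).mul_mem ((spGL m F).mul_mem (tvSp_mem _ _) (tvSp_mem _ _)) (tvSp_mem _ _)

theorem srSp_conj (g : GL (Fin m ⊕ Fin m) F) (hgs : g ∈ spGL m F) (u w : Fin m ⊕ Fin m → F) :
    srSp ((g : Matrix (Fin m ⊕ Fin m) (Fin m ⊕ Fin m) F) *ᵥ u)
      ((g : Matrix (Fin m ⊕ Fin m) (Fin m ⊕ Fin m) F) *ᵥ w) = g * srSp u w * g⁻¹ := by
  unfold srSp
  rw [← Matrix.mulVec_add, tvSp_conj g hgs, tvSp_conj g hgs, tvSp_conj g hgs]
  group

theorem srSp_add_smul (u z : Fin m ⊕ Fin m → F) (c : F) (h : sympForm m F u z = 0) :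
    srSp u (z + c • u) = tvSp u (2 * c) * srSp u z := by
  apply gl_ext_mulVec
  intro x
  have h' : sympForm m F z u = 0 := by rw [sympForm_swap, h, neg_zero]
  rw [Units.val_mul, ← Matrix.mulVec_mulVec, tvSp_mulVec, srSp_mulVec u z x h,
    srSp_mulVec u _ x (by rw [sympForm_add_right, sympForm_smul_right, h, sympForm_self]; simp)]
  simp only [sympForm_add_left, sympForm_add_right, sympForm_smul_left, sympForm_smul_right, sympForm_self, h']
  module

/-- the core of the maximality proof -/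
theorem sp_pair_core (h2 : (2 : F) ≠ 0) {X X' : Submodule F (Fin m ⊕ Fin m → F)}
    (hX : TPair (sympB m F) X X') (hdim : 5 ≤ finrank F X) (M : Subgroup (GL (Fin m ⊕ Fin m) F))
    (hS : ∀ u ∈ X, ∀ w ∈ X', sympForm m F u w = 0 → srSp u w ∈ M)
    (s : GL (Fin m ⊕ Fin m) F) (hsM : s ∈ M) (hsSp : s ∈ spGL m F)
    (hsX : ∀ x' ∈ X', ∃ x ∈ X, (s : Matrix (Fin m ⊕ Fin m) (Fin m ⊕ Fin m) F) *ᵥ x = x')
    (u₁ z₁ : Fin m ⊕ Fin m → F) (h11 : sympForm m F u₁ z₁ = 0) (hE : srSp u₁ z₁ ∈ M) (hu₁ : u₁ ∉ X')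
    (hz₁ : z₁ ∉ X' ⊔ Submodule.span F {u₁}) : spGL m F ≤ M := by
  obtain ⟨u₂, hu₂X, z₂, hz₂X, hu₂0, b1, b2, b3, b4, b5, b6⟩ :=
    tpair_step (sympB m F) sympB_nondeg sympB_isRefl hX hdim u₁ z₁ hu₁ hz₁
  simp only [sympB_apply] at b1 b2 b3 b4 b5
  have hiso : ∀ x ∈ X, ∀ y ∈ X, sympForm m F x y = 0 := hX.iso
  have hiso' : ∀ x ∈ X', ∀ y ∈ X', sympForm m F x y = 0 := hX.iso'
  have sep : ∀ (S : Submodule F (Fin m ⊕ Fin m → F)) (a : Fin m ⊕ Fin m → F), a ∉ S →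
      ∃ z, (∀ s ∈ S, sympForm m F s z = 0) ∧ sympForm m F a z = 1 :=
    fun S a ha => bil_exists_sep (sympB m F) sympB_nondeg sympB_isRefl S a ha
  have memX' : ∀ x, (∀ y ∈ X', sympForm m F y x = 0) → x ∈ X' :=
    fun x hx => hX.mem_right sympB_nondeg sympB_isRefl x hx
  -- first conjugation
  have c1 : (srSp u₁ z₁ : Matrix (Fin m ⊕ Fin m) (Fin m ⊕ Fin m) F) *ᵥ u₂ = u₂ := by
    rw [srSp_mulVec _ _ _ h11, sympForm_swap u₂ u₁, b2, sympForm_swap u₂ z₁, b4]; simp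
  have c2 : (srSp u₁ z₁ : Matrix (Fin m ⊕ Fin m) (Fin m ⊕ Fin m) F) *ᵥ z₂ = z₂ - u₁ := by
    rw [srSp_mulVec _ _ _ h11, sympForm_swap z₂ u₁, b3, sympForm_swap z₂ z₁, b5]
    simp [sub_eq_add_neg]
  have e1 : srSp u₂ (z₂ - u₁) ∈ M := by
    have := srSp_conj (srSp u₁ z₁) (srSp_mem _ _) u₂ z₂
    rw [c1, c2] at this
    rw [this]
    exact M.mul_mem (M.mul_mem hE (hS u₂ hu₂X z₂ hz₂X b1)) (M.inv_mem hE)
  set Zv := z₂ - u₁ with hZv
  have hu₂Z : sympForm m F u₂ Zv = 0 := by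
    rw [hZv, sympForm_sub_right, b1, sympForm_swap u₂ u₁, b2]; simp
  have hZnot : Zv ∉ X' ⊔ Submodule.span F {u₂} := by
    intro hc
    apply b6
    have : u₁ = z₂ - Zv := by rw [hZv]; abel
    rw [this]
    exact Submodule.sub_mem _ (Submodule.mem_sup_left hz₂X) hc
  obtain ⟨w₀, hw₀S, hZw₀⟩ := sep _ Zv hZnot
  have hw₀X : w₀ ∈ X' := memX' w₀ (fun y hy => hw₀S y (Submodule.mem_sup_left hy))
  have hu₂w₀ : sympForm m F u₂ w₀ = 0 := hw₀S u₂ (Submodule.mem_sup_right (Submodule.mem_span_singleton_self _))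
  have hgood : GoodP M u₂ := by
    intro c
    set l := c / 2 with hl
    have p1 : sympForm m F u₂ (l • w₀) = 0 := by rw [sympForm_smul_right, hu₂w₀, mul_zero]
    have hg := hS u₂ hu₂X (l • w₀) (X'.smul_mem _ hw₀X) p1
    have d1 : (srSp u₂ (l • w₀) : Matrix (Fin m ⊕ Fin m) (Fin m ⊕ Fin m) F) *ᵥ u₂ = u₂ := by
      rw [srSp_mulVec _ _ _ p1, sympForm_self, p1]; simp
    have d2 : (srSp u₂ (l • w₀) : Matrix (Fin m ⊕ Fin m) (Fin m ⊕ Fin m) F) *ᵥ Zv = Zv + l • u₂ := by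
      rw [srSp_mulVec _ _ _ p1, sympForm_swap Zv u₂, hu₂Z, sympForm_smul_right, hZw₀]; simp
    have e2 : srSp u₂ (Zv + l • u₂) ∈ M := by
      have := srSp_conj (srSp u₂ (l • w₀)) (srSp_mem _ _) u₂ Zv
      rw [d1, d2] at this
      rw [this]
      exact M.mul_mem (M.mul_mem hg e1) (M.inv_mem hg)
    rw [srSp_add_smul u₂ Zv l hu₂Z] at e2
    have e3 : tvSp u₂ c = tvSp u₂ (2 * l) * srSp u₂ Zv * (srSp u₂ Zv)⁻¹ := by
      rw [mul_inv_cancel_right, hl]
      congr 1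
      field_simp
    rw [e3]
    exact M.mul_mem e2 (M.inv_mem e1)
  -- all vectors of `X` are good
  have hgoodX : ∀ x ∈ X, GoodP M x := by
    intro x hx
    by_cases hxs : x ∈ Submodule.span F {u₂}
    · obtain ⟨c, rfl⟩ := Submodule.mem_span_singleton.1 hxs
      exact hgood.smul c
    have n1 : u₂ ∉ X' ⊔ Submodule.span F {x} := by
      intro hc
      obtain ⟨x', hx', t, ht, hsum⟩ := Submodule.mem_sup.1 hc
      obtain ⟨c, rfl⟩ := Submodule.mem_span_singleton.1 ht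
      have hx'0 : x' = 0 := by
        apply hX.inf_zero sympB_nondeg x' _ hx'
        have : x' = u₂ - c • x := by rw [← hsum]; abel
        rw [this]; exact X.sub_mem hu₂X (X.smul_mem _ hx)
      rw [hx'0, zero_add] at hsum
      have hc0 : c ≠ 0 := by
        rintro rfl
        rw [zero_smul] at hsum
        exact hu₂0 hsum.symm
      apply hxs
      rw [Submodule.mem_span_singleton]
      exact ⟨c⁻¹, by rw [← hsum, smul_smul, inv_mul_cancel₀ hc0, one_smul]⟩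
    have n2 : x ∉ X' ⊔ Submodule.span F {u₂} := by
      intro hc
      obtain ⟨x', hx', t, ht, hsum⟩ := Submodule.mem_sup.1 hc
      have hx'0 : x' = 0 := by
        apply hX.inf_zero sympB_nondeg x' _ hx'
        have : x' = x - t := by rw [← hsum]; abel
        rw [this]
        refine X.sub_mem hx ?_
        obtain ⟨c, rfl⟩ := Submodule.mem_span_singleton.1 ht
        exact X.smul_mem _ hu₂X
      rw [hx'0, zero_add] at hsum
      exact hxs (by rw [← hsum]; exact ht)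
    obtain ⟨w₁, hw₁S, hw₁⟩ := sep _ u₂ n1
    obtain ⟨w₂, hw₂S, hw₂⟩ := sep _ x n2
    have hw₁X : w₁ ∈ X' := memX' w₁ (fun y hy => hw₁S y (Submodule.mem_sup_left hy))
    have hw₂X : w₂ ∈ X' := memX' w₂ (fun y hy => hw₂S y (Submodule.mem_sup_left hy))
    have hxw₁ : sympForm m F x w₁ = 0 := hw₁S x (Submodule.mem_sup_right (Submodule.mem_span_singleton_self _))
    have hu₂w₂ : sympForm m F u₂ w₂ = 0 := hw₂S u₂ (Submodule.mem_sup_right (Submodule.mem_span_singleton_self _))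
    have p1 : sympForm m F (x - u₂) (w₁ + w₂) = 0 := by
      rw [sympForm_sub_left, sympForm_add_right, sympForm_add_right, hxw₁, hw₂, hw₁, hu₂w₂]; ring
    have hg := hS (x - u₂) (X.sub_mem hx hu₂X) (w₁ + w₂) (X'.add_mem hw₁X hw₂X) p1
    have := hgood.conj _ hg (srSp_mem _ _)
    rw [srSp_mulVec _ _ _ p1, hiso u₂ hu₂X _ (X.sub_mem hx hu₂X), sympForm_add_right, hw₁, hu₂w₂] at this
    have e : u₂ + (0 : F) • (w₁ + w₂) + ((1 : F) + 0) • (x - u₂) = x := by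
      rw [zero_smul, add_zero, add_zero, one_smul]; abel
    rwa [e] at this
  have hgoodX' : ∀ x' ∈ X', GoodP M x' := by
    intro x' hx'
    obtain ⟨x, hx, rfl⟩ := hsX x' hx'
    exact (hgoodX x hx).conj s hsM hsSp
  apply spGL_le_of_good
  intro v
  obtain ⟨x, hx, x', hx', rfl⟩ := hX.split v
  by_cases hx'0 : x' = 0
  · rw [hx'0, add_zero]; exact hgoodX x hx
  by_cases hxx' : sympForm m F x x' = 0
  · obtain ⟨x₁, hx₁, hx₁x'⟩ : ∃ x₁ ∈ X, sympForm m F x₁ x' ≠ 0 := by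
      by_contra hc
      push Not at hc
      apply hx'0
      apply hX.symm.zero_of_perp sympB_nondeg x' hx'
      intro y hy
      rw [sympB_apply, sympForm_swap, hc y hy, neg_zero]
    have g1 : GoodP M (x₁ + x') := GoodP.add (hgoodX' x' hx') (hgoodX x₁ hx₁) hx₁x'
    have g2 : GoodP M ((x - x₁) + (x₁ + x')) := GoodP.add g1 (hgoodX _ (X.sub_mem hx hx₁)) (by
      rw [sympForm_add_right, hiso _ (X.sub_mem hx hx₁) x₁ hx₁, sympForm_sub_left, hxx']
      simpa using hx₁x')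
    have e : x - x₁ + (x₁ + x') = x + x' := by abel
    rwa [e] at g2
  · exact GoodP.add (hgoodX' x' hx') (hgoodX x hx) hxx'

end Cfsg.Agent.Lib.Helper15
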