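import Mathlib
import Cfsg.Agent.Lib.Helper15.SpPair1
import Cfsg.Agent.Lib.Helper15.PairGeo2
import Cfsg.Agent.Lib.Helper15.ParMax8

set_option autoImplicit false

namespace Cfsg.Agent.Lib.Helper15

open Module Matrix Cfsg Cfsg.Agent.Lib.Helper5

variable {F : Type*} [Field F] {m : ℕ}

theorem fin2_sup_eq {V : Type*} [AddCommGroup V] [Module F V] (D : Fin 2 → Submodule F V) :
    D 0 ⊔ D 1 = iSup D := by
  apply le_antisymm (sup_le (le_iSup D 0) (le_iSup D 1))
  apply iSup_le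
  intro i
  fin_cases i
  · exact le_sup_left
  · exact le_sup_right

theorem srSp_stab {X X' : Submodule F (Fin m ⊕ Fin m → F)} (hX : TPair (sympB m F) X X')
    (u w : Fin m ⊕ Fin m → F) (hu : u ∈ X) (hw : w ∈ X') (huw : sympForm m F u w = 0) :
    (∀ x ∈ X, (srSp u w : Matrix (Fin m ⊕ Fin m) (Fin m ⊕ Fin m) F) *ᵥ x ∈ X) ∧
    (∀ x ∈ X', (srSp u w : Matrix (Fin m ⊕ Fin m) (Fin m ⊕ Fin m) F) *ᵥ x ∈ X') := by
  constructor
  · intro x hx
    rw [srSp_mulVec _ _ _ huw, show sympForm m F x u = 0 from hX.iso x hx u hu, zero_smul, add_zero]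
    exact X.add_mem hx (X.smul_mem _ hu)
  · intro x hx
    rw [srSp_mulVec _ _ _ huw, show sympForm m F x w = 0 from hX.iso' x hx w hw, zero_smul, add_zero]
    exact X'.add_mem hx (X'.smul_mem _ hw)

theorem sp_pair_isMaximalIn (h2 : (2 : F) ≠ 0) (hm : 5 ≤ m) (D : Fin 2 → Submodule F (Fin m ⊕ Fin m → F))
    (hD : Geo.IsMDecomposition m D) (hts : ∀ i, Geo.IsTotallySingularFor (sympForm m F) (D i)) :
    Geo.IsMaximalIn (spGL m F) (Geo.decompositionStabilizer D ⊓ spGL m F) := by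
  have hU : TPair (sympB m F) (D 0) (D 1) := ⟨hts 0, hts 1, by rw [fin2_sup_eq, hD.iSup_eq_top]⟩
  have hk0 := hD.finrank_eq 0
  have hk1 := hD.finrank_eq 1
  -- root elements
  have hS01 : ∀ u ∈ D 0, ∀ w ∈ D 1, sympForm m F u w = 0 → srSp u w ∈ Geo.decompositionStabilizer D ⊓ spGL m F := by
    intro u hu w hw huw
    refine ⟨mem_decompStab_of_forall D m hD.finrank_eq _ 1 ?_, srSp_mem _ _⟩
    intro l x hx
    fin_cases l
    · exact (srSp_stab hU u w hu hw huw).1 x hx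
    · exact (srSp_stab hU u w hu hw huw).2 x hx
  have hS10 : ∀ u ∈ D 1, ∀ w ∈ D 0, sympForm m F u w = 0 → srSp u w ∈ Geo.decompositionStabilizer D ⊓ spGL m F := by
    intro u hu w hw huw
    refine ⟨mem_decompStab_of_forall D m hD.finrank_eq _ 1 ?_, srSp_mem _ _⟩
    intro l x hx
    fin_cases l
    · exact (srSp_stab hU.symm u w hu hw huw).2 x hx
    · exact (srSp_stab hU.symm u w hu hw huw).1 x hx
  -- the swap
  obtain ⟨s, hsSp, hs01, hs10⟩ : ∃ s : GL (Fin m ⊕ Fin m) F, s ∈ spGL m F ∧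
      (∀ x ∈ D 0, (s : Matrix (Fin m ⊕ Fin m) (Fin m ⊕ Fin m) F) *ᵥ x ∈ D 1) ∧
      (∀ x ∈ D 1, (s : Matrix (Fin m ⊕ Fin m) (Fin m ⊕ Fin m) F) *ᵥ x ∈ D 0) := by
    obtain ⟨s, hs, h01, h10⟩ := tpair_exists_swap (sympB m F) sympB_nondeg sympB_isRefl (-1)
      (fun x y => by rw [sympB_apply, sympB_apply, sympForm_swap]; ring) hU (by rw [hk0, hk1])
    have hA : LinearMap.toMatrix' s ∈ Matrix.symplecticGroup (Fin m) F := by
      rw [mem_symplecticGroup_iff_preserves]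
      intro u v
      rw [LinearMap.toMatrix'_mulVec, LinearMap.toMatrix'_mulVec]
      exact hs u v
    refine ⟨spHom m F ⟨_, hA⟩, spHom_mem _, ?_, ?_⟩
    · intro x hx
      rw [coe_spHom, LinearMap.toMatrix'_mulVec]
      exact h01 x hx
    · intro x hx
      rw [coe_spHom, LinearMap.toMatrix'_mulVec]
      exact h10 x hx
  have hsH : s ∈ Geo.decompositionStabilizer D ⊓ spGL m F := by
    refine ⟨mem_decompStab_of_forall D m hD.finrank_eq _ (Equiv.swap 0 1) ?_, hsSp⟩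
    intro l x hx
    fin_cases l
    · exact hs01 x hx
    · exact hs10 x hx
  have hsurj : ∀ (X X' : Submodule F (Fin m ⊕ Fin m → F)), finrank F X = finrank F X' →
      (∀ x ∈ X, (s : Matrix (Fin m ⊕ Fin m) (Fin m ⊕ Fin m) F) *ᵥ x ∈ X') →
      ∀ x' ∈ X', ∃ x ∈ X, (s : Matrix (Fin m ⊕ Fin m) (Fin m ⊕ Fin m) F) *ᵥ x = x' := by
    intro X X' hfr hXX' x' hx'
    have h1 : X.map (Matrix.mulVecLin (s : Matrix (Fin m ⊕ Fin m) (Fin m ⊕ Fin m) F)) = X' := by
      apply Submodule.eq_of_le_of_finrank_eq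
      · rintro _ ⟨x, hx, rfl⟩
        exact hXX' x hx
      · rw [← (Submodule.equivMapOfInjective _ (gl_mulVec_injective s) X).finrank_eq, hfr]
    rw [← h1] at hx'
    obtain ⟨x, hx, rfl⟩ := hx'
    exact ⟨x, hx, rfl⟩
  constructor
  · apply lt_of_le_of_ne inf_le_right
    intro he
    obtain ⟨u, hu, hu0⟩ : ∃ u ∈ D 0, u ≠ 0 := by
      apply Submodule.exists_mem_ne_zero_of_ne_bot
      intro hb
      rw [hb, finrank_bot] at hk0
      omega
    obtain ⟨u', hu', huu'⟩ : ∃ u' ∈ D 1, sympForm m F u u' = 1 := by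
      obtain ⟨y, hy, hyu⟩ : ∃ y ∈ D 1, sympForm m F u y ≠ 0 := by
        by_contra hc
        push Not at hc
        exact hu0 (hU.zero_of_perp sympB_nondeg u hu hc)
      exact ⟨(sympForm m F u y)⁻¹ • y, (D 1).smul_mem _ hy, by rw [sympForm_smul_right, inv_mul_cancel₀ hyu]⟩
    have h1 : tvSp (u + u') 1 ∈ spGL m F := tvSp_mem _ _
    rw [← he] at h1
    obtain ⟨σ, hσ⟩ := h1.1
    have h3 : (tvSp (u + u') 1 : Matrix (Fin m ⊕ Fin m) (Fin m ⊕ Fin m) F) *ᵥ u ∈ D (σ 0) := by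
      rw [← hσ 0]
      exact ⟨u, hu, by rw [Matrix.toLin'_apply]⟩
    rw [tvSp_mulVec, sympForm_add_right, sympForm_self, huu'] at h3
    have e : u + ((1 : F) * (0 + 1)) • (u + u') = (2 : F) • u + u' := by module
    rw [e] at h3
    have hu'0 : u' ≠ 0 := by
      rintro rfl
      rw [sympForm_zero_right] at huu'
      exact zero_ne_one huu'
    have hc : σ 0 = 0 ∨ σ 0 = 1 := by
      generalize σ 0 = j
      fin_cases j <;> simp
    rcases hc with hc | hc
    · rw [hc] at h3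
      exact hu'0 (hU.inf_zero sympB_nondeg u' (((D 0).add_mem_iff_right ((D 0).smul_mem _ hu)).1 h3) hu')
    · rw [hc] at h3
      have h4 := ((D 1).smul_mem_iff h2).1 (((D 1).add_mem_iff_left hu').1 h3)
      exact hu0 (hU.inf_zero sympB_nondeg u hu h4)
  · intro M hM1 hM2
    by_cases hall : M ≤ Geo.decompositionStabilizer D
    · left
      exact le_antisymm (le_inf hall hM2) hM1
    right
    apply le_antisymm hM2
    by_contra hcon
    obtain ⟨x, hxM, hxD⟩ := SetLike.not_le_iff_exists.1 hall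
    have hxSp := hM2 hxM
    have key : ∀ (Z Z' : Submodule F (Fin m ⊕ Fin m → F)),
        (∀ u ∈ Z, ∀ w ∈ Z', sympForm m F u w = 0 → srSp u w ∈ M) → 4 ≤ finrank F Z' → Z ≤ D 0 ∨ Z ≤ D 1 := by
      intro Z Z' hZ hdim
      apply tpair_geom_half (sympB m F) sympB_nondeg hU hdim
      · intro u₁ hu₁ hn z₁ hz₁ h11
        by_contra hz
        exact hcon (sp_pair_core h2 hU (by omega) M (fun u hu w hw huw => hM1 (hS01 u hu w hw huw)) s (hM1 hsH) hsSp
          (hsurj _ _ (by rw [hk0, hk1]) hs01) u₁ z₁ h11 (hZ u₁ hu₁ z₁ hz₁ h11) hn hz)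
      · intro u₁ hu₁ hn z₁ hz₁ h11
        by_contra hz
        exact hcon (sp_pair_core h2 hU.symm (by omega) M (fun u hu w hw huw => hM1 (hS10 u hu w hw huw)) s
          (hM1 hsH) hsSp (hsurj _ _ (by rw [hk0, hk1]) hs10) u₁ z₁ h11 (hZ u₁ hu₁ z₁ hz₁ h11) hn hz)
    set L := Matrix.toLin' (x : Matrix (Fin m ⊕ Fin m) (Fin m ⊕ Fin m) F) with hL
    have hLinj : Function.Injective L := gl_mulVec_injective x
    have hfr : ∀ i, finrank F ((D i).map L) = m := fun i => by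
      rw [← (Submodule.equivMapOfInjective _ hLinj (D i)).finrank_eq, hD.finrank_eq]
    have hconj : ∀ (i j : Fin 2), (∀ u ∈ D i, ∀ w ∈ D j, sympForm m F u w = 0 → srSp u w ∈ M) →
        ∀ u ∈ (D i).map L, ∀ w ∈ (D j).map L, sympForm m F u w = 0 → srSp u w ∈ M := by
      rintro i j hij _ ⟨u, hu, rfl⟩ _ ⟨w, hw, rfl⟩ huw
      rw [hL, Matrix.toLin'_apply, Matrix.toLin'_apply] at huw ⊢
      rw [(mem_spGL_iff x).1 hxSp] at huw
      rw [srSp_conj x hxSp]
      exact M.mul_mem (M.mul_mem hxM (hij u hu w hw huw)) (M.inv_mem hxM)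
    have k0 := key _ _ (hconj 0 1 (fun u hu w hw huw => hM1 (hS01 u hu w hw huw))) (by rw [hfr]; omega)
    have k1 := key _ _ (hconj 1 0 (fun u hu w hw huw => hM1 (hS10 u hu w hw huw))) (by rw [hfr]; omega)
    have heq : ∀ i j, (D i).map L ≤ D j → (D i).map L = D j := fun i j h =>
      Submodule.eq_of_le_of_finrank_eq h (by rw [hfr, hD.finrank_eq])
    have hne : ∀ j, ¬ ((D 0).map L = D j ∧ (D 1).map L = D j) := by
      rintro j ⟨e0, e1⟩
      obtain ⟨u, hu, hu0⟩ : ∃ u ∈ D 0, u ≠ 0 := by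
        apply Submodule.exists_mem_ne_zero_of_ne_bot
        intro hb
        rw [hb, finrank_bot] at hk0
        omega
      have h1 : L u ∈ (D 1).map L := by rw [e1, ← e0]; exact ⟨u, hu, rfl⟩
      obtain ⟨u', hu', huu'⟩ := h1
      rw [hLinj huu'] at hu'
      exact hu0 (hU.inf_zero sympB_nondeg u hu hu')
    apply hxD
    rcases k0 with k0 | k0 <;> rcases k1 with k1 | k1
    · exact absurd ⟨heq 0 0 k0, heq 1 0 k1⟩ (hne 0)
    · refine ⟨1, fun i => ?_⟩
      fin_cases i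
      · exact heq 0 0 k0
      · exact heq 1 1 k1
    · refine ⟨Equiv.swap 0 1, fun i => ?_⟩
      fin_cases i
      · exact heq 0 1 k0
      · exact heq 1 0 k1
    · exact absurd ⟨heq 0 1 k0, heq 1 1 k1⟩ (hne 1)

end Cfsg.Agent.Lib.Helper15
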