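import Mathlib
import Cfsg.Agent.Lib.Helper15.SUPair1
import Cfsg.Agent.Lib.Helper15.SUSub5
import Cfsg.Agent.Lib.Helper15.SpPair2

set_option autoImplicit false

namespace Cfsg.Agent.Lib.Helper15

open Module Matrix Cfsg Cfsg.Agent.Lib.Helper14

variable {F : Type*} [Field F] [Fintype F] {q n : ℕ}

theorem siegel_mem_SU (hF : Fintype.card F = q ^ 2) (μ : F) (u w : Fin n → F) (huu : hermForm n F q u u = 0)
    (hww : hermForm n F q w w = 0) (huw : hermForm n F q u w = 0) (k : GL (Fin n) F)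
    (hk : ∀ x, (k : Matrix (Fin n) (Fin n) F) *ᵥ x =
      x + (μ * hermForm n F q x w) • u - (μ ^ q * hermForm n F q x u) • w) :
    k ∈ GU n F q ⊓ Geo.specialLinear (Fin n) F := by
  obtain ⟨k', hk', h⟩ := exists_siegel hF μ u w huu hww huw
  have : k = k' := gl_ext_mulVec (fun x => by rw [hk, h])
  rw [this]; exact hk'

theorem su_pair_isMaximalIn (hF : Fintype.card F = q ^ 2) (hn : 7 ≤ n) (m : ℕ) (hm : 5 ≤ m)
    (D : Fin 2 → Submodule F (Fin n → F)) (hD : Geo.IsMDecomposition m D)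
    (hts : ∀ i, Geo.IsTotallySingularFor (hermForm n F q) (D i)) :
    Geo.IsMaximalIn (GU n F q ⊓ Geo.specialLinear (Fin n) F)
      (Geo.decompositionStabilizer D ⊓ (GU n F q ⊓ Geo.specialLinear (Fin n) F)) := by
  have hU : TPairU q (D 0) (D 1) := ⟨hts 0, hts 1, by rw [fin2_sup_eq, hD.iSup_eq_top]⟩
  have hk0 := hD.finrank_eq 0
  have hk1 := hD.finrank_eq 1
  have sy := fun a b => hermForm_eq_zero_symm hF (n := n) a b
  -- root elements
  have hS01 : ∀ u ∈ D 0, ∀ w ∈ D 1, hermForm n F q u w = 0 →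
      SInU q (Geo.decompositionStabilizer D ⊓ (GU n F q ⊓ Geo.specialLinear (Fin n) F)) u w := by
    intro u hu w hw huw μ k hk
    refine ⟨mem_decompStab_of_forall D m hD.finrank_eq _ 1 ?_,
      siegel_mem_SU hF μ u w (hts 0 u hu u hu) (hts 1 w hw w hw) huw k hk⟩
    intro l x hx
    fin_cases l
    · show (k : Matrix (Fin n) (Fin n) F) *ᵥ x ∈ D 0
      rw [hk, hts 0 x hx u hu, mul_zero, zero_smul, sub_zero]
      exact (D 0).add_mem hx ((D 0).smul_mem _ hu)
    · show (k : Matrix (Fin n) (Fin n) F) *ᵥ x ∈ D 1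
      rw [hk, hts 1 x hx w hw, mul_zero, zero_smul, add_zero]
      exact (D 1).sub_mem hx ((D 1).smul_mem _ hw)
  have hS10 : ∀ u ∈ D 1, ∀ w ∈ D 0, hermForm n F q u w = 0 →
      SInU q (Geo.decompositionStabilizer D ⊓ (GU n F q ⊓ Geo.specialLinear (Fin n) F)) u w := by
    intro u hu w hw huw μ k hk
    refine ⟨mem_decompStab_of_forall D m hD.finrank_eq _ 1 ?_,
      siegel_mem_SU hF μ u w (hts 1 u hu u hu) (hts 0 w hw w hw) huw k hk⟩
    intro l x hx
    fin_cases l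
    · show (k : Matrix (Fin n) (Fin n) F) *ᵥ x ∈ D 0
      rw [hk, hts 0 x hx w hw, mul_zero, zero_smul, add_zero]
      exact (D 0).sub_mem hx ((D 0).smul_mem _ hw)
    · show (k : Matrix (Fin n) (Fin n) F) *ᵥ x ∈ D 1
      rw [hk, hts 1 x hx u hu, mul_zero, zero_smul, sub_zero]
      exact (D 1).add_mem hx ((D 1).smul_mem _ hu)
  have hne0 : D 0 ≠ ⊥ := by
    intro hb
    rw [hb, finrank_bot] at hk0
    omega
  -- the swap
  obtain ⟨s, hsG, hs01, hs10⟩ := tpairU_exists_swap hF hU (by rw [hk0, hk1]) hne0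
  have hsH : s ∈ Geo.decompositionStabilizer D ⊓ (GU n F q ⊓ Geo.specialLinear (Fin n) F) := by
    refine ⟨mem_decompStab_of_forall D m hD.finrank_eq _ (Equiv.swap 0 1) ?_, hsG⟩
    intro l x hx
    fin_cases l
    · exact hs01 x hx
    · exact hs10 x hx
  have hsurj : ∀ (X X' : Submodule F (Fin n → F)), finrank F X = finrank F X' →
      (∀ x ∈ X, (s : Matrix (Fin n) (Fin n) F) *ᵥ x ∈ X') →
      ∀ x' ∈ X', ∃ x ∈ X, (s : Matrix (Fin n) (Fin n) F) *ᵥ x = x' := by
    intro X X' hfr hXX' x' hx'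
    have h1 : X.map (Matrix.mulVecLin (s : Matrix (Fin n) (Fin n) F)) = X' := by
      apply Submodule.eq_of_le_of_finrank_eq
      · rintro _ ⟨x, hx, rfl⟩
        exact hXX' x hx
      · rw [← (Submodule.equivMapOfInjective _ (gl_mulVec_injective s) X).finrank_eq, hfr]
    rw [← h1] at hx'
    obtain ⟨x, hx, rfl⟩ := hx'
    exact ⟨x, hx, rfl⟩
  constructor
  · apply lt_of_le_of_ne inf_le_right
    intro he
    obtain ⟨u, hu, hu0⟩ := Submodule.exists_mem_ne_zero_of_ne_bot hne0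
    obtain ⟨τ, hτ0, hτ⟩ := exists_skew hF
    obtain ⟨u', hu', hu'u⟩ : ∃ u' ∈ D 1, hermForm n F q u' u = τ := by
      obtain ⟨y, hy, hyu⟩ : ∃ y ∈ D 1, hermForm n F q y u ≠ 0 := by
        by_contra hc
        push Not at hc
        exact hu0 (hU.zero_of_perp hF u hu hc)
      exact ⟨(τ / hermForm n F q y u) • y, (D 1).smul_mem _ hy, by rw [hermForm_smul_left]; field_simp⟩
    have huu' : hermForm n F q u u' = τ ^ q := by rw [← hermForm_swap hF, hu'u]
    have haa : hermForm n F q (u + u') (u + u') = 0 := by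
      rw [hermForm_add_left, hermForm_add_right hF, hermForm_add_right hF, hts 0 u hu u hu, hts 1 u' hu' u' hu',
        huu', hu'u]
      linear_combination hτ
    obtain ⟨k, -, hk⟩ := exists_tv hF (u + u') τ haa hτ
    have h1 := tv_mem_SU hF (u + u') τ haa hτ k hk
    rw [← he] at h1
    obtain ⟨σ, hσ⟩ := h1.1
    have hmem : ∀ x ∈ D 0, (k : Matrix (Fin n) (Fin n) F) *ᵥ x ∈ D (σ 0) := by
      intro x hx
      rw [← hσ 0]
      exact ⟨x, hx, by rw [Matrix.toLin'_apply]⟩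
    have hu'0 : u' ≠ 0 := by
      rintro rfl
      rw [hermForm_zero_left] at hu'u
      exact hτ0 hu'u.symm
    obtain ⟨x, hx, hx0⟩ : ∃ x ∈ D 0 ⊓ LinearMap.ker (hermLin q u'), x ≠ 0 := by
      apply Submodule.exists_mem_ne_zero_of_ne_bot
      intro hb
      have := finrank_le_inf_ker (D 0) (hermLin q u')
      rw [hb, finrank_bot] at this
      omega
    have hxu' : hermForm n F q x u' = 0 := hx.2
    have h3 := hmem x hx.1
    rw [hk, hermForm_add_right hF, hts 0 x hx.1 u hu, hxu', add_zero, mul_zero, zero_smul, add_zero] at h3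
    have hc : σ 0 = 0 ∨ σ 0 = 1 := by
      generalize σ 0 = j
      fin_cases j <;> simp
    rcases hc with hc | hc
    · have h4 := hmem u hu
      rw [hc, hk, hermForm_add_right hF, hts 0 u hu u hu, huu', zero_add, smul_add] at h4
      have h5 : (τ * τ ^ q) • u' ∈ D 0 := by
        have h6 := (D 0).sub_mem h4 ((D 0).add_mem hu ((D 0).smul_mem (τ * τ ^ q) hu))
        have e : u + ((τ * τ ^ q) • u + (τ * τ ^ q) • u') - (u + (τ * τ ^ q) • u) = (τ * τ ^ q) • u' := by abel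
        rwa [e] at h6
      have h7 := ((D 0).smul_mem_iff (mul_ne_zero hτ0 (pow_ne_zero q hτ0))).1 h5
      exact hu'0 (hU.inf_zero hF u' h7 hu')
    · rw [hc] at h3
      exact hx0 (hU.inf_zero hF x hx.1 h3)
  · intro M hM1 hM2
    by_cases hall : M ≤ Geo.decompositionStabilizer D
    · left
      exact le_antisymm (le_inf hall hM2) hM1
    right
    apply le_antisymm hM2
    by_contra hcon
    obtain ⟨x, hxM, hxD⟩ := SetLike.not_le_iff_exists.1 hall
    have hxGU : x ∈ GU n F q := (hM2 hxM).1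
    have lift : ∀ {u w : Fin n → F},
        SInU q (Geo.decompositionStabilizer D ⊓ (GU n F q ⊓ Geo.specialLinear (Fin n) F)) u w → SInU q M u w :=
      fun h μ k hk => hM1 (h μ k hk)
    have key : ∀ (Z Z' : Submodule F (Fin n → F)), (∀ u ∈ Z, ∀ w ∈ Z, hermForm n F q u w = 0) →
        (∀ u ∈ Z', ∀ w ∈ Z', hermForm n F q u w = 0) →
        (∀ u ∈ Z, ∀ w ∈ Z', hermForm n F q u w = 0 → SInU q M u w) → 4 ≤ finrank F Z' → Z ≤ D 0 ∨ Z ≤ D 1 := by
      intro Z Z' hZi hZi' hZ hdim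
      apply tpairU_geom_half hF hU hdim
      · intro u₁ hu₁ hn' z₁ hz₁ h11
        by_contra hz
        exact hcon (su_pair_core hF hn hU (by omega) M (fun u hu w hw huw => lift (hS01 u hu w hw huw)) s (hM1 hsH)
          hsG.1 (hsurj _ _ (by rw [hk0, hk1]) hs01) u₁ z₁ (hZi _ hu₁ _ hu₁) (hZi' _ hz₁ _ hz₁) (sy _ _ h11)
          (hZ u₁ hu₁ z₁ hz₁ (sy _ _ h11)) hn' hz)
      · intro u₁ hu₁ hn' z₁ hz₁ h11
        by_contra hz
        exact hcon (su_pair_core hF hn hU.symm (by omega) M (fun u hu w hw huw => lift (hS10 u hu w hw huw)) s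
          (hM1 hsH) hsG.1 (hsurj _ _ (by rw [hk0, hk1]) hs10) u₁ z₁ (hZi _ hu₁ _ hu₁) (hZi' _ hz₁ _ hz₁)
          (sy _ _ h11) (hZ u₁ hu₁ z₁ hz₁ (sy _ _ h11)) hn' hz)
    set L := Matrix.toLin' (x : Matrix (Fin n) (Fin n) F) with hL
    have hLinj : Function.Injective L := gl_mulVec_injective x
    have hfr : ∀ i, finrank F ((D i).map L) = m := fun i => by
      rw [← (Submodule.equivMapOfInjective _ hLinj (D i)).finrank_eq, hD.finrank_eq]
    have hiso : ∀ i, ∀ u ∈ (D i).map L, ∀ w ∈ (D i).map L, hermForm n F q u w = 0 := by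
      rintro i _ ⟨u, hu, rfl⟩ _ ⟨w, hw, rfl⟩
      rw [hL, Matrix.toLin'_apply, Matrix.toLin'_apply, (mem_GU_iff x).1 hxGU]
      exact hts i u hu w hw
    have hconj : ∀ (i j : Fin 2), (∀ u ∈ D i, ∀ w ∈ D j, hermForm n F q u w = 0 → SInU q M u w) →
        ∀ u ∈ (D i).map L, ∀ w ∈ (D j).map L, hermForm n F q u w = 0 → SInU q M u w := by
      rintro i j hij _ ⟨u, hu, rfl⟩ _ ⟨w, hw, rfl⟩ huw
      rw [hL, Matrix.toLin'_apply, Matrix.toLin'_apply] at huw ⊢
      rw [(mem_GU_iff x).1 hxGU] at huw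
      exact (hij u hu w hw huw).conj x hxM hxGU
    have k0 := key _ _ (hiso 0) (hiso 1) (hconj 0 1 (fun u hu w hw huw => lift (hS01 u hu w hw huw)))
      (by rw [hfr]; omega)
    have k1 := key _ _ (hiso 1) (hiso 0) (hconj 1 0 (fun u hu w hw huw => lift (hS10 u hu w hw huw)))
      (by rw [hfr]; omega)
    have heq : ∀ i j, (D i).map L ≤ D j → (D i).map L = D j := fun i j h =>
      Submodule.eq_of_le_of_finrank_eq h (by rw [hfr, hD.finrank_eq])
    have hne : ∀ j, ¬ ((D 0).map L = D j ∧ (D 1).map L = D j) := by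
      rintro j ⟨e0, e1⟩
      obtain ⟨u, hu, hu0⟩ := Submodule.exists_mem_ne_zero_of_ne_bot hne0
      have h1 : L u ∈ (D 1).map L := by rw [e1, ← e0]; exact ⟨u, hu, rfl⟩
      obtain ⟨u', hu', huu'⟩ := h1
      rw [hLinj huu'] at hu'
      exact hu0 (hU.inf_zero hF u hu hu')
    apply hxD
    rcases k0 with k0 | k0 <;> rcases k1 with k1 | k1
    · exact absurd ⟨heq 0 0 k0, heq 1 0 k1⟩ (hne 0)
    · refine ⟨1, fun i => ?_⟩
      fin_cases i
      · exact heq 0 0 k0
      · exact heq 1 1 k1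
    · refine ⟨Equiv.swap 0 1, fun i => ?_⟩
      fin_cases i
      · exact heq 0 1 k0
      · exact heq 1 0 k1
    · exact absurd ⟨heq 0 1 k0, heq 1 1 k1⟩ (hne 1)

end Cfsg.Agent.Lib.Helper15
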