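import Mathlib
import Cfsg.Agent.Lib.Helper15.SUPair2

set_option autoImplicit false

namespace Cfsg.Agent.Lib.Helper15

open Module Matrix Cfsg Cfsg.Agent.Lib.Helper14

variable {F : Type*} [Field F] [Fintype F] {q n : ℕ}

/-- moving an isotropic vector inside the stabiliser of a totally isotropic subspace -/
theorem su_par_move (hF : Fintype.card F = q ^ 2) (W : Submodule F (Fin n → F))
    (hW : ∀ u ∈ W, ∀ v ∈ W, hermForm n F q u v = 0) (M : Subgroup (GL (Fin n) F))
    (hM : Geo.subspaceStabilizer W ⊓ (GU n F q ⊓ Geo.specialLinear (Fin n) F) ≤ M)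
    (u x₁ x : Fin n → F) (hu : u ∈ W) (hx₁ : hermForm n F q x₁ x₁ = 0) (hxx : hermForm n F q x x = 0)
    (hβ : hermForm n F q x₁ u ≠ 0) (hxu : hermForm n F q x u = hermForm n F q x₁ u)
    (hd : hermForm n F q (x - x₁) (x - x₁) = 0) (hg : GoodU q M x₁) : GoodU q M x := by
  set β := hermForm n F q x₁ u with hβdef
  set w := x - x₁ with hw
  have huu := hW u hu u hu
  have hwu : hermForm n F q w u = 0 := by rw [hw, hermForm_sub_left, hxu, sub_self]
  have huw := hermForm_eq_zero_symm hF _ _ hwu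
  set μ := (-β⁻¹) ^ q with hμ
  have hμq : μ ^ q = -β⁻¹ := by rw [hμ, pow_q_q hF]
  obtain ⟨E, hEG, hE⟩ := exists_siegel hF μ u w huu hd huw
  have hEM : E ∈ M := by
    apply hM
    refine ⟨mem_stab_of_forall W _ (fun y hy => ?_), hEG⟩
    rw [hE, hW y hy u hu, mul_zero, zero_smul, sub_zero]
    exact W.add_mem hy (W.smul_mem _ hu)
  set κ := μ * hermForm n F q x₁ w with hκ
  have e1 : (E : Matrix (Fin n) (Fin n) F) *ᵥ x₁ = x + κ • u := by
    rw [hE, hμq, ← hβdef, neg_mul, inv_mul_cancel₀ hβ, hw]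
    module
  have g1 : GoodU q M (x + κ • u) := by
    have := hg.conj E hEM hEG.1
    rwa [e1] at this
  have hiso : hermForm n F q (x + κ • u) (x + κ • u) = 0 := by
    rw [← e1, (mem_GU_iff E).1 hEG.1]; exact hx₁
  have hux : hermForm n F q u x = β ^ q := by rw [← hermForm_swap hF, hxu]
  rw [hermForm_add_left, hermForm_add_right hF, hermForm_add_right hF, hermForm_smul_left,
    hermForm_smul_left, hermForm_smul_right, hermForm_smul_right, huu, hxu, hxx, hux] at hiso
  have hβq : β ^ q ≠ 0 := pow_ne_zero q hβ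
  have hc : (-κ / β) + (-κ / β) ^ q = 0 := by
    rw [div_pow, neg_pow_q hF]
    field_simp
    linear_combination -hiso
  obtain ⟨t, htG, ht⟩ := exists_tv hF u (-κ / β) huu hc
  have htM : t ∈ M := by
    apply hM
    refine ⟨mem_stab_of_forall W _ (fun y hy => ?_), tv_mem_SU hF u _ huu hc t ht⟩
    rw [ht, hW y hy u hu, mul_zero, zero_smul, add_zero]
    exact hy
  have := g1.conj t htM htG
  rw [ht, hermForm_add_left, hermForm_smul_left, huu, hxu] at this
  have e2 : x + κ • u + (-κ / β * (β + κ * 0)) • u = x := by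
    have : -κ / β * (β + κ * 0) = -κ := by field_simp; ring
    rw [this]; module
  rwa [e2] at this

/-- maximality of the stabiliser of a totally isotropic subspace: the key step -/
theorem su_parabolic_max (hF : Fintype.card F = q ^ 2) (hn : 9 ≤ n) (W : Submodule F (Fin n → F))
    (hW : ∀ u ∈ W, ∀ v ∈ W, hermForm n F q u v = 0) (M : Subgroup (GL (Fin n) F))
    (hM : Geo.subspaceStabilizer W ⊓ (GU n F q ⊓ Geo.specialLinear (Fin n) F) ≤ M)
    (hMK : M ≤ GU n F q ⊓ Geo.specialLinear (Fin n) F)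
    (hns : ¬ M ≤ Geo.subspaceStabilizer W) : GU n F q ⊓ Geo.specialLinear (Fin n) F ≤ M := by
  have sy := fun a b => hermForm_eq_zero_symm hF (n := n) a b
  -- isotropic vectors orthogonal to `W` are good
  have hperp : ∀ z, hermForm n F q z z = 0 → (∀ w ∈ W, hermForm n F q w z = 0) → GoodU q M z := by
    intro z hzz hz c k hc hk
    apply hM
    refine ⟨mem_stab_of_forall W _ (fun w hw => ?_), tv_mem_SU hF z c hzz hc k hk⟩
    rw [hk, hz w hw, mul_zero, zero_smul, add_zero]
    exact hw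
  -- a good vector not orthogonal to `W`
  obtain ⟨x₁, hx₁g, hx₁x₁, w₁, hw₁, hx₁w₁⟩ : ∃ x₁, GoodU q M x₁ ∧ hermForm n F q x₁ x₁ = 0 ∧
      ∃ w ∈ W, hermForm n F q x₁ w ≠ 0 := by
    obtain ⟨g, hgM, hgW⟩ := SetLike.not_le_iff_exists.1 hns
    have hgGU := (hMK hgM).1
    have : ¬ ∀ w ∈ W, (g : Matrix (Fin n) (Fin n) F) *ᵥ w ∈ W := fun hc => hgW (mem_stab_of_forall W g hc)
    push Not at this
    obtain ⟨w, hw, hgw⟩ := this
    have hgwiso : hermForm n F q ((g : Matrix (Fin n) (Fin n) F) *ᵥ w) ((g : Matrix (Fin n) (Fin n) F) *ᵥ w) = 0 := by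
      rw [(mem_GU_iff g).1 hgGU]; exact hW w hw w hw
    obtain ⟨z', hz'W, hz'v⟩ := hf_exists_sep hF W _ hgw
    -- make it isotropic
    obtain ⟨t, ht⟩ := exists_trace_eq hF 1 one_ne_zero (-hermForm n F q z' z')
      (by rw [neg_pow_q hF, hermForm_self_pow hF])
    by_cases hcase : ∀ w' ∈ W, hermForm n F q w' ((g : Matrix (Fin n) (Fin n) F) *ᵥ w) = 0
    · set z := z' + t • ((g : Matrix (Fin n) (Fin n) F) *ᵥ w) with hz
      have hz'v' : hermForm n F q z' ((g : Matrix (Fin n) (Fin n) F) *ᵥ w) = 1 := by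
        rw [← hermForm_swap hF, hz'v, one_pow]
      have hzz : hermForm n F q z z = 0 := by
        rw [hz, hermForm_add_smul_self hF _ _ _ hgwiso, hz'v']
        linear_combination ht
      have hzW : ∀ w' ∈ W, hermForm n F q w' z = 0 := by
        intro w' hw'
        rw [hz, hermForm_add_right hF, hermForm_smul_right, hz'W w' hw', hcase w' hw']; ring
      have hzg := hperp z hzz hzW
      refine ⟨_, hzg.conj g⁻¹ (M.inv_mem hgM) ((GU n F q).inv_mem hgGU), ?_, w, hw, ?_⟩
      · rw [(mem_GU_iff g⁻¹).1 ((GU n F q).inv_mem hgGU)]; exact hzz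
      · rw [GU_inv_left g hgGU, hz, hermForm_add_left, hermForm_smul_left, hgwiso, hz'v']
        simp
    · push Not at hcase
      obtain ⟨w', hw', hne⟩ := hcase
      refine ⟨_, (hperp w (hW w hw w hw) (fun y hy => hW y hy w hw)).conj g hgM hgGU, hgwiso, w', hw', ?_⟩
      exact fun h => hne (sy _ _ h)
  apply SU_le_of_good hF (by omega)
  intro x hxx
  by_cases hxW : ∀ w ∈ W, hermForm n F q w x = 0
  · exact hperp x hxx hxW
  push Not at hxW
  obtain ⟨w₂, hw₂, hw₂x⟩ := hxW
  have hxw₂ : hermForm n F q x w₂ ≠ 0 := fun h => hw₂x (sy _ _ h)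
  -- a common vector of `W`
  obtain ⟨u, hu, hx₁u, hxu⟩ : ∃ u ∈ W, hermForm n F q x₁ u ≠ 0 ∧ hermForm n F q x u ≠ 0 := by
    by_cases h5 : hermForm n F q x w₁ = 0
    · by_cases h6 : hermForm n F q x₁ w₂ = 0
      · refine ⟨w₁ + w₂, W.add_mem hw₁ hw₂, ?_, ?_⟩
        · rw [hermForm_add_right hF, h6, add_zero]; exact hx₁w₁
        · rw [hermForm_add_right hF, h5, zero_add]; exact hxw₂
      · exact ⟨w₂, hw₂, h6, hxw₂⟩
    · exact ⟨w₁, hw₁, hx₁w₁, h5⟩
  set l := hermForm n F q x₁ u / hermForm n F q x u with hl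
  have hl0 : l ≠ 0 := div_ne_zero hx₁u hxu
  suffices hsuff : GoodU q M (l • x) by
    have := hsuff.smul hF l⁻¹
    rwa [smul_smul, inv_mul_cancel₀ hl0, one_smul] at this
  set x' := l • x with hx'
  have hx'x' : hermForm n F q x' x' = 0 := by
    rw [hx', hermForm_smul_left, hermForm_smul_right, hxx]; ring
  have hx'u : hermForm n F q x' u = hermForm n F q x₁ u := by
    rw [hx', hermForm_smul_left, hl]; field_simp
  by_cases hd : hermForm n F q (x' - x₁) (x' - x₁) = 0
  · exact su_par_move hF W hW M hM u x₁ x' hu hx₁x₁ hx'x' hx₁u hx'u hd hx₁g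
  · have hu0 : u ≠ 0 := by
      rintro rfl
      exact hx₁u (hermForm_zero_right hF _)
    have hli : LinearIndependent F ![u, x₁, x'] := by
      rw [Fintype.linearIndependent_iff]
      intro c hc
      simp only [Fin.sum_univ_three, Matrix.cons_val_zero, Matrix.cons_val_one, Matrix.cons_val_two,
        Matrix.head_cons, Matrix.tail_cons] at hc
      have h1 := congrArg (fun z => hermForm n F q z u) hc
      simp only [hermForm_add_left, hermForm_smul_left, hW u hu u hu, hx'u, hermForm_zero_left] at h1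
      have h2 : c 1 = - c 2 := by
        have : (c 1 + c 2) * hermForm n F q x₁ u = 0 := by linear_combination h1
        rcases mul_eq_zero.1 this with h | h
        · linear_combination h
        · exact absurd h hx₁u
      have h3 : c 2 = 0 := by
        by_contra h3
        apply hd
        have : x' - x₁ = (-(c 0) / c 2) • u := by
          have h4 : c 2 • (x' - x₁) = -(c 0) • u := by
            rw [h2] at hc
            have : c 2 • (x' - x₁) = (c 0 • u + -c 2 • x₁ + c 2 • x') - c 0 • u := by module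
            rw [this, hc]; module
          rw [div_eq_inv_mul, mul_smul, ← h4, smul_smul, inv_mul_cancel₀ h3, one_smul]
        rw [this, hermForm_smul_left, hermForm_smul_right, hW u hu u hu]; ring
      have h4 : c 1 = 0 := by rw [h2, h3, neg_zero]
      have h5 : c 0 = 0 := by
        rw [h3, h4, zero_smul, zero_smul, add_zero, add_zero] at hc
        exact (smul_eq_zero.1 hc).resolve_right hu0
      intro i
      fin_cases i
      · exact h5
      · exact h4
      · exact h3
    obtain ⟨x₂, hx₂, hx₂x₂⟩ := exists_prescribed hF ![u, x₁, x'] hli ![hermForm n F q x₁ u, 0, 0] 0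
      (by simp [q_ne_zero hF]) (by omega)
    have a1 : hermForm n F q x₂ u = hermForm n F q x₁ u := hx₂ 0
    have a2 : hermForm n F q x₂ x₁ = 0 := hx₂ 1
    have a3 : hermForm n F q x₂ x' = 0 := hx₂ 2
    have g2 : GoodU q M x₂ := su_par_move hF W hW M hM u x₁ x₂ hu hx₁x₁ hx₂x₂ hx₁u a1 (by
      rw [hermForm_sub_left, hf_sub_right hF, hf_sub_right hF, hx₂x₂, a2, sy _ _ a2, hx₁x₁]; ring) hx₁g
    exact su_par_move hF W hW M hM u x₂ x' hu hx₂x₂ hx'x' (by rw [a1]; exact hx₁u) (by rw [a1, hx'u]) (by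
      rw [hermForm_sub_left, hf_sub_right hF, hf_sub_right hF, hx₂x₂, a3, sy _ _ a3, hx'x']; ring) g2

theorem su_parabolic_isMaximalIn (hF : Fintype.card F = q ^ 2) (hn : 9 ≤ n) (W : Submodule F (Fin n → F))
    (hW0 : W ≠ ⊥) (hW : Geo.IsTotallySingularFor (hermForm n F q) W) :
    Geo.IsMaximalIn (GU n F q ⊓ Geo.specialLinear (Fin n) F)
      (Geo.subspaceStabilizer W ⊓ (GU n F q ⊓ Geo.specialLinear (Fin n) F)) := by
  constructor
  · apply lt_of_le_of_ne inf_le_right
    intro he
    obtain ⟨w, hw, hw0⟩ := Submodule.exists_mem_ne_zero_of_ne_bot hW0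
    obtain ⟨y, hyw, hyy⟩ := exists_hyperbolic_partner hF w hw0 (hW w hw w hw)
    obtain ⟨c, hc0, hc⟩ := exists_skew hF
    obtain ⟨k, -, hk⟩ := exists_tv hF y c hyy hc
    have h1 := tv_mem_SU hF y c hyy hc k hk
    rw [← he] at h1
    have h2 := ((mem_stab_iff' W _).1 h1.1 w).1 hw
    have hwy : hermForm n F q w y = 1 := by rw [← hermForm_swap hF, hyw, one_pow]
    rw [hk, hwy, mul_one] at h2
    have h3 := (W.smul_mem_iff hc0).1 ((W.add_mem_iff_right hw).1 h2)
    have h4 := hW y h3 w hw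
    rw [hyw] at h4
    exact one_ne_zero h4
  · intro M hM1 hM2
    by_cases hall : M ≤ Geo.subspaceStabilizer W
    · left
      exact le_antisymm (le_inf hall hM2) hM1
    · right
      exact le_antisymm hM2 (su_parabolic_max hF hn W hW M hM1 hM2 hall)

end Cfsg.Agent.Lib.Helper15
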