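import Mathlib
import Cfsg.Agent.Lib.Helper15.SUPar1

set_option autoImplicit false

namespace Cfsg.Agent.Lib.Helper15

open Module Matrix Cfsg Cfsg.Agent.Lib.Helper14

variable {F : Type*} [Field F] [Fintype F] {q n : ℕ}

/-- Witt's theorem for families, inside the special unitary group -/
theorem su_witt (hF : Fintype.card F = q ^ 2) {r : ℕ} (x y : Fin r → Fin n → F)
    (hx : LinearIndependent F x) (hy : LinearIndependent F y)
    (hg : ∀ i j, hermForm n F q (x i) (x j) = hermForm n F q (y i) (y j)) (hn : 2 * r + 2 < n) :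
    ∃ g : GL (Fin n) F, g ∈ GU n F q ⊓ Geo.specialLinear (Fin n) F ∧
      ∀ i, (g : Matrix (Fin n) (Fin n) F) *ᵥ x i = y i := by
  set X := Submodule.span F (Set.range x) with hX
  set Y := Submodule.span F (Set.range y) with hY
  let bX : Basis (Fin r) F X := Basis.span hx
  let bY : Basis (Fin r) F Y := Basis.span hy
  let φ : X ≃ₗ[F] Y := bX.equiv bY (Equiv.refl _)
  have hbX : ∀ i, ((bX i : X) : Fin n → F) = x i := fun i => congrArg Subtype.val (Basis.span_apply hx i)
  have hbY : ∀ i, ((bY i : Y) : Fin n → F) = y i := fun i => congrArg Subtype.val (Basis.span_apply hy i)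
  have hφb : ∀ i, φ (bX i) = bY i := fun i => by simp [φ]
  have c1 : ∀ j (a : X), hermForm n F q (φ a : Fin n → F) (y j) = hermForm n F q (a : Fin n → F) (x j) := by
    intro j
    have : (hermLin q (y j)) ∘ₗ Y.subtype ∘ₗ φ.toLinearMap = (hermLin q (x j)) ∘ₗ X.subtype := by
      apply bX.ext
      intro i
      show hermForm n F q (φ (bX i) : Fin n → F) (y j) = hermForm n F q (bX i : Fin n → F) (x j)
      rw [hφb, hbX, hbY, hg]
    intro a
    exact congrArg (fun l : X →ₗ[F] F => l a) this
  have c2 : ∀ a b : X, hermForm n F q (φ a : Fin n → F) (φ b : Fin n → F) =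
      hermForm n F q (a : Fin n → F) (b : Fin n → F) := by
    intro a b
    have : (hermLin q (φ b : Fin n → F)) ∘ₗ Y.subtype ∘ₗ φ.toLinearMap =
        (hermLin q (b : Fin n → F)) ∘ₗ X.subtype := by
      apply bX.ext
      intro i
      show hermForm n F q (φ (bX i) : Fin n → F) (φ b : Fin n → F) =
        hermForm n F q (bX i : Fin n → F) (b : Fin n → F)
      rw [hφb, hbX, hbY, ← hermForm_swap hF, c1, hermForm_swap hF]
    exact congrArg (fun l : X →ₗ[F] F => l a) this
  obtain ⟨g₀, hg₀⟩ := exists_gu_extending hF X Y φ c2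
  have hg₀x : ∀ i, g₀.1.1 *ᵥ x i = y i := by
    intro i
    have := hg₀ (bX i)
    rw [hφb, hbX, hbY] at this
    exact this
  have hδ := det_pow_eq_one hF g₀.1.1 g₀.2
  have hδ0 : g₀.1.1.det ≠ 0 := det_ne_zero_of_preserves hF _ g₀.2
  obtain ⟨c, hc, hcc⟩ := exists_prescribed hF y hy (fun _ => 0) 1 (one_pow q) hn
  have hpres := quasi_reflection_preserves hF c (g₀.1.1.det⁻¹ - 1)
    (by rw [hcc, mul_one, add_sub_cancel, inv_pow, hδ, inv_one]) (by rw [hcc]; exact one_ne_zero)
  refine ⟨(guMk hF _ hpres).1 * g₀.1, ⟨(GU n F q).mul_mem (guMk hF _ hpres).2 g₀.2, ?_⟩, fun i => ?_⟩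
  · apply (mem_specialLinear_iff' _).2
    rw [Units.val_mul, Matrix.det_mul]
    change (r1 q (g₀.1.1.det⁻¹ - 1) c c).det * g₀.1.1.det = 1
    rw [r1_det, hcc, mul_one, add_sub_cancel, inv_mul_cancel₀ hδ0]
  · rw [Units.val_mul, ← Matrix.mulVec_mulVec, hg₀x]
    change r1 q (g₀.1.1.det⁻¹ - 1) c c *ᵥ y i = y i
    rw [r1_mulVec, hermForm_eq_zero_symm hF _ _ (hc i), mul_zero, zero_smul, add_zero]

/-- writing a vector as a sum of two vectors of prescribed norm, orthogonal to a given vector -/
theorem exists_norm_decomp (hF : Fintype.card F = q ^ 2) (hn : 8 < n) (v w : Fin n → F)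
    (hvw : LinearIndependent F ![v, w]) (ν : F) (hν : ν ^ q = ν) :
    ∃ z u, hermForm n F q z v = 0 ∧ hermForm n F q z z = ν ∧ hermForm n F q (w - z) (w - z) = ν ∧
      hermForm n F q v u = 0 ∧ hermForm n F q w u = 0 ∧ hermForm n F q z u = 1 := by
  obtain ⟨u, hu, huu⟩ := exists_prescribed hF ![v, w] hvw (fun _ => 0) 1 (one_pow q) (by omega)
  have huv : hermForm n F q u v = 0 := hu 0
  have huw : hermForm n F q u w = 0 := hu 1
  have hvu := hermForm_eq_zero_symm hF _ _ huv
  have hwu := hermForm_eq_zero_symm hF _ _ huw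
  have hind : LinearIndependent F ![v, w, u] := by
    rw [Fintype.linearIndependent_iff]
    intro g hg
    rw [Fin.sum_univ_three] at hg
    simp only [Matrix.cons_val_zero, Matrix.cons_val_one, Matrix.cons_val_two, Matrix.head_cons,
      Matrix.tail_cons] at hg
    have h2 : g 2 = 0 := by
      have := congrArg (fun t => hermForm n F q t u) hg
      simp only [hermForm_add_left, hermForm_smul_left, hvu, hwu, huu, hermForm_zero_left] at this
      simpa using this
    rw [h2, zero_smul, add_zero] at hg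
    obtain ⟨h0, h1⟩ := LinearIndependent.pair_iff.1 hvw _ _ hg
    intro i
    fin_cases i
    · exact h0
    · exact h1
    · exact h2
  obtain ⟨γ, hγ⟩ := exists_trace_eq hF 1 one_ne_zero (hermForm n F q w w) (hermForm_self_pow hF n w)
  rw [one_pow, mul_one, mul_one] at hγ
  obtain ⟨z, hz, hzz⟩ := exists_prescribed hF ![v, w, u] hind ![0, γ, 1] ν hν (by omega)
  have hzv : hermForm n F q z v = 0 := hz 0
  have hzw : hermForm n F q z w = γ := hz 1
  have hzu : hermForm n F q z u = 1 := hz 2
  refine ⟨z, u, hzv, hzz, ?_, hvu, hwu, hzu⟩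
  rw [hermForm_sub_left, hf_sub_right hF, hf_sub_right hF, hzz, hzw, ← hermForm_swap hF z w, hzw]
  linear_combination -hγ

/-- a linear map having every isotropic vector as an eigenvector is a scalar -/
theorem scalar_of_isotropic_eigen (hF : Fintype.card F = q ^ 2) (hn : 6 < n)
    (A : (Fin n → F) →ₗ[F] (Fin n → F))
    (hA : ∀ v, hermForm n F q v v = 0 → ∃ l : F, A v = l • v) : ∃ l : F, ∀ x, A x = l • x := by
  obtain ⟨c₀, hc₀, hc₀'⟩ := exists_skew hF
  obtain ⟨e, he⟩ : ∃ e : Fin n → F, e ≠ 0 := by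
    have : Nonempty (Fin n) := ⟨⟨0, by omega⟩⟩
    exact exists_ne 0
  obtain ⟨v₀, hv₀e, hv₀⟩ := exists_prescribed hF ![e] (LinearIndependent.of_subsingleton 0 he) (fun _ => 1) 0
    (zero_pow (q_ne_zero hF)) (by omega)
  have hv₀0 : v₀ ≠ 0 := by
    rintro rfl
    have := hv₀e 0
    rw [hermForm_zero_left] at this
    exact zero_ne_one this
  obtain ⟨l₀, hl₀⟩ := hA v₀ hv₀
  have c1 : ∀ y, hermForm n F q y y = 0 → hermForm n F q y v₀ ≠ 0 → A y = l₀ • y := by
    intro y hyy hy
    set a := hermForm n F q y v₀ with ha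
    have hvy : hermForm n F q v₀ y = a ^ q := by rw [ha, hermForm_swap hF]
    have haq : a ^ q ≠ 0 := pow_ne_zero _ hy
    obtain ⟨ly, hly⟩ := hA y hyy
    have hiso : hermForm n F q (v₀ + (c₀ / a) • y) (v₀ + (c₀ / a) • y) = 0 := by
      simp only [hermForm_add_left, hermForm_add_right hF, hermForm_smul_left, hermForm_smul_right, hv₀, hyy,
        hvy, ← ha, div_pow]
      field_simp
      linear_combination (a * a ^ q) * hc₀'
    obtain ⟨l', hl'⟩ := hA _ hiso
    rw [map_add, map_smul, hl₀, hly] at hl'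
    have h1 := congrArg (fun t => hermForm n F q t v₀) hl'
    have h2 := congrArg (fun t => hermForm n F q t y) hl'
    simp only [hermForm_add_left, hermForm_smul_left, hv₀, hyy, hvy, ← ha] at h1 h2
    have e1 : ly = l' := by
      have : (c₀ / a * a) * (ly - l') = 0 := by linear_combination h1
      rcases mul_eq_zero.1 this with h | h
      · exfalso
        rw [div_mul_cancel₀ _ hy] at h
        exact hc₀ h
      · exact sub_eq_zero.1 h
    have e2 : l₀ = l' := by
      have : a ^ q * (l₀ - l') = 0 := by linear_combination h2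
      rcases mul_eq_zero.1 this with h | h
      · exact absurd h haq
      · exact sub_eq_zero.1 h
    rw [hly, e1, e2]
  refine ⟨l₀, fun x => ?_⟩
  by_cases hx : ∃ a : F, a • v₀ = x
  · obtain ⟨a, rfl⟩ := hx
    rw [map_smul, hl₀, smul_comm]
  · push Not at hx
    have hind : LinearIndependent F ![v₀, x] := (LinearIndependent.pair_iff' hv₀0).2 hx
    obtain ⟨γ, hγ⟩ := exists_trace_eq hF 1 one_ne_zero (hermForm n F q x x) (hermForm_self_pow hF n x)
    rw [one_pow, mul_one, mul_one] at hγ
    obtain ⟨δ, hδ0, hδ⟩ : ∃ δ : F, δ ≠ 0 ∧ δ ≠ hermForm n F q x v₀ := by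
      obtain ⟨l, hl1, hl2⟩ := exists_norm_one_sq_ne_one hF
      by_cases h1 : hermForm n F q x v₀ = 1
      · refine ⟨l, ?_, ?_⟩
        · rintro rfl
          rw [zero_pow (by omega)] at hl1
          exact zero_ne_one hl1
        · rw [h1]
          rintro rfl
          exact hl2 (one_pow 2)
      · exact ⟨1, one_ne_zero, fun h => h1 h.symm⟩
    obtain ⟨y, hy, hyy⟩ := exists_prescribed hF ![v₀, x] hind ![δ, γ] 0 (zero_pow (q_ne_zero hF)) (by omega)
    have hyv : hermForm n F q y v₀ = δ := hy 0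
    have hyx : hermForm n F q y x = γ := hy 1
    have h1 := c1 y hyy (by rw [hyv]; exact hδ0)
    have h2 := c1 (x - y) (by
      rw [hermForm_sub_left, hf_sub_right hF, hf_sub_right hF, hyy, hyx, ← hermForm_swap hF y x, hyx]
      linear_combination -hγ) (by
      rw [hermForm_sub_left, hyv]
      exact sub_ne_zero.2 (Ne.symm hδ))
    have : x = y + (x - y) := by abel
    rw [this, map_add, h1, h2, smul_add]

end Cfsg.Agent.Lib.Helper15
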