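import Mathlib
import Cfsg.Agent.Lib.Helper15.GUMax1

set_option autoImplicit false

namespace Cfsg.Agent.Lib.Helper15

open Module Matrix Cfsg Cfsg.Agent.Lib.Helper14

variable {F : Type*} [Field F] [Fintype F] {q n : ℕ}

/-- the general transvection `x ↦ x + (x, z) v` lies in `M` -/
def ZIn (q : ℕ) (M : Subgroup (GL (Fin n) F)) (v z : Fin n → F) : Prop :=
  ∀ k : GL (Fin n) F, (∀ x, (k : Matrix (Fin n) (Fin n) F) *ᵥ x = x + hermForm n F q x z • v) → k ∈ M

omit [Fintype F] in
theorem exists_tz (v z : Fin n → F) (h : hermForm n F q v z = 0) :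
    ∃ k : GL (Fin n) F, ∀ x, (k : Matrix (Fin n) (Fin n) F) *ᵥ x = x + hermForm n F q x z • v :=
  ⟨tvGL (hermLin q z) v h, fun _ => tvGL_mulVec _ _ _ _⟩

theorem ZIn.add (hF : Fintype.card F = q ^ 2) {M : Subgroup (GL (Fin n) F)} {v z₁ z₂ : Fin n → F}
    (h1 : ZIn q M v z₁) (h2 : ZIn q M v z₂) (e1 : hermForm n F q v z₁ = 0) (e2 : hermForm n F q v z₂ = 0) :
    ZIn q M v (z₁ + z₂) := by
  intro k hk
  obtain ⟨k₁, hk₁⟩ := exists_tz v z₁ e1
  obtain ⟨k₂, hk₂⟩ := exists_tz v z₂ e2
  have : k = k₁ * k₂ := gl_ext_mulVec (fun x => by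
    rw [Units.val_mul, ← Matrix.mulVec_mulVec, hk₂, hk₁, hk, hermForm_add_left, hermForm_smul_left, e1,
      hermForm_add_right hF]
    module)
  rw [this]
  exact M.mul_mem (h1 _ hk₁) (h2 _ hk₂)

omit [Fintype F] in
theorem ZIn.conj {M : Subgroup (GL (Fin n) F)} {v z : Fin n → F} (h : ZIn q M v z) (g : GL (Fin n) F)
    (hgM : g ∈ M) (hg : g ∈ GU n F q) :
    ZIn q M ((g : Matrix (Fin n) (Fin n) F) *ᵥ v) ((g : Matrix (Fin n) (Fin n) F) *ᵥ z) := by
  intro k hk
  have h1 : g⁻¹ * k * g ∈ M := h _ (fun x => by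
    rw [Units.val_mul, Units.val_mul, ← Matrix.mulVec_mulVec, ← Matrix.mulVec_mulVec, hk, (mem_GU_iff g).1 hg,
      Matrix.mulVec_add, Matrix.mulVec_smul, gl_inv_mulVec, gl_inv_mulVec])
  have : k = g * (g⁻¹ * k * g) * g⁻¹ := by group
  rw [this]
  exact M.mul_mem (M.mul_mem hgM h1) (M.inv_mem hgM)

theorem gu_max_in_SL (hF : Fintype.card F = q ^ 2) (hn : 8 < n) (M : Subgroup (GL (Fin n) F))
    (hM : Geo.similarityGroup (hermForm n F q) ⊓ Geo.specialLinear (Fin n) F ≤ M)
    (hns : ¬ M ≤ Geo.similarityGroup (hermForm n F q)) : Geo.specialLinear (Fin n) F ≤ M := by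
  have hSU : GU n F q ⊓ Geo.specialLinear (Fin n) F ≤ M := by
    intro g hg
    exact hM ⟨⟨1, fun u v => by rw [Units.val_one, one_mul]; exact (mem_GU_iff g).1 hg.1 u v⟩, hg.2⟩
  have sy := fun a b => hermForm_eq_zero_symm hF (n := n) a b
  obtain ⟨h, hhM, hhS⟩ := SetLike.not_le_iff_exists.1 hns
  set C : Matrix (Fin n) (Fin n) F := ((h : Matrix (Fin n) (Fin n) F).map (fun z => z ^ q))ᵀ with hC
  have hCf : ∀ x y, hermForm n F q (C *ᵥ x) y = hermForm n F q x ((h : Matrix (Fin n) (Fin n) F) *ᵥ y) :=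
    fun x y => hf_adjoint hF _ x y
  -- Step A
  obtain ⟨u, huu, hu⟩ : ∃ u, hermForm n F q u u = 0 ∧
      ∀ l : F, (h : Matrix (Fin n) (Fin n) F) *ᵥ (C *ᵥ u) ≠ l • u := by
    by_contra hcon
    push Not at hcon
    obtain ⟨l, hl⟩ := scalar_of_isotropic_eigen hF (by omega)
      (Matrix.toLin' ((h : Matrix (Fin n) (Fin n) F) * C)) (fun v hv => by
        obtain ⟨l, hl⟩ := hcon v hv
        exact ⟨l, by rw [Matrix.toLin'_apply, ← Matrix.mulVec_mulVec]; exact hl⟩)
    have hl' : ∀ x, C *ᵥ ((h : Matrix (Fin n) (Fin n) F) *ᵥ x) = l • x := by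
      intro x
      have := hl ((h : Matrix (Fin n) (Fin n) F) *ᵥ x)
      rw [Matrix.toLin'_apply, ← Matrix.mulVec_mulVec, ← Matrix.mulVec_smul] at this
      exact gl_mulVec_injective h this
    have hsim : ∀ x y, hermForm n F q ((h : Matrix (Fin n) (Fin n) F) *ᵥ x)
        ((h : Matrix (Fin n) (Fin n) F) *ᵥ y) = l * hermForm n F q x y := by
      intro x y
      rw [← hCf, hl', hermForm_smul_left]
    have hl0 : l ≠ 0 := by
      rintro rfl
      have := hsim (((h⁻¹ : GL (Fin n) F) : Matrix (Fin n) (Fin n) F) *ᵥ Pi.single ⟨0, by omega⟩ 1)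
        (((h⁻¹ : GL (Fin n) F) : Matrix (Fin n) (Fin n) F) *ᵥ Pi.single ⟨0, by omega⟩ 1)
      rw [gl_mulVec_inv, hf_single_single hF, if_pos rfl, zero_mul] at this
      exact one_ne_zero this
    exact hhS ⟨Units.mk0 l hl0, fun x y => hsim x y⟩
  obtain ⟨c, hc0, hc⟩ := exists_skew hF
  have hu0 : u ≠ 0 := by
    rintro rfl
    exact hu 0 (by simp)
  set v' := ((h⁻¹ : GL (Fin n) F) : Matrix (Fin n) (Fin n) F) *ᵥ u with hv'
  set z₀ := (c ^ q) • (C *ᵥ u) with hz₀
  have hhv' : (h : Matrix (Fin n) (Fin n) F) *ᵥ v' = u := gl_mulVec_inv h u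
  have hv'0 : v' ≠ 0 := by
    intro h0
    rw [h0, Matrix.mulVec_zero] at hhv'
    exact hu0 hhv'.symm
  have hxz : ∀ x, hermForm n F q x z₀ = c * hermForm n F q ((h : Matrix (Fin n) (Fin n) F) *ᵥ x) u := by
    intro x
    rw [hz₀, hermForm_smul_right, pow_q_q hF, ← hermForm_swap hF (C *ᵥ u) x, hCf, hermForm_swap hF]
  have hv'z : hermForm n F q v' z₀ = 0 := by rw [hxz, hhv', huu, mul_zero]
  have hz₀v : ∀ a : F, a • v' ≠ z₀ := by
    intro a ha
    apply hu (a / c ^ q)
    have := congrArg (fun t => (h : Matrix (Fin n) (Fin n) F) *ᵥ t) ha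
    simp only [Matrix.mulVec_smul, hhv', hz₀] at this
    rw [div_eq_inv_mul, mul_smul, this, smul_smul, inv_mul_cancel₀ (pow_ne_zero _ hc0), one_smul]
  have hZ₀ : ZIn q M v' z₀ := by
    intro k hk
    obtain ⟨t, htG, ht⟩ := exists_tv hF u c huu hc
    have htM : t ∈ M := hSU (tv_mem_SU hF u c huu hc t ht)
    have : k = h⁻¹ * t * h := gl_ext_mulVec (fun x => by
      rw [Units.val_mul, Units.val_mul, ← Matrix.mulVec_mulVec, ← Matrix.mulVec_mulVec, ht, hk,
        Matrix.mulVec_add, Matrix.mulVec_smul, gl_inv_mulVec, hxz])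
    rw [this]
    exact M.mul_mem (M.mul_mem (M.inv_mem hhM) htM) hhM
  -- Step B
  set ν := hermForm n F q z₀ z₀ with hν
  have hνq : ν ^ q = ν := hermForm_self_pow hF n z₀
  have hB1 : ∀ z, hermForm n F q v' z = 0 → hermForm n F q z z = ν → (∀ a : F, a • v' ≠ z) →
      ZIn q M v' z := by
    intro z hz hzz hzv
    obtain ⟨g, hg, hgx⟩ := su_witt hF ![v', z₀] ![v', z] ((LinearIndependent.pair_iff' hv'0).2 hz₀v)
      ((LinearIndependent.pair_iff' hv'0).2 hzv) (by
        intro i j
        fin_cases i <;> fin_cases j <;> simp [hv'z, hz, sy _ _ hv'z, sy _ _ hz, hzz, ← hν]) (by omega)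
    have h0 : (g : Matrix (Fin n) (Fin n) F) *ᵥ v' = v' := hgx 0
    have h1 : (g : Matrix (Fin n) (Fin n) F) *ᵥ z₀ = z := hgx 1
    have := hZ₀.conj g (hSU hg) hg.1
    rwa [h0, h1] at this
  have hB2 : ∀ w, hermForm n F q v' w = 0 → (∀ a : F, a • v' ≠ w) → ZIn q M v' w := by
    intro w hw hwv
    obtain ⟨z, u', hzv, hzz, hwz, hvu, hwu, hzu⟩ := exists_norm_decomp hF hn v' w
      ((LinearIndependent.pair_iff' hv'0).2 hwv) ν hνq
    have hvwz : hermForm n F q v' (w - z) = 0 := by rw [hf_sub_right hF, hw, sy _ _ hzv, sub_zero]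
    have e1 : ZIn q M v' z := hB1 z (sy _ _ hzv) hzz (by
      intro a ha
      have := congrArg (fun t => hermForm n F q t u') ha
      simp only [hermForm_smul_left, hvu, hzu, mul_zero] at this
      exact zero_ne_one this)
    have e2 : ZIn q M v' (w - z) := hB1 (w - z) hvwz hwz (by
      intro a ha
      have := congrArg (fun t => hermForm n F q t u') ha
      simp only [hermForm_smul_left, hermForm_sub_left, hvu, hzu, hwu, mul_zero] at this
      exact one_ne_zero (by linear_combination this))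
    have := e1.add hF e2 (sy _ _ hzv) hvwz
    rwa [add_sub_cancel] at this
  have hB : ∀ w, hermForm n F q v' w = 0 → ZIn q M v' w := by
    intro w hw
    by_cases hwv : ∃ a : F, a • v' = w
    · obtain ⟨a, ha⟩ := hwv
      have hvwz : hermForm n F q v' (w - z₀) = 0 := by rw [hf_sub_right hF, hw, hv'z, sub_zero]
      have e1 : ZIn q M v' (w - z₀) := hB2 _ hvwz (by
        intro b hb
        apply hz₀v (a - b)
        rw [sub_smul, ha, hb]; abel)
      have := e1.add hF hZ₀ hvwz hv'z
      rwa [sub_add_cancel] at this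
    · push Not at hwv
      exact hB2 w hw hwv
  -- Step C
  have hgood : GoodS M v' := by
    intro φ hφ
    obtain ⟨z, hz⟩ := hf_riesz hF φ
    exact hB z (by rw [hz, hφ]) _ (fun x => by rw [tvGL_mulVec, hz])
  have hC1 : ∀ v, v ≠ 0 → hermForm n F q v v = hermForm n F q v' v' → GoodS M v := by
    intro v hv hvv
    obtain ⟨g, hg, hgx⟩ := su_witt hF ![v'] ![v] (LinearIndependent.of_subsingleton 0 hv'0)
      (LinearIndependent.of_subsingleton 0 hv) (by
        intro i j
        fin_cases i; fin_cases j; simp [hvv]) (by omega)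
    have h0 : (g : Matrix (Fin n) (Fin n) F) *ᵥ v' = v := hgx 0
    rw [← h0]
    exact hgood.conj g (hSU hg)
  have : Nontrivial (Fin n) := Fin.nontrivial_iff_two_le.2 (by omega)
  apply SL_le_of_good
  intro w
  by_cases hw : w = 0
  · intro φ hφ
    have : tvGL φ w hφ = 1 := by
      apply gl_ext_mulVec
      intro x
      rw [tvGL_mulVec, hw]; simp
    rw [this]; exact M.one_mem
  · obtain ⟨v'', hv''w, hv''⟩ := exists_prescribed hF ![w] (LinearIndependent.of_subsingleton 0 hw)
      (fun _ => 0) 1 (one_pow q) (by omega)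
    have hv''w' : hermForm n F q v'' w = 0 := hv''w 0
    have hv''0 : v'' ≠ 0 := by
      rintro rfl
      rw [hermForm_zero_left] at hv''
      exact zero_ne_one hv''
    have hind : LinearIndependent F ![v'', w] := by
      apply (LinearIndependent.pair_iff' hv''0).2
      intro a ha
      have h1 := congrArg (fun t => hermForm n F q v'' t) ha
      simp only [hermForm_smul_right, hv'', hv''w', mul_one] at h1
      have h2 : a = 0 := by
        by_contra h0
        exact pow_ne_zero q h0 h1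
      rw [h2, zero_smul] at ha
      exact hw ha.symm
    obtain ⟨z, u', hzv, hzz, hwz, hvu, hwu, hzu⟩ := exists_norm_decomp hF hn v'' w hind
      (hermForm n F q v' v') (hermForm_self_pow hF n v')
    have g1 : GoodS M z := hC1 z (by
      rintro rfl
      rw [hermForm_zero_left] at hzu
      exact zero_ne_one hzu) hzz
    have g2 : GoodS M (w - z) := hC1 (w - z) (by
      intro h0
      have := congrArg (fun t => hermForm n F q t u') h0
      simp only [hermForm_sub_left, hzu, hwu, hermForm_zero_left] at this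
      exact one_ne_zero (by linear_combination -this)) hwz
    obtain ⟨φ, hφ1, hφ0⟩ := exists_dual_one (Submodule.span F {w - z}) z (by
      intro hmem
      obtain ⟨a, ha⟩ := Submodule.mem_span_singleton.1 hmem
      have h1 := congrArg (fun t => hermForm n F q t u') ha
      simp only [hermForm_smul_left, hermForm_sub_left, hzu, hwu] at h1
      have h2 : a = -1 := by linear_combination -h1
      rw [h2] at ha
      apply hw
      have : w = -((-1 : F) • (w - z) - z) := by module
      rw [this, ha, sub_self, neg_zero])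
    have h0 : φ (w - z) = 0 := hφ0 _ (Submodule.mem_span_singleton_self _)
    have := g1.conj _ (g2 φ h0)
    rw [tvGL_mulVec, hφ1, one_smul, add_sub_cancel] at this
    exact this

theorem gu_isMaximalIn_SL (hF : Fintype.card F = q ^ 2) (hn : 8 < n) :
    Geo.IsMaximalIn (Geo.specialLinear (Fin n) F)
      (Geo.similarityGroup (hermForm n F q) ⊓ Geo.specialLinear (Fin n) F) := by
  constructor
  · apply lt_of_le_of_ne inf_le_right
    intro he
    have h0 : (LinearMap.proj (⟨1, by omega⟩ : Fin n) : Module.Dual F (Fin n → F))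
        (Pi.single (⟨0, by omega⟩ : Fin n) 1) = 0 := by
      simp
    have h1 : tvGL _ _ h0 ∈ Geo.specialLinear (Fin n) F := tvGL_mem_SL _ _ _
    rw [← he] at h1
    obtain ⟨c, hc⟩ := h1.1
    have h2 := hc (Pi.single (⟨1, by omega⟩ : Fin n) 1) (Pi.single (⟨0, by omega⟩ : Fin n) 1)
    rw [tvGL_mulVec, tvGL_mulVec, h0, zero_smul, add_zero, hermForm_add_left, hermForm_smul_left,
      hf_single_single hF, hf_single_single hF] at h2
    simp at h2
  · intro M hM1 hM2
    by_cases hall : M ≤ Geo.similarityGroup (hermForm n F q)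
    · left
      exact le_antisymm (le_inf hall hM2) hM1
    · right
      exact le_antisymm hM2 (gu_max_in_SL hF hn M hM1 hall)

end Cfsg.Agent.Lib.Helper15
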