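import Mathlib
import Cfsg.Agent.Lib.Helper15.GUMax2

set_option autoImplicit false

namespace Cfsg.Agent.Lib.Helper15

open Module Matrix Cfsg Cfsg.Agent.Lib.Helper14

/-- transfer of maximality under conjugation -/
theorem isMaximalIn_of_conj {G : Type*} [Group G] (P : G) (K H K' H' : Subgroup G)
    (hK : ∀ g, g ∈ K' ↔ P * g * P⁻¹ ∈ K) (hH : ∀ g, g ∈ H' ↔ P * g * P⁻¹ ∈ H)
    (h : Geo.IsMaximalIn K' H') : Geo.IsMaximalIn K H := by
  have e : ∀ g, P * (P⁻¹ * g * P) * P⁻¹ = g := fun g => by group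
  have hK' : ∀ g, g ∈ K ↔ P⁻¹ * g * P ∈ K' := fun g => by rw [hK, e]
  have hH' : ∀ g, g ∈ H ↔ P⁻¹ * g * P ∈ H' := fun g => by rw [hH, e]
  obtain ⟨h1, h2⟩ := h
  constructor
  · rw [SetLike.lt_iff_le_and_exists] at h1 ⊢
    obtain ⟨h3, g, hg, hg'⟩ := h1
    refine ⟨fun x hx => (hK' x).2 (h3 ((hH' x).1 hx)), P * g * P⁻¹, (hK g).1 hg, fun hc => hg' ((hH g).2 hc)⟩
  · intro M hM1 hM2
    rcases h2 (M.comap (MulAut.conj P).toMonoidHom)
      (fun g hg => by
        rw [Subgroup.mem_comap]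
        exact hM1 ((hH g).1 hg))
      (fun g hg => by
        rw [Subgroup.mem_comap] at hg
        exact (hK g).2 (hM2 hg)) with h3 | h3
    · left
      apply le_antisymm _ hM1
      intro g hg
      rw [hH', ← h3, Subgroup.mem_comap]
      show P * (P⁻¹ * g * P) * P⁻¹ ∈ M
      rwa [e]
    · right
      apply le_antisymm hM2
      intro g hg
      rw [hK', ← h3, Subgroup.mem_comap] at hg
      have : P * (P⁻¹ * g * P) * P⁻¹ ∈ M := hg
      rwa [e] at this

variable {F : Type*} [Field F] [Fintype F] {n : ℕ}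

/-- an involutory automorphism of a finite field is a power map -/
theorem exists_q_of_involution (σ : F ≃+* F) (h1 : σ ≠ RingEquiv.refl F) (h2 : ∀ a, σ (σ a) = a) :
    ∃ q : ℕ, Fintype.card F = q ^ 2 ∧ ∀ x, σ x = x ^ q := by
  obtain ⟨p, hp⟩ := CharP.exists F
  have : Fact p.Prime := ⟨CharP.char_is_prime F p⟩
  let _ : Algebra (ZMod p) F := ZMod.algebra F p
  let s : F →ₐ[ZMod p] F :=
    { σ.toRingHom with
      commutes' := fun r => by
        have : (σ.toRingHom.comp (algebraMap (ZMod p) F)) = algebraMap (ZMod p) F := Subsingleton.elim _ _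
        exact congrArg (fun f : ZMod p →+* F => f r) this }
  have hsσ : ∀ x, s x = σ x := fun x => rfl
  obtain ⟨⟨i, hlt⟩, hi⟩ := (FiniteField.bijective_frobeniusAlgHom_pow (ZMod p) F).2 s
  simp only at hi
  have hs : ∀ x, σ x = x ^ (p ^ i) := by
    intro x
    have := congrArg (fun f : F →ₐ[ZMod p] F => f x) hi
    simp only [AlgHom.coe_pow, FiniteField.coe_frobeniusAlgHom, pow_iterate, ZMod.card] at this
    rw [← hsσ, ← this]
  have hcard : Fintype.card F = p ^ (Module.finrank (ZMod p) F) := by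
    have := Module.card_eq_pow_finrank (K := ZMod p) (V := F)
    rwa [ZMod.card] at this
  have hpow : (FiniteField.frobeniusAlgHom (ZMod p) F) ^ (2 * i) = 1 := by
    rw [two_mul, pow_add, hi]
    ext x
    exact h2 x
  have hdvd : Module.finrank (ZMod p) F ∣ 2 * i := by
    rw [← FiniteField.orderOf_frobeniusAlgHom]
    exact orderOf_dvd_of_pow_eq_one hpow
  have hi0 : i ≠ 0 := by
    intro h0
    apply h1
    ext x
    rw [hs, h0]; simp
  have he : 2 * i = Module.finrank (ZMod p) F := by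
    obtain ⟨k, hk⟩ := hdvd
    have hk1 : k = 1 := by
      rcases k with _ | _ | k
      · omega
      · rfl
      · exfalso
        have : Module.finrank (ZMod p) F * (k + 1 + 1) = Module.finrank (ZMod p) F * k +
          2 * Module.finrank (ZMod p) F := by ring
        omega
    rw [hk, hk1, mul_one]
  refine ⟨p ^ i, ?_, hs⟩
  rw [hcard, ← he, ← pow_mul, mul_comm]

/-- every unitary form is equivalent to the standard one -/
theorem exists_std_unitary (σ : F ≃+* F) (f : (Fin n → F) → (Fin n → F) → F) (hf : Geo.IsUnitaryForm σ f)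
    (q : ℕ) (hσ : ∀ x, σ x = x ^ q) :
    ∃ P : GL (Fin n) F, ∀ u v, f ((P : Matrix (Fin n) (Fin n) F) *ᵥ u) ((P : Matrix (Fin n) (Fin n) F) *ᵥ v) =
      hermForm n F q u v := by
  have hadd : ∀ v x y, f v (x + y) = f v x + f v y := by
    intro v x y
    rw [hf.herm, hf.add_left, map_add, ← hf.herm, ← hf.herm]
  have hsmul : ∀ (c : F) v x, f v (c • x) = σ c * f v x := by
    intro c v x
    rw [hf.herm, hf.smul_left, map_mul, ← hf.herm]
  let B : (Fin n → F) →ₛₗ[(σ : F →+* F)] (Fin n → F) →ₗ[F] F :=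
    LinearMap.mk₂'ₛₗ (σ : F →+* F) (RingHom.id F) (fun a b => f b a)
      (fun a a' b => hadd b a a')
      (fun c a b => hsmul c b a)
      (fun a b b' => hf.add_left b b' a)
      (fun c a b => hf.smul_left c b a)
  have hBdef : ∀ a b, B a b = f b a := fun a b => rfl
  have hS : B.IsSymm := ⟨fun a b => by rw [hBdef, hBdef]; exact (hf.herm a b).symm⟩
  have hB : B.Nondegenerate := by
    constructor
    · intro x hx
      by_contra h0
      obtain ⟨⟨y, hy⟩, -⟩ := hf.nondegenerate x h0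
      exact hy (hx y)
    · intro y hy
      by_contra h0
      obtain ⟨-, ⟨x, hx⟩⟩ := hf.nondegenerate y h0
      exact hx (hy x)
  obtain ⟨b₀, hb₀⟩ := Cfsg.Agent.S0755.result (σ : F →+* F)
    (fun hc => hf.ne_refl (RingEquiv.ext fun x => congrArg (fun g : F →+* F => g x) hc))
    hf.involutive B hS hB
  let b : Basis (Fin n) F (Fin n → F) := b₀.reindex (finCongr (by simp))
  have hb : ∀ i j, f (b i) (b j) = if i = j then 1 else 0 := by
    intro i j
    have := hb₀ ((finCongr (by simp : finrank F (Fin n → F) = n)).symm j)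
      ((finCongr (by simp : finrank F (Fin n → F) = n)).symm i)
    rw [hBdef] at this
    simp only [b, Basis.reindex_apply]
    rw [this]
    simp [eq_comm]
  let e : (Fin n → F) ≃ₗ[F] (Fin n → F) := b.equivFun.symm
  have he : ∀ u, e u = ∑ i, u i • b i := fun u => b.equivFun_symm_apply u
  have hdet : (LinearMap.toMatrix' (e : (Fin n → F) →ₗ[F] (Fin n → F))).det ≠ 0 := by
    rw [LinearMap.det_toMatrix']
    exact (LinearEquiv.isUnit_det' e).ne_zero
  refine ⟨Matrix.GeneralLinearGroup.mkOfDetNeZero _ hdet, fun u v => ?_⟩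
  change f (LinearMap.toMatrix' (e : (Fin n → F) →ₗ[F] (Fin n → F)) *ᵥ u)
    (LinearMap.toMatrix' (e : (Fin n → F) →ₗ[F] (Fin n → F)) *ᵥ v) = _
  rw [LinearMap.toMatrix'_mulVec, LinearMap.toMatrix'_mulVec]
  change B (e v) (e u) = _
  rw [he, he, map_sum]
  unfold hermForm
  refine Finset.sum_congr rfl fun x _ => ?_
  rw [map_smul, map_sum, LinearMap.sum_apply]
  simp only [LinearMap.map_smulₛₗ, LinearMap.smul_apply, hBdef, hb]
  simp [hσ]

/-- the similarities of a unitary form in `SL` form a maximal subgroup -/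
theorem unitary_isMaximalIn_SL (hn : 8 < n) (σ : F ≃+* F) (f : (Fin n → F) → (Fin n → F) → F)
    (hf : Geo.IsUnitaryForm σ f) :
    Geo.IsMaximalIn (Geo.specialLinear (Fin n) F) (Geo.similarityGroup f ⊓ Geo.specialLinear (Fin n) F) := by
  obtain ⟨q, hF, hσ⟩ := exists_q_of_involution σ hf.ne_refl hf.involutive
  obtain ⟨P, hP⟩ := exists_std_unitary σ f hf q hσ
  have hK : ∀ g, g ∈ Geo.specialLinear (Fin n) F ↔ P * g * P⁻¹ ∈ Geo.specialLinear (Fin n) F := by
    intro g
    unfold Geo.specialLinear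
    rw [MonoidHom.mem_ker, MonoidHom.mem_ker, map_mul, map_mul, map_inv, mul_comm, ← mul_assoc,
      inv_mul_cancel, one_mul]
  have hS : ∀ g, g ∈ Geo.similarityGroup (hermForm n F q) ↔ P * g * P⁻¹ ∈ Geo.similarityGroup f := by
    intro g
    constructor
    · rintro ⟨c, hc⟩
      refine ⟨c, fun u v => ?_⟩
      rw [Units.val_mul, Units.val_mul, ← Matrix.mulVec_mulVec, ← Matrix.mulVec_mulVec,
        ← Matrix.mulVec_mulVec, ← Matrix.mulVec_mulVec, hP, hc, ← hP, gl_mulVec_inv, gl_mulVec_inv]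
    · rintro ⟨c, hc⟩
      refine ⟨c, fun u v => ?_⟩
      have := hc ((P : Matrix (Fin n) (Fin n) F) *ᵥ u) ((P : Matrix (Fin n) (Fin n) F) *ᵥ v)
      rw [Units.val_mul, Units.val_mul, ← Matrix.mulVec_mulVec, ← Matrix.mulVec_mulVec,
        ← Matrix.mulVec_mulVec, ← Matrix.mulVec_mulVec, gl_inv_mulVec, gl_inv_mulVec, hP, hP] at this
      exact this
  refine isMaximalIn_of_conj P _ _ _ _ hK (fun g => ?_) (gu_isMaximalIn_SL hF hn)
  rw [Subgroup.mem_inf, Subgroup.mem_inf, hS, hK]

end Cfsg.Agent.Lib.Helper15
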