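import Mathlib

set_option autoImplicit false

namespace Cfsg.Agent.Lib.Helper15

theorem commutator_le_of_index_two' {G : Type*} [Group G] (H : Subgroup G) (hH : H.index = 2) :
    commutator G ≤ H := by
  rw [commutator_def, Subgroup.commutator_le]
  intro x _ y _
  rw [commutatorElement_def, Subgroup.mul_mem_iff_of_index_two hH, Subgroup.mul_mem_iff_of_index_two hH,
    Subgroup.mul_mem_iff_of_index_two hH, inv_mem_iff, inv_mem_iff]
  tauto

/-- `G` generated by a set `R` of involutions, `K` normal containing all products of two elements of `R`: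
every subgroup of index two of `K` contains the commutator subgroup of `G`. -/
theorem commutator_subgroupOf_le_of_index_two {G : Type*} [Group G] (R : Set G)
    (hR : Subgroup.closure R = ⊤) (hinv : ∀ r ∈ R, r * r = 1) (K : Subgroup G) [hKn : K.Normal]
    (hK : ∀ r ∈ R, ∀ s ∈ R, r * s ∈ K) (H : Subgroup K) (hH : H.index = 2) :
    (commutator G).subgroupOf K ≤ H := by
  set S : Set G := {y | ∃ x ∈ K, y = x * x} with hS
  set N : Subgroup G := Subgroup.normalClosure S with hN
  have hNH : N ≤ H.map K.subtype := by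
    rw [hN, Subgroup.normalClosure, Subgroup.closure_le]
    intro y hy
    obtain ⟨a, ⟨x, hx, rfl⟩, hc⟩ := Group.mem_conjugatesOfSet_iff.1 hy
    obtain ⟨c, hc⟩ := isConj_iff.1 hc
    have hx' : c * x * c⁻¹ ∈ K := hKn.conj_mem x hx c
    refine ⟨⟨c * x * c⁻¹, hx'⟩ * ⟨c * x * c⁻¹, hx'⟩, Subgroup.mul_self_mem_of_index_two hH _, ?_⟩
    rw [← hc]
    simp only [Subgroup.subtype_apply, Subgroup.coe_mul]
    group
  have key : ∀ x y : G, Commute (QuotientGroup.mk' N x) (QuotientGroup.mk' N y) := by
    intro x y
    have hx : x ∈ Subgroup.closure R := hR ▸ Subgroup.mem_top x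
    have hy : y ∈ Subgroup.closure R := hR ▸ Subgroup.mem_top y
    refine Subgroup.closure_induction₂ (p := fun x y _ _ =>
      Commute (QuotientGroup.mk' N x) (QuotientGroup.mk' N y)) ?_ ?_ ?_ ?_ ?_ ?_ ?_ hx hy
    · intro r s hr hs
      have h1 : (r * s) * (r * s) ∈ N := Subgroup.subset_normalClosure ⟨r * s, hK r hr s hs, rfl⟩
      have h2 : QuotientGroup.mk' N ((r * s) * (r * s)) = 1 := (QuotientGroup.eq_one_iff _).2 h1
      have hr2 : QuotientGroup.mk' N r * QuotientGroup.mk' N r = 1 := by
        rw [← map_mul, hinv r hr, map_one]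
      have hs2 : QuotientGroup.mk' N s * QuotientGroup.mk' N s = 1 := by
        rw [← map_mul, hinv s hs, map_one]
      simp only [map_mul] at h2
      generalize QuotientGroup.mk' N r = a at *
      generalize QuotientGroup.mk' N s = b at *
      show a * b = b * a
      calc a * b = (a * b) * ((a * b) * (b * a)) := by
            rw [show (a * b) * (b * a) = a * (b * b) * a by group, hs2, mul_one, hr2, mul_one]
        _ = ((a * b) * (a * b)) * (b * a) := by group
        _ = b * a := by rw [h2, one_mul]
    · intro x _; rw [map_one]; exact Commute.one_left _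
    · intro x _; rw [map_one]; exact Commute.one_right _
    · intro x y z _ _ _ h1 h2; rw [map_mul]; exact h1.mul_left h2
    · intro x y z _ _ _ h1 h2; rw [map_mul]; exact h1.mul_right h2
    · intro x y _ _ h1; rw [map_inv]; exact h1.inv_left
    · intro x y _ _ h1; rw [map_inv]; exact h1.inv_right
  have hcN : commutator G ≤ N := by
    rw [commutator_def, Subgroup.commutator_le]
    intro x _ y _
    rw [← QuotientGroup.eq_one_iff, ← QuotientGroup.mk'_apply, commutatorElement_def]
    simp only [map_mul, map_inv]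
    rw [(key x y).eq]
    group
  intro x hx
  have hx' : (x : G) ∈ commutator G := hx
  obtain ⟨y, hy, hyx⟩ := hNH (hcN hx')
  have : y = x := Subtype.ext hyx
  rwa [← this]

theorem eq_of_le_of_index_eq {G : Type*} [Group G] {H K : Subgroup G} (h : H ≤ K) (hH : H.index = 2)
    (hK : K.index = 2) : H = K := by
  have h1 := Subgroup.relIndex_mul_index h
  rw [hH, hK] at h1
  have h2 : H.relIndex K = 1 := by omega
  exact le_antisymm h (Subgroup.relIndex_eq_one.1 h2)

theorem sq_eq_one_units2 : ∀ w : ℤˣ × ℤˣ, w ^ 2 = 1 := by decide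

theorem card_index_two_klein : Nat.card {K : Subgroup (ℤˣ × ℤˣ) // K.index = 2} = 3 := by
  have hcard : Nat.card (ℤˣ × ℤˣ) = 4 := by simp
  have hord : ∀ w : ℤˣ × ℤˣ, w ≠ 1 → Nat.card (Subgroup.zpowers w) = 2 := by
    intro w hw
    rw [Nat.card_zpowers]
    exact orderOf_eq_prime (sq_eq_one_units2 w) hw
  have hidx : ∀ w : ℤˣ × ℤˣ, w ≠ 1 → (Subgroup.zpowers w).index = 2 := by
    intro w hw
    have := Subgroup.card_mul_index (Subgroup.zpowers w)
    rw [hord w hw, hcard] at this
    omega
  let f : {w : ℤˣ × ℤˣ // w ≠ 1} → {K : Subgroup (ℤˣ × ℤˣ) // K.index = 2} :=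
    fun w => ⟨Subgroup.zpowers w.1, hidx w.1 w.2⟩
  have hf : Function.Bijective f := by
    constructor
    · rintro ⟨w, hw⟩ ⟨w', hw'⟩ h
      have h1 : Subgroup.zpowers w = Subgroup.zpowers w' := congrArg Subtype.val h
      have h2 : w ∈ Subgroup.zpowers w' := h1 ▸ Subgroup.mem_zpowers w
      obtain ⟨k, hk⟩ := Subgroup.mem_zpowers_iff.1 h2
      apply Subtype.ext
      show w = w'
      rcases Int.even_or_odd' k with ⟨j, rfl | rfl⟩
      · exfalso
        apply hw
        rw [← hk, zpow_mul, zpow_ofNat, sq_eq_one_units2, one_zpow]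
      · rw [← hk, zpow_add, zpow_mul, zpow_ofNat, sq_eq_one_units2, one_zpow, one_mul, zpow_one]
    · rintro ⟨K, hK⟩
      have hKc : Nat.card K = 2 := by
        have := Subgroup.card_mul_index K
        rw [hK, hcard] at this
        omega
      have : ∃ w ∈ K, w ≠ 1 := by
        by_contra hcon
        push Not at hcon
        have : K = ⊥ := (Subgroup.eq_bot_iff_forall K).2 hcon
        rw [this] at hKc
        simp at hKc
      obtain ⟨w, hwK, hw⟩ := this
      refine ⟨⟨w, hw⟩, Subtype.ext ?_⟩
      show Subgroup.zpowers w = K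
      apply Subgroup.eq_of_le_of_card_ge
      · rwa [Subgroup.zpowers_le]
      · rw [hord w hw, hKc]
  rw [← Nat.card_congr (Equiv.ofBijective f hf)]
  rw [Nat.card_eq_fintype_card, Fintype.card_subtype_compl, Fintype.card_subtype_eq]
  simp

theorem card_index_two_eq_three {G : Type*} [Group G] (φ : G →* ℤˣ × ℤˣ) (hφ : Function.Surjective φ)
    (hker : φ.ker = commutator G) : Nat.card {H : Subgroup G // H.index = 2} = 3 := by
  rw [← card_index_two_klein]
  refine Nat.card_congr ⟨fun H => ⟨H.1.map φ, ?_⟩, fun K => ⟨K.1.comap φ, ?_⟩, ?_, ?_⟩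
  · rw [Subgroup.index_map_eq _ hφ (hker ▸ commutator_le_of_index_two' H.1 H.2)]
    exact H.2
  · rw [Subgroup.index_comap_of_surjective _ hφ]
    exact K.2
  · intro H
    apply Subtype.ext
    exact Subgroup.comap_map_eq_self (hker ▸ commutator_le_of_index_two' H.1 H.2)
  · intro K
    apply Subtype.ext
    exact Subgroup.map_comap_eq_self_of_surjective hφ K.1

end Cfsg.Agent.Lib.Helper15
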