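import Mathlib
import Cfsg.Agent.Lib.Helper15.ParMax1

set_option autoImplicit false

namespace Cfsg.Agent.Lib.Helper15

open Module QuadraticMap Cfsg Matrix

variable {F : Type*} [Field F] {ι : Type} [Fintype ι] [DecidableEq ι]

/-- an orthogonal decomposition of the whole space -/
structure OPair (Q : QuadraticForm F (ι → F)) (A B : Submodule F (ι → F)) : Prop where
  perp : ∀ a ∈ A, ∀ b ∈ B, polar Q a b = 0
  sup : A ⊔ B = ⊤

namespace OPair

variable {Q : QuadraticForm F (ι → F)} {A B : Submodule F (ι → F)}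

omit [Fintype ι] [DecidableEq ι] in
theorem symm (h : OPair Q A B) : OPair Q B A :=
  ⟨fun b hb a ha => by rw [polar_comm]; exact h.perp a ha b hb, by rw [sup_comm]; exact h.sup⟩

omit [Fintype ι] [DecidableEq ι] in
theorem split (h : OPair Q A B) (x : ι → F) : ∃ a ∈ A, ∃ b ∈ B, x = a + b := by
  have : x ∈ A ⊔ B := by rw [h.sup]; trivial
  obtain ⟨a, ha, b, hb, rfl⟩ := Submodule.mem_sup.1 this
  exact ⟨a, ha, b, hb, rfl⟩

omit [Fintype ι] [DecidableEq ι] in
/-- the left member is non-degenerate -/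
theorem nd_left (h : OPair Q A B) (hQ : (polarBilin Q).Nondegenerate) (a : ι → F) (ha : a ∈ A)
    (hx : ∀ a' ∈ A, polar Q a' a = 0) : a = 0 := by
  apply hQ.1 a
  intro y
  obtain ⟨a', ha', b', hb', rfl⟩ := h.split y
  show polar Q a (a' + b') = 0
  rw [polar_add_right, h.perp a ha b' hb', add_zero, polar_comm]
  exact hx a' ha'

omit [Fintype ι] [DecidableEq ι] in
theorem inf_zero (h : OPair Q A B) (hQ : (polarBilin Q).Nondegenerate) (x : ι → F) (hA : x ∈ A) (hB : x ∈ B) :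
    x = 0 :=
  h.nd_left hQ x hA (fun a' ha' => h.perp a' ha' x hB)

omit [Fintype ι] [DecidableEq ι] in
theorem mem_right (h : OPair Q A B) (hQ : (polarBilin Q).Nondegenerate) (x : ι → F)
    (hx : ∀ a ∈ A, polar Q a x = 0) : x ∈ B := by
  obtain ⟨a, ha, b, hb, rfl⟩ := h.split x
  have : a = 0 := h.nd_left hQ a ha (fun a' ha' => by
    have h1 := hx a' ha'
    rwa [polar_add_right, h.perp a' ha' b hb, add_zero] at h1)
  rw [this, zero_add]; exact hb

omit [Fintype ι] [DecidableEq ι] in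
theorem mem_left (h : OPair Q A B) (hQ : (polarBilin Q).Nondegenerate) (x : ι → F)
    (hx : ∀ b ∈ B, polar Q b x = 0) : x ∈ A := h.symm.mem_right hQ x hx

omit [Fintype ι] [DecidableEq ι] in
theorem isCompl (h : OPair Q A B) (hQ : (polarBilin Q).Nondegenerate) : IsCompl A B := by
  refine ⟨?_, codisjoint_iff.2 h.sup⟩
  rw [Submodule.disjoint_def]
  exact fun x hA hB => h.inf_zero hQ x hA hB

omit [DecidableEq ι] in
theorem finrank_add (h : OPair Q A B) (hQ : (polarBilin Q).Nondegenerate) :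
    finrank F A + finrank F B = Fintype.card ι := by
  rw [Submodule.finrank_add_eq_of_isCompl (h.isCompl hQ), finrank_fintype_fun_eq_card]

omit [Fintype ι] [DecidableEq ι] in
/-- the right member is determined by the left one -/
theorem right_unique (h : OPair Q A B) (hQ : (polarBilin Q).Nondegenerate) {B' : Submodule F (ι → F)}
    (h' : OPair Q A B') : B = B' :=
  le_antisymm (fun x hx => h'.mem_right hQ x (fun a ha => h.perp a ha x hx))
    (fun x hx => h.mem_right hQ x (fun a ha => h'.perp a ha x hx))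

theorem map (h : OPair Q A B) (g : isometryGroup F Q) : OPair Q (A.map (toEnd Q g)) (B.map (toEnd Q g)) := by
  constructor
  · rintro _ ⟨a, ha, rfl⟩ _ ⟨b, hb, rfl⟩
    rw [(toEnd_isIso Q g).polar]
    exact h.perp a ha b hb
  · rw [← Submodule.map_sup, h.sup, Submodule.map_top, LinearMap.range_eq_top]
    intro x
    refine ⟨toEnd Q g⁻¹ x, ?_⟩
    rw [← Module.End.mul_apply, ← map_mul, mul_inv_cancel, map_one]; rfl

end OPair

theorem toEnd_inj_apply (Q : (ι → F) → F) (g : isometryGroup F Q) : Function.Injective (toEnd Q g) := by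
  intro x y hxy
  have h1 : ∀ z, toEnd Q g⁻¹ (toEnd Q g z) = z := fun z => by
    rw [← Module.End.mul_apply, ← map_mul, inv_mul_cancel, map_one]; rfl
  rw [← h1 x, hxy, h1]

theorem finrank_map_toEnd (Q : (ι → F) → F) (g : isometryGroup F Q) (A : Submodule F (ι → F)) :
    finrank F (A.map (toEnd Q g)) = finrank F A :=
  (LinearEquiv.finrank_eq (Submodule.equivMapOfInjective (toEnd Q g) (toEnd_inj_apply Q g) A)).symm

/-- the Eichler transformation with parameters `u`, `z` lies in `M` -/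
def EIn (Q : QuadraticForm F (ι → F)) (M : Subgroup (isometryGroup F Q)) (u z : ι → F) : Prop :=
  ∀ k : isometryGroup F Q, toEnd Q k = eichL Q u z → k ∈ M

namespace EIn

variable {Q : QuadraticForm F (ι → F)} {M : Subgroup (isometryGroup F Q)} {u z z₁ z₂ : ι → F}

theorem add (hQ : (polarBilin Q).Nondegenerate) (hu : Q u = 0) (h1 : polar Q u z₁ = 0) (h2 : polar Q u z₂ = 0)
    (e1 : EIn Q M u z₁) (e2 : EIn Q M u z₂) : EIn Q M u (z₁ + z₂) := by
  intro k hk
  have : k = ofEnd Q hQ _ (eichL_isIso Q u z₁ hu h1) * ofEnd Q hQ _ (eichL_isIso Q u z₂ hu h2) := by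
    apply toEnd_injective Q
    rw [map_mul, toEnd_ofEnd, toEnd_ofEnd, hk, eich_add Q u z₁ z₂ hu h1 h2]
  rw [this]
  exact M.mul_mem (e1 _ (toEnd_ofEnd _ _ _ _)) (e2 _ (toEnd_ofEnd _ _ _ _))

theorem neg (hQ : (polarBilin Q).Nondegenerate) (hu : Q u = 0) (h1 : polar Q u z = 0)
    (e1 : EIn Q M u z) : EIn Q M u (-z) := by
  intro k hk
  have : k = (ofEnd Q hQ _ (eichL_isIso Q u z hu h1))⁻¹ := by
    apply eq_inv_of_mul_eq_one_left
    apply toEnd_injective Q
    rw [map_mul, toEnd_ofEnd, hk, eich_neg_mul Q u z hu h1, map_one]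
  rw [this]
  exact M.inv_mem (e1 _ (toEnd_ofEnd _ _ _ _))

theorem conj (e1 : EIn Q M u z) (g : isometryGroup F Q) (hg : g ∈ M) :
    EIn Q M (toEnd Q g u) (toEnd Q g z) := by
  intro k hk
  have h1 := toEnd_conj_eich Q g⁻¹ k _ _ hk
  have h2 : ∀ x, toEnd Q g⁻¹ (toEnd Q g x) = x := fun x => by
    rw [← Module.End.mul_apply, ← map_mul, inv_mul_cancel, map_one]; rfl
  rw [h2, h2, inv_inv] at h1
  have h4 := e1 _ h1
  have : k = g * (g⁻¹ * k * g) * g⁻¹ := by group
  rw [this]; exact M.mul_mem (M.mul_mem hg h4) (M.inv_mem hg)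

theorem zero (Q : QuadraticForm F (ι → F)) (M : Subgroup (isometryGroup F Q)) (u : ι → F) : EIn Q M u 0 := by
  intro k hk
  rw [eich_zero, ← map_one (toEnd Q)] at hk
  rw [toEnd_injective Q hk]
  exact M.one_mem

theorem of_stab [Fintype F] (hQ : (polarBilin Q).Nondegenerate) (hn : 5 ≤ Fintype.card ι)
    (A : Submodule F (ι → F)) (hM : ∀ g ∈ Omega F Q, Stab A g → g ∈ M) (hu : Q u = 0) (huz : polar Q u z = 0)
    (hst : ∀ x ∈ A, eichL Q u z x ∈ A) : EIn Q M u z := by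
  intro k hk
  obtain ⟨k', hk', hkΩ⟩ := eich_mem_Omega Q hQ (Or.inr (by omega)) u z hu huz
  have : k = k' := toEnd_injective Q (by rw [hk, hk'])
  rw [this]
  apply hM k' hkΩ
  intro x hx
  rw [← toEnd_apply, hk']
  exact hst x hx

end EIn

theorem EIn.of_left [Fintype F] {Q : QuadraticForm F (ι → F)} {M : Subgroup (isometryGroup F Q)}
    (hQ : (polarBilin Q).Nondegenerate) (hn : 5 ≤ Fintype.card ι)
    (A : Submodule F (ι → F)) (hM : ∀ g ∈ Omega F Q, Stab A g → g ∈ M) (u z : ι → F) (huA : u ∈ A) (hzA : z ∈ A)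
    (hu : Q u = 0) (huz : polar Q u z = 0) : EIn Q M u z := by
  apply EIn.of_stab hQ hn A hM hu huz
  intro x hx
  rw [eichL_apply]
  exact A.add_mem (A.add_mem hx (A.smul_mem _ huA)) (A.smul_mem _ hzA)

theorem EIn.of_right [Fintype F] {Q : QuadraticForm F (ι → F)} {M : Subgroup (isometryGroup F Q)}
    (hQ : (polarBilin Q).Nondegenerate) (hn : 5 ≤ Fintype.card ι)
    {A B : Submodule F (ι → F)} (hAB : OPair Q A B) (hM : ∀ g ∈ Omega F Q, Stab A g → g ∈ M) (u z : ι → F)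
    (huB : u ∈ B) (hzB : z ∈ B) (hu : Q u = 0) (huz : polar Q u z = 0) : EIn Q M u z := by
  apply EIn.of_stab hQ hn A hM hu huz
  intro x hx
  rw [eichL_apply, polar_comm Q z x, hAB.perp x hx z hzB, polar_comm Q u x, hAB.perp x hx u huB]
  simpa using hx

/-- the commutator step -/
theorem nd_comm_step [Fintype F] (Q : QuadraticForm F (ι → F)) (hQ : (polarBilin Q).Nondegenerate)
    {A B : Submodule F (ι → F)} (hAB : OPair Q A B) (hB : 7 ≤ finrank F B) (M : Subgroup (isometryGroup F Q))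
    (hBin : ∀ u ∈ B, ∀ z ∈ B, Q u = 0 → polar Q u z = 0 → EIn Q M u z)
    (u₁ y : ι → F) (hu₁ : Q u₁ = 0) (hu₁y : polar Q u₁ y = 0) (hE : EIn Q M u₁ y) (hu₁B : u₁ ∉ B)
    (hy : y ∉ A ⊔ Submodule.span F {u₁}) :
    ∃ u₂ ∈ B, u₂ ≠ 0 ∧ Q u₂ = 0 ∧ ∃ a ∈ A, a ≠ 0 ∧ EIn Q M u₂ a := by
  obtain ⟨a, ha, b, hb, rfl⟩ := hAB.split u₁
  obtain ⟨yA, hyA, yB, hyB, rfl⟩ := hAB.split y
  have ha0 : a ≠ 0 := by
    rintro rfl
    rw [zero_add] at hu₁B
    exact hu₁B hb
  have hyBb : yB ∉ Submodule.span F {b} := by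
    intro hc
    obtain ⟨c, rfl⟩ := Submodule.mem_span_singleton.1 hc
    apply hy
    have : yA + c • b = (yA - c • a) + c • (a + b) := by rw [smul_add]; abel
    rw [this]
    exact Submodule.add_mem _ (Submodule.mem_sup_left (A.sub_mem hyA (A.smul_mem _ ha)))
      (Submodule.mem_sup_right (Submodule.smul_mem _ _ (Submodule.mem_span_singleton_self _)))
  set S := Submodule.span F {b, yB} with hS
  set K := (B ⊓ LinearMap.ker (polarBilin Q b)) ⊓ LinearMap.ker (polarBilin Q yB) with hK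
  have h1 := finrank_le_inf_ker B (polarBilin Q b)
  have h2 : finrank F ↥(B ⊓ LinearMap.ker (polarBilin Q b)) ≤ finrank F K + 1 :=
    finrank_le_inf_ker (B ⊓ LinearMap.ker (polarBilin Q b)) (polarBilin Q yB)
  have h3 : finrank F S ≤ 2 := finrank_span_pair_le (F := F) b yB
  obtain ⟨u₂, hu₂K, hu₂S, hQu₂⟩ := exists_sing_avoid Q S K (by omega)
  have hu₂B : u₂ ∈ B := hu₂K.1.1
  have hbu₂ : polar Q b u₂ = 0 := hu₂K.1.2
  have hyu₂ : polar Q yB u₂ = 0 := hu₂K.2
  have hu₂0 : u₂ ≠ 0 := by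
    rintro rfl
    exact hu₂S (Submodule.zero_mem _)
  have hnot : yB ∉ A ⊔ Submodule.span F {u₂, b} := by
    intro hc
    obtain ⟨a', ha', s, hs, hsum⟩ := Submodule.mem_sup.1 hc
    obtain ⟨α, β, rfl⟩ := Submodule.mem_span_pair.1 hs
    have hsB : α • u₂ + β • b ∈ B := B.add_mem (B.smul_mem _ hu₂B) (B.smul_mem _ hb)
    have ha'0 : a' = 0 := by
      apply hAB.inf_zero hQ a' ha'
      have : a' = yB - (α • u₂ + β • b) := by rw [← hsum]; abel
      rw [this]; exact B.sub_mem hyB hsB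
    rw [ha'0, zero_add] at hsum
    by_cases hα : α = 0
    · rw [hα, zero_smul, zero_add] at hsum
      exact hyBb (by rw [← hsum]; exact Submodule.smul_mem _ _ (Submodule.mem_span_singleton_self _))
    · apply hu₂S
      have : u₂ = α⁻¹ • yB - (α⁻¹ * β) • b := by
        rw [← hsum, smul_add, smul_smul, smul_smul, inv_mul_cancel₀ hα, one_smul]; abel
      rw [this]
      exact Submodule.sub_mem _ (Submodule.smul_mem _ _ (Submodule.subset_span (by simp)))
        (Submodule.smul_mem _ _ (Submodule.subset_span (by simp)))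
  obtain ⟨z₂, hz₂S, hyz₂⟩ := exists_orth_sep Q hQ _ yB hnot
  have hz₂B : z₂ ∈ B := hAB.mem_right hQ z₂ (fun a' ha' => hz₂S a' (Submodule.mem_sup_left ha'))
  have hu₂z₂ : polar Q u₂ z₂ = 0 := hz₂S u₂ (Submodule.mem_sup_right (Submodule.subset_span (by simp)))
  have hbz₂ : polar Q b z₂ = 0 := hz₂S b (Submodule.mem_sup_right (Submodule.subset_span (by simp)))
  -- conjugate
  have e1 := (hBin u₂ hu₂B z₂ hz₂B hQu₂ hu₂z₂).conj (ofEnd Q hQ _ (eichL_isIso Q _ _ hu₁ hu₁y))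
    (hE _ (toEnd_ofEnd _ _ _ _))
  rw [toEnd_ofEnd] at e1
  have c1 : eichL Q (a + b) (yA + yB) u₂ = u₂ := by
    rw [eichL_apply, polar_add_left, polar_add_left, hAB.perp yA hyA u₂ hu₂B, hyu₂, hAB.perp a ha u₂ hu₂B, hbu₂]
    simp
  have c2 : eichL Q (a + b) (yA + yB) z₂ = z₂ + (a + b) := by
    rw [eichL_apply, polar_add_left, polar_add_left, hAB.perp yA hyA z₂ hz₂B, hyz₂, hAB.perp a ha z₂ hz₂B, hbz₂]
    simp
  rw [c1, c2] at e1
  refine ⟨u₂, hu₂B, hu₂0, hQu₂, a, ha, ha0, ?_⟩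
  have hu₂b : polar Q u₂ b = 0 := by rw [polar_comm]; exact hbu₂
  have hu₂a : polar Q u₂ a = 0 := by rw [polar_comm]; exact hAB.perp a ha u₂ hu₂B
  have p1 : polar Q u₂ (z₂ + b) = 0 := by rw [polar_add_right, hu₂z₂, hu₂b, add_zero]
  have e2 := (hBin u₂ hu₂B (z₂ + b) (B.add_mem hz₂B hb) hQu₂ p1).neg hQ hQu₂ p1
  have e3 := EIn.add hQ hQu₂ (by rw [polar_add_right, polar_add_right, hu₂z₂, hu₂a, hu₂b]; simp)
    (by rw [polar_neg_right, p1, neg_zero]) e1 e2
  have : z₂ + (a + b) + -(z₂ + b) = a := by abel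
  rwa [this] at e3

end Cfsg.Agent.Lib.Helper15
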