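import Mathlib
import Cfsg.Agent.Lib.Helper15.ParMax1

set_option autoImplicit false

namespace Cfsg.Agent.Lib.Helper15

open Module QuadraticMap Cfsg Matrix

variable {F V : Type*} [Field F] [AddCommGroup V] [Module F V]

theorem polar_zero_of_sing (Q : QuadraticForm F V) (A : Submodule F V) (h : ∀ x ∈ A, Q x = 0) (x y : V)
    (hx : x ∈ A) (hy : y ∈ A) : polar Q x y = 0 := by
  unfold polar
  rw [h _ (A.add_mem hx hy), h x hx, h y hy]; simp

theorem finrank_span_pair_eq (x y : V) (hx : x ≠ 0) (hy : y ∉ Submodule.span F {x}) :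
    finrank F (Submodule.span F {x, y}) = 2 := by
  have hli : LinearIndependent F ![x, y] := by
    rw [LinearIndependent.pair_iff]
    intro s t hst
    by_cases ht : t = 0
    · subst ht
      rw [zero_smul, add_zero] at hst
      exact ⟨(smul_eq_zero.1 hst).resolve_right hx, rfl⟩
    · exfalso
      apply hy
      rw [Submodule.mem_span_singleton]
      refine ⟨-(t⁻¹ * s), ?_⟩
      have : y = t⁻¹ • (t • y) := by rw [smul_smul, inv_mul_cancel₀ ht, one_smul]
      rw [this, eq_neg_of_add_eq_zero_right hst, smul_neg, smul_smul, neg_smul]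
  have := finrank_span_eq_card hli
  rw [Fintype.card_fin] at this
  have e : Set.range ![x, y] = {x, y} := by
    ext z
    simp [eq_comm, or_comm]
  rw [e] at this
  exact this

/-- dichotomy for non-singular vectors -/
theorem irr_key (Q : QuadraticForm F V) (A T : Submodule F V)
    (hrefl : ∀ a ∈ T, ∀ x ∈ A, Q x ≠ 0 → reflL Q x a ∈ T) (x : V) (hx : x ∈ A) (hQx : Q x ≠ 0) :
    x ∈ T ∨ ∀ t ∈ T, polar Q x t = 0 := by
  by_contra hc
  push Not at hc
  obtain ⟨hxT, t, ht, hxt⟩ := hc
  have h1 := hrefl t ht x hx hQx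
  rw [reflL_apply] at h1
  have h2 : ((Q x)⁻¹ * polar Q x t) • x ∈ T := by
    have : ((Q x)⁻¹ * polar Q x t) • x = t - (t - ((Q x)⁻¹ * polar Q x t) • x) := by abel
    rw [this]; exact T.sub_mem ht h1
  exact hxT ((T.smul_mem_iff (mul_ne_zero (inv_ne_zero hQx) hxt)).1 h2)

/-- the non-singular vectors span, apart from the hyperbolic plane over the field of two elements -/
theorem irr_span [Fintype F] (Q : QuadraticForm F V) (A N : Submodule F V)
    (hA : ∀ a ∈ A, (∀ x ∈ A, polar Q a x = 0) → a = 0)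
    (hN : ∀ x ∈ A, Q x ≠ 0 → x ∈ N)
    (hex : ¬ (Fintype.card F ≤ 3 ∧ finrank F A = 2 ∧ ∃ x ∈ A, x ≠ 0 ∧ Q x = 0)) : A ≤ N := by
  intro x hxA
  by_contra hxN
  have hQx : Q x = 0 := by
    by_contra h
    exact hxN (hN x hxA h)
  have hx0 : x ≠ 0 := by
    rintro rfl
    exact hxN N.zero_mem
  have key : ∀ y ∈ A, Q y ≠ 0 → ∀ c : F, c * c * Q y + c * polar Q x y = 0 := by
    intro y hy hQy c
    have h1 : Q (x + c • y) = 0 := by
      by_contra h
      have h2 := hN _ (A.add_mem hxA (A.smul_mem c hy)) h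
      exact hxN ((N.add_mem_iff_left (N.smul_mem c (hN y hy hQy))).1 h2)
    rw [Q_add_one, hQx] at h1
    linear_combination h1
  by_cases h2 : Fintype.card F = 2
  swap
  · obtain ⟨α, hα0, hα1⟩ := exists_third h2
    have hall : ∀ y ∈ A, Q y = 0 := by
      intro y hy
      by_contra hQy
      have e1 := key y hy hQy 1
      have e2 := key y hy hQy α
      have e3 : α * (α - 1) * Q y = 0 := by linear_combination e2 - α * e1
      exact (mul_ne_zero (mul_ne_zero hα0 (sub_ne_zero.2 hα1)) hQy) e3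
    exact hx0 (hA x hxA (fun y hy => polar_zero_of_sing Q A hall x y hxA hy))
  · apply hex
    refine ⟨by omega, ?_, x, hxA, hx0, hQx⟩
    have hp : ∀ y ∈ A, Q y ≠ 0 → polar Q x y ≠ 0 := by
      intro y hy hQy h0
      have e1 := key y hy hQy 1
      rw [h0] at e1
      apply hQy
      linear_combination e1
    obtain ⟨x₁, hx₁A, hxx₁⟩ : ∃ x₁ ∈ A, polar Q x x₁ ≠ 0 := by
      by_contra hc
      push Not at hc
      exact hx0 (hA x hxA hc)
    set p := polar Q x x₁ with hp'
    set x' := x₁ + (-(Q x₁ / p)) • x with hx'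
    have hx'A : x' ∈ A := A.add_mem hx₁A (A.smul_mem _ hxA)
    have hQx' : Q x' = 0 := by
      rw [hx', Q_add_one, hQx, polar_comm Q x₁ x, ← hp']
      field_simp
      ring
    have hxx' : polar Q x x' = p := by
      rw [hx', polar_add_right, polar_smul_right, polar_self, hQx]; simp [hp']
    have hx'x' : polar Q x' x' = 0 := by rw [polar_self, hQx']; simp
    have hxx : polar Q x x = 0 := by rw [polar_self, hQx]; simp
    have hdec : ∀ w ∈ A, w - (polar Q x' w / p) • x - (polar Q x w / p) • x' = 0 := by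
      -- the complement is totally singular
      have hsing : ∀ w ∈ A, polar Q x w = 0 → polar Q x' w = 0 → Q w = 0 := by
        intro w hw h1 _
        by_contra hQw
        exact hp w hw hQw h1
      have hproj : ∀ w ∈ A, (w - (polar Q x' w / p) • x - (polar Q x w / p) • x' ∈ A) ∧
          polar Q x (w - (polar Q x' w / p) • x - (polar Q x w / p) • x') = 0 ∧
          polar Q x' (w - (polar Q x' w / p) • x - (polar Q x w / p) • x') = 0 := by
        intro w hw
        refine ⟨A.sub_mem (A.sub_mem hw (A.smul_mem _ hxA)) (A.smul_mem _ hx'A), ?_, ?_⟩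
        · rw [polar_sub_right, polar_sub_right, polar_smul_right, polar_smul_right, hxx, hxx']
          simp only [smul_eq_mul]
          field_simp
          ring
        · rw [polar_sub_right, polar_sub_right, polar_smul_right, polar_smul_right, hx'x', polar_comm Q x' x, hxx']
          simp only [smul_eq_mul]
          field_simp
          ring
      let A₀ : Submodule F V := A ⊓ (LinearMap.ker (polarBilin Q x) ⊓ LinearMap.ker (polarBilin Q x'))
      have hA₀ : ∀ w ∈ A₀, Q w = 0 := fun w hw => hsing w hw.1 hw.2.1 hw.2.2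
      intro w hw
      obtain ⟨m1, m2, m3⟩ := hproj w hw
      apply hA _ m1
      intro v hv
      obtain ⟨n1, n2, n3⟩ := hproj v hv
      have e1 : v = (v - (polar Q x' v / p) • x - (polar Q x v / p) • x') + (polar Q x' v / p) • x +
        (polar Q x v / p) • x' := by abel
      rw [e1, polar_add_right, polar_add_right, polar_smul_right, polar_smul_right,
        polar_comm Q _ x, m2, polar_comm Q _ x', m3,
        polar_zero_of_sing Q A₀ hA₀ _ _ ⟨m1, m2, m3⟩ ⟨n1, n2, n3⟩]
      simp
    have hAeq : A = Submodule.span F {x, x'} := by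
      apply le_antisymm
      · intro w hw
        have := hdec w hw
        have e1 : w = (polar Q x' w / p) • x + (polar Q x w / p) • x' := by
          have e2 : w = (w - (polar Q x' w / p) • x - (polar Q x w / p) • x') + (polar Q x' w / p) • x +
            (polar Q x w / p) • x' := by abel
          rw [this, zero_add] at e2
          exact e2
        rw [e1]
        exact Submodule.add_mem _ (Submodule.smul_mem _ _ (Submodule.subset_span (by simp)))
          (Submodule.smul_mem _ _ (Submodule.subset_span (by simp)))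
      · rw [Submodule.span_le]
        rintro w (rfl | rfl)
        · exact hxA
        · exact hx'A
    rw [hAeq]
    apply finrank_span_pair_eq x x' hx0
    intro hc
    obtain ⟨c, hc⟩ := Submodule.mem_span_singleton.1 hc
    rw [← hc, polar_smul_right, hxx, smul_zero] at hxx'
    exact hxx₁ hxx'.symm

/-- irreducibility of the orthogonal group of a non-degenerate subspace -/
theorem nd_irr [Fintype F] (Q : QuadraticForm F V) (A T : Submodule F V)
    (hA : ∀ a ∈ A, (∀ x ∈ A, polar Q a x = 0) → a = 0) (hTA : T ≤ A) (hT0 : T ≠ ⊥)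
    (hrefl : ∀ a ∈ T, ∀ x ∈ A, Q x ≠ 0 → reflL Q x a ∈ T)
    (heich : ∀ a ∈ T, ∀ s ∈ A, ∀ w ∈ A, Q s = 0 → polar Q s w = 0 → eichL Q s w a ∈ T)
    (hex : ¬ (Fintype.card F ≤ 3 ∧ finrank F A = 2 ∧ ∃ x ∈ A, x ≠ 0 ∧ Q x = 0)) : T = A := by
  by_contra hne
  let T' : Submodule F V := A ⊓ LinearMap.BilinForm.orthogonal (polarBilin Q) T
  have hT' : ∀ y, y ∈ T' ↔ y ∈ A ∧ ∀ t ∈ T, polar Q t y = 0 := fun y => by
    show y ∈ A ∧ y ∈ LinearMap.BilinForm.orthogonal (polarBilin Q) T ↔ _
    rw [LinearMap.BilinForm.mem_orthogonal_iff]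
    rfl
  have hK := irr_key Q A T hrefl
  have hsum : A ≤ T ⊔ T' := by
    apply irr_span Q A _ hA _ hex
    intro x hx hQx
    rcases hK x hx hQx with h | h
    · exact Submodule.mem_sup_left h
    · exact Submodule.mem_sup_right ((hT' x).2 ⟨hx, fun t ht => by rw [polar_comm]; exact h t ht⟩)
  have hsplit : ∀ x ∈ A, ∃ t ∈ T, ∃ s ∈ T', x = t + s := by
    intro x hx
    obtain ⟨t, ht, s, hs, rfl⟩ := Submodule.mem_sup.1 (hsum hx)
    exact ⟨t, ht, s, hs, rfl⟩
  have hinf : ∀ r, r ∈ T → r ∈ T' → r = 0 := by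
    intro r hr hr'
    apply hA r (hTA hr)
    intro x hx
    obtain ⟨t, ht, s, hs, rfl⟩ := hsplit x hx
    rw [polar_add_right, polar_comm Q r t, ((hT' r).1 hr').2 t ht, ((hT' s).1 hs).2 r hr, add_zero]
  obtain ⟨t₀, ht₀, ht₀0⟩ := Submodule.exists_mem_ne_zero_of_ne_bot hT0
  obtain ⟨s₀, hs₀, hs₀0⟩ : ∃ s₀ ∈ T', s₀ ≠ 0 := by
    by_contra hc
    push Not at hc
    apply hne
    apply le_antisymm hTA
    intro x hx
    obtain ⟨t, ht, s, hs, rfl⟩ := hsplit x hx
    rw [hc s hs, add_zero]; exact ht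
  have hQts : ∀ t ∈ T, t ≠ 0 → ∀ s ∈ T', s ≠ 0 → Q t + Q s = 0 := by
    intro t ht ht0 s hs hs0
    have h1 : Q (t + s) = 0 := by
      by_contra hq
      rcases hK (t + s) (A.add_mem (hTA ht) ((hT' s).1 hs).1) hq with h | h
      · exact hs0 (hinf s ((T.add_mem_iff_right ht).1 h) hs)
      · apply ht0
        apply hinf t ht
        rw [hT']
        refine ⟨hTA ht, fun t' ht' => ?_⟩
        have h2 := h t' ht'
        rw [polar_add_left, polar_comm Q s t', ((hT' s).1 hs).2 t' ht', add_zero] at h2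
        rw [polar_comm]; exact h2
    rw [QuadraticMap.map_add Q, ((hT' s).1 hs).2 t ht, add_zero] at h1
    exact h1
  set κ := Q t₀ with hκ
  have hQs : ∀ s ∈ T', s ≠ 0 → Q s = -κ := by
    intro s hs hs0
    have := hQts t₀ ht₀ ht₀0 s hs hs0
    linear_combination this
  have hQt : ∀ t ∈ T, t ≠ 0 → Q t = κ := by
    intro t ht ht0
    have h1 := hQts t ht ht0 s₀ hs₀ hs₀0
    have h2 := hQs s₀ hs₀ hs₀0
    linear_combination h1 - h2
  have hκ0 : κ ≠ 0 := by
    intro h0
    apply ht₀0
    apply hA t₀ (hTA ht₀)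
    have hall : ∀ x ∈ A, Q x = 0 := by
      intro x hx
      obtain ⟨t, ht, s, hs, rfl⟩ := hsplit x hx
      rw [QuadraticMap.map_add Q, ((hT' s).1 hs).2 t ht, add_zero]
      by_cases ht0 : t = 0
      · by_cases hs0 : s = 0
        · rw [ht0, hs0]; simp
        · rw [ht0, hQs s hs hs0, h0]; simp
      · by_cases hs0 : s = 0
        · rw [hs0, hQt t ht ht0, h0]; simp
        · exact hQts t ht ht0 s hs hs0
    exact fun x hx => polar_zero_of_sing Q A hall _ _ (hTA ht₀) hx
  have hc1 : ∀ c : F, c ≠ 0 → c = 1 ∨ c = -1 := by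
    intro c hc
    have h1 := hQt (c • t₀) (T.smul_mem c ht₀) (smul_ne_zero hc ht₀0)
    rw [QuadraticMap.map_smul, ← hκ, smul_eq_mul] at h1
    have h2 : (c - 1) * (c + 1) * κ = 0 := by linear_combination h1
    rcases mul_eq_zero.1 h2 with h3 | h3
    · rcases mul_eq_zero.1 h3 with h4 | h4
      · left; linear_combination h4
      · right; linear_combination h4
    · exact absurd h3 hκ0
  have hcard : Fintype.card F ≤ 3 := by
    classical
    have : (Finset.univ : Finset F) ⊆ {0, 1, -1} := by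
      intro c _
      by_cases hc : c = 0
      · simp [hc]
      · rcases hc1 c hc with h | h <;> simp [h]
    calc Fintype.card F = (Finset.univ : Finset F).card := rfl
      _ ≤ ({0, 1, -1} : Finset F).card := Finset.card_le_card this
      _ ≤ 3 := Finset.card_le_three
  by_cases h2 : (2 : F) = 0
  · -- characteristic two: use an Eichler transformation
    have hone : ∀ c : F, c ≠ 0 → c = 1 := by
      intro c hc
      rcases hc1 c hc with h | h
      · exact h
      · rw [h]; linear_combination (-1 : F) * h2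
    obtain ⟨t₁, ht₁, htt⟩ : ∃ t₁ ∈ T, polar Q t₀ t₁ ≠ 0 := by
      by_contra hc
      push Not at hc
      apply ht₀0
      apply hA t₀ (hTA ht₀)
      intro x hx
      obtain ⟨t, ht, s, hs, rfl⟩ := hsplit x hx
      rw [polar_add_right, hc t ht, ((hT' s).1 hs).2 t₀ ht₀, add_zero]
    obtain ⟨s₁, hs₁, hss⟩ : ∃ s₁ ∈ T', polar Q s₀ s₁ ≠ 0 := by
      by_contra hc
      push Not at hc
      apply hs₀0
      apply hA s₀ ((hT' s₀).1 hs₀).1
      intro x hx
      obtain ⟨t, ht, s, hs, rfl⟩ := hsplit x hx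
      rw [polar_add_right, hc s hs, polar_comm, ((hT' s₀).1 hs₀).2 t ht, add_zero]
    have htt1 := hone _ htt
    have hss1 := hone _ hss
    have ht₁0 : t₁ ≠ 0 := by
      rintro rfl
      simp at htt
    have hs₁0 : s₁ ≠ 0 := by
      rintro rfl
      simp at hss
    have hQu : Q (t₀ + s₀) = 0 := by
      rw [QuadraticMap.map_add Q, ((hT' s₀).1 hs₀).2 t₀ ht₀, add_zero]
      exact hQts t₀ ht₀ ht₀0 s₀ hs₀ hs₀0
    have hQz : Q (t₁ + s₁) = 0 := by
      rw [QuadraticMap.map_add Q, ((hT' s₁).1 hs₁).2 t₁ ht₁, add_zero]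
      exact hQts t₁ ht₁ ht₁0 s₁ hs₁ hs₁0
    have huz : polar Q (t₀ + s₀) (t₁ + s₁) = 0 := by
      rw [polar_add_left, polar_add_right, polar_add_right, htt1, hss1, ((hT' s₁).1 hs₁).2 t₀ ht₀,
        polar_comm Q s₀ t₁, ((hT' s₀).1 hs₀).2 t₁ ht₁]
      linear_combination h2
    have h3 := heich t₁ ht₁ (t₀ + s₀) (A.add_mem (hTA ht₀) ((hT' s₀).1 hs₀).1) (t₁ + s₁)
      (A.add_mem (hTA ht₁) ((hT' s₁).1 hs₁).1) hQu huz
    rw [eichL_apply, hQz, polar_add_left, polar_add_left, htt1, polar_comm Q s₀ t₁, ((hT' s₀).1 hs₀).2 t₁ ht₁,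
      polar_comm Q s₁ t₁, ((hT' s₁).1 hs₁).2 t₁ ht₁, polar_self'] at h3
    have e1 : t₁ + (2 * Q t₁ + 0 - 0 * (1 + 0)) • (t₀ + s₀) + (-(1 + 0) : F) • (t₁ + s₁) = -s₁ := by
      rw [h2]
      simp
    rw [e1] at h3
    exact hs₁0 (hinf s₁ (by simpa using h3) hs₁)
  · -- odd characteristic: a hyperbolic plane
    apply hex
    have hline : ∀ (X : Submodule F V) (x₀ : V) (c : F), c ≠ 0 → x₀ ∈ X → x₀ ≠ 0 → (∀ x ∈ X, x ≠ 0 → Q x = c) →
        ∀ x ∈ X, x ∈ Submodule.span F {x₀} := by
      intro X x₀ c hc hx₀ n4 hX x hx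
      by_contra hn
      have n1 : x + x₀ ≠ 0 := by
        intro h
        apply hn
        rw [eq_neg_of_add_eq_zero_left h]
        exact Submodule.neg_mem _ (Submodule.mem_span_singleton_self _)
      have n2 : x - x₀ ≠ 0 := by
        intro h
        apply hn
        rw [sub_eq_zero.1 h]
        exact Submodule.mem_span_singleton_self _
      have n3 : x ≠ 0 := by
        rintro rfl
        exact hn (Submodule.zero_mem _)
      have e1 := hX _ (X.add_mem hx hx₀) n1
      have e2 := hX _ (X.sub_mem hx hx₀) n2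
      have e3 := Q_add_one Q x x₀ 1
      have e4 := Q_add_one Q x x₀ (-1)
      rw [one_smul, e1, hX x hx n3, hX x₀ hx₀ n4] at e3
      rw [neg_one_smul, ← sub_eq_add_neg, e2, hX x hx n3, hX x₀ hx₀ n4] at e4
      have e5 : (2 : F) * c = 0 := by linear_combination (-1 : F) * e3 - e4
      exact (mul_ne_zero h2 hc) e5
    have hTl := hline T t₀ κ hκ0 ht₀ ht₀0 hQt
    have hTl' := hline T' s₀ (-κ) (neg_ne_zero.2 hκ0) hs₀ hs₀0 hQs
    refine ⟨hcard, ?_, t₀ + s₀, A.add_mem (hTA ht₀) ((hT' s₀).1 hs₀).1, ?_, ?_⟩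
    · have hAeq : A = Submodule.span F {t₀, s₀} := by
        apply le_antisymm
        · intro x hx
          obtain ⟨t, ht, s, hs, rfl⟩ := hsplit x hx
          obtain ⟨a, rfl⟩ := Submodule.mem_span_singleton.1 (hTl t ht)
          obtain ⟨b, rfl⟩ := Submodule.mem_span_singleton.1 (hTl' s hs)
          exact Submodule.add_mem _ (Submodule.smul_mem _ _ (Submodule.subset_span (by simp)))
            (Submodule.smul_mem _ _ (Submodule.subset_span (by simp)))
        · rw [Submodule.span_le]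
          rintro w (rfl | rfl)
          · exact hTA ht₀
          · exact ((hT' _).1 hs₀).1
      rw [hAeq]
      apply finrank_span_pair_eq t₀ s₀ ht₀0
      intro hc
      obtain ⟨c, hc⟩ := Submodule.mem_span_singleton.1 hc
      exact hs₀0 (hinf s₀ (by rw [← hc]; exact T.smul_mem _ ht₀) hs₀)
    · intro h
      apply hs₀0
      apply hinf s₀ _ hs₀
      rw [eq_neg_of_add_eq_zero_right h]
      exact T.neg_mem ht₀
    · rw [QuadraticMap.map_add Q, ((hT' s₀).1 hs₀).2 t₀ ht₀, add_zero]
      exact hQts t₀ ht₀ ht₀0 s₀ hs₀ hs₀0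

end Cfsg.Agent.Lib.Helper15
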