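import Mathlib
import Cfsg.Agent.Lib.Helper15.NdMax1
import Cfsg.Agent.Lib.Helper15.NdMax2

set_option autoImplicit false

namespace Cfsg.Agent.Lib.Helper15

open Module QuadraticMap Cfsg Matrix

section abstract

variable {F V : Type*} [Field F] [AddCommGroup V] [Module F V]

theorem HPair.Q_sub_smul {Q : QuadraticForm F V} {e f : V} (h : HPair Q e f) (c : F) : Q (e - c • f) = -c := by
  have := Q_add_one Q e f (-c)
  rw [neg_smul, ← sub_eq_add_neg] at this
  rw [this, h.Qe, h.Qf, h.ef]; ring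

theorem HPair.refl_right {Q : QuadraticForm F V} {e f : V} (h : HPair Q e f) (c : F) (hc : c ≠ 0) :
    reflL Q (e - c • f) f = c⁻¹ • e := by
  rw [reflL_apply, h.Q_sub_smul, polar_sub_left, polar_smul_left, h.ef, h.ff, smul_zero, sub_zero, mul_one,
    smul_sub, smul_smul]
  have e1 : (-c)⁻¹ * c = -1 := by field_simp
  have e2 : (-c)⁻¹ = -c⁻¹ := by field_simp
  rw [e1, e2]
  module

theorem HPair.refl_left {Q : QuadraticForm F V} {e f : V} (h : HPair Q e f) (c : F) (hc : c ≠ 0) :
    reflL Q (e - c • f) e = c • f := by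
  rw [reflL_apply, h.Q_sub_smul, polar_sub_left, polar_smul_left, h.ee, h.fe, smul_eq_mul, mul_one, zero_sub]
  have e1 : (-c)⁻¹ * -c = 1 := by field_simp
  rw [e1]
  module

theorem HPair.Q_add_smul {Q : QuadraticForm F V} {e f : V} (h : HPair Q e f) (c : F) : Q (e + c • f) = c := by
  rw [Q_add_one, h.Qe, h.Qf, h.ef]; ring

end abstract

variable {F : Type*} [Field F] {ι : Type} [Fintype ι] [DecidableEq ι]

/-- one mixed Eichler transformation forces everything -/
theorem nd_step_one [Fintype F] (Q : QuadraticForm F (ι → F)) (hQ : (polarBilin Q).Nondegenerate)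
    {A B : Submodule F (ι → F)} (hAB : OPair Q A B) (hB : 7 ≤ finrank F B) (M : Subgroup (isometryGroup F Q))
    (hM : ∀ g ∈ Omega F Q, Stab A g → g ∈ M)
    (hex : ¬ (Fintype.card F ≤ 3 ∧ finrank F A = 2 ∧ ∃ x ∈ A, x ≠ 0 ∧ Q x = 0))
    (u : ι → F) (huB : u ∈ B) (hu0 : u ≠ 0) (hQu : Q u = 0) (a₀ : ι → F) (ha₀ : a₀ ∈ A) (ha₀0 : a₀ ≠ 0)
    (hE : EIn Q M u a₀) : Omega F Q ≤ M := by
  have hn : 7 ≤ Fintype.card ι := by
    have := hAB.finrank_add hQ
    omega
  have hn5 : 5 ≤ Fintype.card ι := by omega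
  have huA : u ∉ A := fun h => hu0 (hAB.inf_zero hQ u h huB)
  obtain ⟨u', hQu', hu'A, huu'⟩ := exists_sing_partner Q hQ A u huA hQu (fun s hs => hAB.perp s hs u huB)
  have hu'B : u' ∈ B := hAB.mem_right hQ u' hu'A
  have hP : HPair Q u u' := ⟨hQu, hQu', huu'⟩
  -- a second hyperbolic pair
  obtain ⟨e, f, hef, heB, hfB, hue, huf, hu'e, hu'f⟩ : ∃ e f, HPair Q e f ∧ e ∈ B ∧ f ∈ B ∧ polar Q u e = 0 ∧
      polar Q u f = 0 ∧ polar Q u' e = 0 ∧ polar Q u' f = 0 := by
    set K := (B ⊓ LinearMap.ker (polarBilin Q u)) ⊓ LinearMap.ker (polarBilin Q u') with hK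
    have h1 := finrank_le_inf_ker B (polarBilin Q u)
    have h2 : finrank F ↥(B ⊓ LinearMap.ker (polarBilin Q u)) ≤ finrank F K + 1 :=
      finrank_le_inf_ker (B ⊓ LinearMap.ker (polarBilin Q u)) (polarBilin Q u')
    obtain ⟨e, heK, he0, hQe⟩ := exists_sing_avoid Q ⊥ K (by rw [finrank_bot]; omega)
    have heB : e ∈ B := heK.1.1
    have hue : polar Q u e = 0 := heK.1.2
    have hu'e : polar Q u' e = 0 := heK.2
    have heS : e ∉ A ⊔ Submodule.span F {u, u'} := by
      intro hc
      obtain ⟨a', ha', s, hs, hsum⟩ := Submodule.mem_sup.1 hc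
      obtain ⟨α, β, rfl⟩ := Submodule.mem_span_pair.1 hs
      have e1 : β = 0 := by
        have := hue
        rw [← hsum, polar_add_right, polar_add_right, polar_smul_right, polar_smul_right, hP.ee, hP.ef,
          polar_comm Q u a', hAB.perp a' ha' u huB] at this
        simpa using this
      have e2 : α = 0 := by
        have := hu'e
        rw [← hsum, polar_add_right, polar_add_right, polar_smul_right, polar_smul_right, hP.ff, hP.fe,
          polar_comm Q u' a', hAB.perp a' ha' u' hu'B] at this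
        simpa using this
      rw [e1, e2] at hsum
      simp only [zero_smul, add_zero] at hsum
      apply he0
      rw [Submodule.mem_bot]
      exact hAB.inf_zero hQ e (by rw [← hsum]; exact ha') heB
    obtain ⟨f, hQf, hfS, hef⟩ := exists_sing_partner Q hQ _ e heS hQe (by
      intro s hs
      obtain ⟨a', ha', s', hs', rfl⟩ := Submodule.mem_sup.1 hs
      obtain ⟨α, β, rfl⟩ := Submodule.mem_span_pair.1 hs'
      rw [polar_add_left, polar_add_left, polar_smul_left, polar_smul_left, hue, hu'e, hAB.perp a' ha' e heB]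
      simp)
    refine ⟨e, f, ⟨hQe, hQf, hef⟩, heB, hAB.mem_right hQ f (fun a' ha' => hfS a' (Submodule.mem_sup_left ha')),
      hue, hfS u (Submodule.mem_sup_right (Submodule.subset_span (by simp))), hu'e,
      hfS u' (Submodule.mem_sup_right (Submodule.subset_span (by simp)))⟩
  -- pairs of reflections
  have hpair : ∀ x y (hx : Q x ≠ 0) (hy : Q y ≠ 0), Q x = Q y → (∀ a ∈ A, reflL Q x a ∈ A) →
      (∀ a ∈ A, reflL Q y a ∈ A) → refl Q x hx * refl Q y hy ∈ M := by
    intro x y hx hy hxy hxA hyA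
    apply hM _ (refl_mul_refl_mem' Q hQ x y hx hy ⟨Q x, by rw [hxy]⟩)
    intro a ha
    rw [← toEnd_apply, map_mul, toEnd_refl, toEnd_refl, Module.End.mul_apply]
    exact hxA _ (hyA a ha)
  have hfixB : ∀ y ∈ B, ∀ a ∈ A, reflL Q y a = a := fun y hy a ha =>
    reflL_of_orth Q y a (by rw [polar_comm]; exact hAB.perp a ha y hy)
  have hfixB' : ∀ y ∈ B, ∀ a ∈ A, reflL Q y a ∈ A := fun y hy a ha => by rw [hfixB y hy a ha]; exact ha
  have hua : ∀ a ∈ A, polar Q u a = 0 := fun a ha => by rw [polar_comm]; exact hAB.perp a ha u huB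
  -- torus elements
  have htor : ∀ c : F, c ≠ 0 → ∃ k ∈ M, toEnd Q k u' = c⁻¹ • u ∧ toEnd Q k u = c • u' ∧ ∀ a ∈ A, toEnd Q k a = a := by
    intro c hc
    have q1 : Q (u - c • u') ≠ 0 := by rw [hP.Q_sub_smul]; exact neg_ne_zero.2 hc
    have q2 : Q (e - c • f) ≠ 0 := by rw [hef.Q_sub_smul]; exact neg_ne_zero.2 hc
    have b1 : u - c • u' ∈ B := B.sub_mem huB (B.smul_mem _ hu'B)
    have b2 : e - c • f ∈ B := B.sub_mem heB (B.smul_mem _ hfB)
    refine ⟨_, hpair _ _ q1 q2 (by rw [hP.Q_sub_smul, hef.Q_sub_smul]) (hfixB' _ b1) (hfixB' _ b2), ?_, ?_, ?_⟩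
    · rw [map_mul, toEnd_refl, toEnd_refl, Module.End.mul_apply, reflL_of_orth Q (e - c • f) u' (by
        rw [polar_sub_left, polar_smul_left, polar_comm Q e u', hu'e, polar_comm Q f u', hu'f]; simp),
        hP.refl_right c hc]
    · rw [map_mul, toEnd_refl, toEnd_refl, Module.End.mul_apply, reflL_of_orth Q (e - c • f) u (by
        rw [polar_sub_left, polar_smul_left, polar_comm Q e u, hue, polar_comm Q f u, huf]; simp),
        hP.refl_left c hc]
    · intro a ha
      rw [map_mul, toEnd_refl, toEnd_refl, Module.End.mul_apply, hfixB _ b2 a ha, hfixB _ b1 a ha]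
  let T : Submodule F (ι → F) :=
    { carrier := {a | a ∈ A ∧ EIn Q M u a}
      add_mem' := fun {a b} ha hb => ⟨A.add_mem ha.1 hb.1, EIn.add hQ hQu (hua a ha.1) (hua b hb.1) ha.2 hb.2⟩
      zero_mem' := ⟨A.zero_mem, EIn.zero Q M u⟩
      smul_mem' := by
        intro c a ha
        refine ⟨A.smul_mem c ha.1, ?_⟩
        by_cases hc : c = 0
        · rw [hc, zero_smul]; exact EIn.zero Q M u
        obtain ⟨k₁, hk₁, -, h12, h13⟩ := htor 1 one_ne_zero
        obtain ⟨k₂, hk₂, h21, -, h23⟩ := htor c⁻¹ (inv_ne_zero hc)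
        have e1 := (ha.2.conj k₁ hk₁).conj k₂ hk₂
        rw [h12, h13 a ha.1, one_smul, h21, h23 a ha.1, inv_inv] at e1
        intro k hk
        apply e1
        rw [hk, eich_smul_left] }
  have hT : ∀ a, a ∈ T ↔ a ∈ A ∧ EIn Q M u a := fun a => Iff.rfl
  have hTA : T = A := by
    apply nd_irr Q A T (fun a ha h => hAB.nd_left hQ a ha (fun a' ha' => by rw [polar_comm]; exact h a' ha'))
      (fun a ha => ha.1) _ _ _ hex
    · intro h
      have : a₀ ∈ T := ⟨ha₀, hE⟩
      rw [h, Submodule.mem_bot] at this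
      exact ha₀0 this
    · intro a ha x hx hQx
      have hxA : ∀ a ∈ A, reflL Q x a ∈ A := by
        intro a' ha'
        rw [reflL_apply]
        exact A.sub_mem ha' (A.smul_mem _ hx)
      refine ⟨hxA a ha.1, ?_⟩
      have q2 : Q (e + Q x • f) ≠ 0 := by rw [hef.Q_add_smul]; exact hQx
      have b2 : e + Q x • f ∈ B := B.add_mem heB (B.smul_mem _ hfB)
      have hk := hpair x _ hQx q2 (by rw [hef.Q_add_smul]) hxA (hfixB' _ b2)
      have e1 := ha.2.conj _ hk
      rw [map_mul, toEnd_refl, toEnd_refl, Module.End.mul_apply, Module.End.mul_apply, hfixB _ b2 a ha.1,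
        reflL_of_orth Q (e + Q x • f) u (by
          rw [polar_add_left, polar_smul_left, polar_comm Q e u, hue, polar_comm Q f u, huf]; simp),
        reflL_of_orth Q x u (hAB.perp x hx u huB)] at e1
      exact e1
    · intro a ha s hs w hw hQs hsw
      have hk := EIn.of_left hQ hn5 A hM s w hs hw hQs hsw (ofEnd Q hQ _ (eichL_isIso Q s w hQs hsw))
        (toEnd_ofEnd _ _ _ _)
      have e1 := ha.2.conj _ hk
      rw [toEnd_ofEnd] at e1
      have e2 : eichL Q s w u = u := by
        rw [eichL_apply, hAB.perp w hw u huB, hAB.perp s hs u huB]; simp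
      rw [e2] at e1
      refine ⟨?_, e1⟩
      rw [eichL_apply]
      exact A.add_mem (A.add_mem ha.1 (A.smul_mem _ hs)) (A.smul_mem _ hw)
  have hgood : GoodV Q M u := by
    refine ⟨hQu, fun z hz => ?_⟩
    obtain ⟨a, ha, b, hb, rfl⟩ := hAB.split z
    have hub : polar Q u b = 0 := by
      rw [polar_add_right, hua a ha, zero_add] at hz
      exact hz
    have haT : a ∈ T := by rw [hTA]; exact ha
    exact EIn.add hQ hQu (hua a ha) hub haT.2 (EIn.of_right hQ hn5 hAB hM u b huB hb hQu hub)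
  obtain ⟨k₁, hk₁, -, h12, -⟩ := htor 1 one_ne_zero
  have hgood' := hgood.conj k₁ hk₁
  rw [h12, one_smul] at hgood'
  exact Omega_le_of_good_pair Q hQ hn5 u u' hgood hgood' (by rw [huu']; exact one_ne_zero)

end Cfsg.Agent.Lib.Helper15
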