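import Mathlib
import Cfsg.Agent.Lib.Helper15.NdMax3

set_option autoImplicit false

namespace Cfsg.Agent.Lib.Helper15

open Module QuadraticMap Cfsg Matrix

variable {F : Type*} [Field F] {ι : Type} [Fintype ι] [DecidableEq ι]

/-- a non-degenerate subspace of dimension at least three is spanned by its singular vectors -/
theorem OPair.le_of_sing [Finite F] {Q : QuadraticForm F (ι → F)} {Y Y' : Submodule F (ι → F)} (h : OPair Q Y Y')
    (hQ : (polarBilin Q).Nondegenerate) (hY : 3 ≤ finrank F Y) (X : Submodule F (ι → F))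
    (hX : ∀ y ∈ Y, Q y = 0 → y ∈ X) : Y ≤ X := by
  obtain ⟨e, heY, he0, hQe⟩ := exists_sing_avoid Q ⊥ Y (by rw [finrank_bot]; omega)
  have he0' : e ≠ 0 := fun hc => he0 (by rw [hc]; exact Submodule.zero_mem _)
  have heY' : e ∉ Y' := fun hc => he0' (h.inf_zero hQ e heY hc)
  obtain ⟨f, hQf, hfY', hef⟩ := exists_sing_partner Q hQ Y' e heY' hQe (fun s hs => by
    rw [polar_comm]; exact h.perp e heY s hs)
  have hfY : f ∈ Y := h.mem_left hQ f hfY'
  intro x hx
  obtain ⟨d₁, d₂, d₃, m1, m2, m3, q1, q2, q3, rfl⟩ := sum_three_singular Q Y e f ⟨hQe, hQf, hef⟩ heY hfY x hx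
  exact X.add_mem (X.add_mem (hX _ m1 q1) (hX _ m2 q2)) (hX _ m3 q3)

omit [Fintype ι] [DecidableEq ι] in
theorem OPair.perp_of_mem_sup {Q : QuadraticForm F (ι → F)} {A B : Submodule F (ι → F)} (h : OPair Q A B)
    (x v w : ι → F) (hx : x ∈ B) (hv : polar Q v x = 0) (hw : w ∈ A ⊔ Submodule.span F {v}) : polar Q w x = 0 := by
  obtain ⟨a, ha, s, hs, rfl⟩ := Submodule.mem_sup.1 hw
  obtain ⟨c, rfl⟩ := Submodule.mem_span_singleton.1 hs
  rw [polar_add_left, polar_smul_left, hv, h.perp a ha x hx]; simp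

/-- the geometric analysis -/
theorem nd_geom [Finite F] (Q : QuadraticForm F (ι → F)) (hQ : (polarBilin Q).Nondegenerate)
    {A B W W' : Submodule F (ι → F)} (hAB : OPair Q A B) (hW : OPair Q W W') (hB : 7 ≤ finrank F B)
    (hBW : finrank F W' = finrank F B) (hAW : finrank F W = finrank F A) (h1 : W ≠ A) (h2 : W ≠ B)
    (hF : ∀ Y, (Y = W ∨ Y = W') → ∀ u₁ ∈ Y, Q u₁ = 0 → u₁ ∉ B → ∀ y ∈ Y, polar Q u₁ y = 0 →
      y ∈ A ⊔ Submodule.span F {u₁}) : False := by
  -- a singular vector of `W'` outside `B`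
  obtain ⟨u₁, hu₁W, hQu₁, hu₁B⟩ : ∃ u₁ ∈ W', Q u₁ = 0 ∧ u₁ ∉ B := by
    by_contra hc
    push Not at hc
    have h3 : W' ≤ B := hW.symm.le_of_sing hQ (by omega) B hc
    have h4 : W' = B := Submodule.eq_of_le_of_finrank_eq h3 hBW
    apply h1
    have h5 := hW.symm
    rw [h4] at h5
    exact h5.right_unique hQ hAB.symm
  have hu₁0 : u₁ ≠ 0 := by
    rintro rfl
    exact hu₁B B.zero_mem
  obtain ⟨u₁', hu₁'W, hQu₁', hu₁'B, hu₁'s⟩ : ∃ u₁' ∈ W', Q u₁' = 0 ∧ u₁' ∉ B ∧ u₁' ∉ Submodule.span F {u₁} := by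
    have k1 := finrank_le_inf_ker W' (polarBilin Q u₁)
    have k2 := finrank_span_singleton_le (F := F) u₁
    obtain ⟨s, hsK, hss, hQs⟩ := exists_sing_avoid Q (Submodule.span F {u₁})
      (W' ⊓ LinearMap.ker (polarBilin Q u₁)) (by omega)
    have hu₁s : polar Q u₁ s = 0 := hsK.2
    by_cases hsB : s ∈ B
    · refine ⟨s + u₁, W'.add_mem hsK.1 hu₁W, ?_, ?_, ?_⟩
      · rw [QuadraticMap.map_add Q, hQs, hQu₁, polar_comm, hu₁s]; simp
      · exact fun hc => hu₁B ((B.add_mem_iff_right hsB).1 hc)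
      · exact fun hc => hss ((Submodule.add_mem_iff_left _ (Submodule.mem_span_singleton_self _)).1 hc)
    · exact ⟨s, hsK.1, hQs, hsB, hss⟩
  obtain ⟨t, htS, hu₁t⟩ := exists_orth_sep Q hQ (W ⊔ Submodule.span F {u₁'}) u₁ (by
    intro hc
    obtain ⟨w, hw, s, hs, hsum⟩ := Submodule.mem_sup.1 hc
    obtain ⟨c, rfl⟩ := Submodule.mem_span_singleton.1 hs
    have hw0 : w = 0 := by
      apply hW.inf_zero hQ w hw
      have : w = u₁ - c • u₁' := by rw [← hsum]; abel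
      rw [this]; exact W'.sub_mem hu₁W (W'.smul_mem _ hu₁'W)
    rw [hw0, zero_add] at hsum
    have hc0 : c ≠ 0 := by
      rintro rfl
      rw [zero_smul] at hsum
      exact hu₁0 hsum.symm
    apply hu₁'s
    rw [Submodule.mem_span_singleton]
    exact ⟨c⁻¹, by rw [← hsum, smul_smul, inv_mul_cancel₀ hc0, one_smul]⟩)
  have htW : t ∈ W' := hW.mem_right hQ t (fun w hw => htS w (Submodule.mem_sup_left hw))
  have hu₁'t : polar Q u₁' t = 0 := htS u₁' (Submodule.mem_sup_right (Submodule.mem_span_singleton_self _))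
  have hB₀ : ∀ x ∈ B, polar Q u₁ x = 0 → polar Q u₁' x = 0 → x ∈ W := by
    intro x hx hx1 hx2
    apply hW.mem_left hQ
    intro w hw
    have e1 : w = (w - polar Q u₁ w • t) + polar Q u₁ w • t := by abel
    rw [e1, polar_add_left]
    have m1 := hF W' (Or.inr rfl) u₁ hu₁W hQu₁ hu₁B (w - polar Q u₁ w • t) (W'.sub_mem hw (W'.smul_mem _ htW)) (by
      rw [polar_sub_right, polar_smul_right, hu₁t]; simp)
    have m2 := hF W' (Or.inr rfl) u₁' hu₁'W hQu₁' hu₁'B (polar Q u₁ w • t) (W'.smul_mem _ htW) (by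
      rw [polar_smul_right, hu₁'t, smul_zero])
    rw [hAB.perp_of_mem_sup x u₁ _ hx hx1 m1, hAB.perp_of_mem_sup x u₁' _ hx hx2 m2, add_zero]
  set B₀ := (B ⊓ LinearMap.ker (polarBilin Q u₁)) ⊓ LinearMap.ker (polarBilin Q u₁') with hB₀def
  have f1 := finrank_le_inf_ker B (polarBilin Q u₁)
  have f2 : finrank F ↥(B ⊓ LinearMap.ker (polarBilin Q u₁)) ≤ finrank F B₀ + 1 :=
    finrank_le_inf_ker (B ⊓ LinearMap.ker (polarBilin Q u₁)) (polarBilin Q u₁')
  have hB₀W : B₀ ≤ W := fun x hx => hB₀ x hx.1.1 hx.1.2 hx.2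
  have f3 : finrank F B₀ ≤ finrank F W := Submodule.finrank_mono hB₀W
  -- all singular vectors of `W` lie in `B`
  have hWB : W ≤ B := by
    apply hW.le_of_sing hQ (by omega) B
    intro u hu hQu
    by_contra huB
    obtain ⟨au, hau, bu, hbu, rfl⟩ := hAB.split u
    have f4 : finrank F B₀ ≤ finrank F ↥(B₀ ⊓ LinearMap.ker (polarBilin Q (au + bu))) + 1 :=
      finrank_le_inf_ker B₀ (polarBilin Q (au + bu))
    have f5 : B₀ ⊓ LinearMap.ker (polarBilin Q (au + bu)) ≤ Submodule.span F {bu} := by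
      intro y hy
      have m1 := hF W (Or.inl rfl) _ hu hQu huB y (hB₀W hy.1) hy.2
      obtain ⟨a', ha', s, hs, hsum⟩ := Submodule.mem_sup.1 m1
      obtain ⟨c, rfl⟩ := Submodule.mem_span_singleton.1 hs
      have e1 : y - c • bu = 0 := by
        apply hAB.inf_zero hQ
        · have : y - c • bu = a' + c • au := by rw [← hsum, smul_add]; abel
          rw [this]; exact A.add_mem ha' (A.smul_mem _ hau)
        · exact B.sub_mem hy.1.1.1 (B.smul_mem _ hbu)
      rw [sub_eq_zero.1 e1]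
      exact Submodule.smul_mem _ _ (Submodule.mem_span_singleton_self _)
    have f6 := Submodule.finrank_mono f5
    have f7 := finrank_span_singleton_le (F := F) bu
    omega
  have hAW' : A ≤ W' := by
    intro a ha
    apply hW.mem_right hQ
    intro w hw
    rw [polar_comm]; exact hAB.perp a ha w (hWB hw)
  obtain ⟨p, hpW, hpA⟩ : ∃ p ∈ W', p ∉ A := by
    by_contra hc
    push Not at hc
    have h4 : W' = A := le_antisymm hc hAW'
    apply h2
    have h5 := hW.symm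
    rw [h4] at h5
    exact h5.right_unique hQ hAB
  obtain ⟨ap, hap, bp, hbp, rfl⟩ := hAB.split p
  have hbpW : bp ∈ W' := (W'.add_mem_iff_right (hAW' hap)).1 hpW
  have hbp0 : bp ≠ 0 := by
    rintro rfl
    rw [add_zero] at hpA
    exact hpA hap
  obtain ⟨v, hvA, hv0, hQv⟩ := exists_sing_avoid Q ⊥ A (by rw [finrank_bot]; omega)
  have hv0' : v ≠ 0 := fun hc => hv0 (by rw [hc]; exact Submodule.zero_mem _)
  have hvB : v ∉ B := fun hc => hv0' (hAB.inf_zero hQ v hvA hc)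
  have m1 := hF W' (Or.inr rfl) v (hAW' hvA) hQv hvB bp hbpW (hAB.perp v hvA bp hbp)
  have m2 : A ⊔ Submodule.span F {v} ≤ A := sup_le le_rfl (by
    rw [Submodule.span_singleton_le_iff_mem]; exact hvA)
  exact hbp0 (hAB.inf_zero hQ bp (m2 m1) hbp)

/-- overgroups of the stabiliser of a non-degenerate subspace -/
theorem nd_max [Fintype F] (Q : QuadraticForm F (ι → F)) (hQ : (polarBilin Q).Nondegenerate)
    {A B : Submodule F (ι → F)} (hAB : OPair Q A B) (hB : 7 ≤ finrank F B)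
    (hex : ¬ (Fintype.card F ≤ 3 ∧ finrank F A = 2 ∧ ∃ x ∈ A, x ≠ 0 ∧ Q x = 0))
    (M : Subgroup (isometryGroup F Q)) (hM : ∀ g ∈ Omega F Q, Stab A g → g ∈ M)
    (h : isometryGroup F Q) (hh : h ∈ M) (h1 : A.map (toEnd Q h) ≠ A) (h2 : A.map (toEnd Q h) ≠ B) :
    Omega F Q ≤ M := by
  by_contra hcon
  have hn5 : 5 ≤ Fintype.card ι := by
    have := hAB.finrank_add hQ
    omega
  apply nd_geom Q hQ hAB (hAB.map h) hB (finrank_map_toEnd Q h B) (finrank_map_toEnd Q h A) h1 h2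
  intro Y hY u₁ hu₁Y hQu₁ hu₁B y hyY hu₁y
  by_contra hy
  have hE : EIn Q M u₁ y := by
    rcases hY with rfl | rfl
    · obtain ⟨x, hx, rfl⟩ := hu₁Y
      obtain ⟨x', hx', rfl⟩ := hyY
      rw [toEnd_isIso Q h x] at hQu₁
      rw [(toEnd_isIso Q h).polar] at hu₁y
      exact (EIn.of_left hQ hn5 A hM x x' hx hx' hQu₁ hu₁y).conj h hh
    · obtain ⟨x, hx, rfl⟩ := hu₁Y
      obtain ⟨x', hx', rfl⟩ := hyY
      rw [toEnd_isIso Q h x] at hQu₁
      rw [(toEnd_isIso Q h).polar] at hu₁y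
      exact (EIn.of_right hQ hn5 hAB hM x x' hx hx' hQu₁ hu₁y).conj h hh
  obtain ⟨u₂, hu₂B, hu₂0, hQu₂, a, ha, ha0, hE2⟩ := nd_comm_step Q hQ hAB hB M
    (fun u hu z hz hQu huz => EIn.of_right hQ hn5 hAB hM u z hu hz hQu huz) u₁ y hQu₁ hu₁y hE hu₁B hy
  exact hcon (nd_step_one Q hQ hAB hB M hM hex u₂ hu₂B hu₂0 hQu₂ a ha ha0 hE2)

theorem map_eq_of_stab {Q : (ι → F) → F} (A : Submodule F (ι → F)) (g : isometryGroup F Q) (hg : Stab A g) :
    A.map (toEnd Q g) = A := by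
  apply Submodule.eq_of_le_of_finrank_eq
  · rintro _ ⟨a, ha, rfl⟩
    exact hg a ha
  · exact finrank_map_toEnd Q g A

theorem OPair.stab_right {Q : QuadraticForm F (ι → F)} {A B : Submodule F (ι → F)} (hAB : OPair Q A B)
    (hQ : (polarBilin Q).Nondegenerate) (g : isometryGroup F Q) (hg : Stab A g) : Stab B g := by
  intro b hb
  apply hAB.mem_right hQ
  intro a ha
  have : a ∈ A.map (toEnd Q g) := by rw [map_eq_of_stab A g hg]; exact ha
  obtain ⟨a', ha', rfl⟩ := this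
  rw [← toEnd_apply, (toEnd_isIso Q g).polar]
  exact hAB.perp a' ha' b hb

theorem nd_exists_not_stab [Fintype F] (Q : QuadraticForm F (ι → F)) (hQ : (polarBilin Q).Nondegenerate)
    {A B : Submodule F (ι → F)} (hAB : OPair Q A B) (hB : 7 ≤ finrank F B) (hA0 : A ≠ ⊥) :
    ∃ g ∈ Omega F Q, ∃ x ∈ A, toEnd Q g x ∉ A ∧ toEnd Q g x ∉ B := by
  have hn5 : 5 ≤ Fintype.card ι := by
    have := hAB.finrank_add hQ
    omega
  obtain ⟨a, ha, ha0⟩ := Submodule.exists_mem_ne_zero_of_ne_bot hA0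
  obtain ⟨u, huB, hu0, hQu⟩ := exists_sing_avoid Q ⊥ B (by rw [finrank_bot]; omega)
  have hu0' : u ≠ 0 := fun hc => hu0 (by rw [hc]; exact Submodule.zero_mem _)
  obtain ⟨x, hx, hax⟩ : ∃ x ∈ A, polar Q x a ≠ 0 := by
    by_contra hc
    push Not at hc
    exact ha0 (hAB.nd_left hQ a ha hc)
  have hua : polar Q u a = 0 := by rw [polar_comm]; exact hAB.perp a ha u huB
  obtain ⟨g, hg, hgΩ⟩ := eich_mem_Omega Q hQ (Or.inr (by omega)) u a hQu hua
  have e1 : toEnd Q g x = x + polar Q a x • u := by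
    rw [hg, eichL_apply, polar_comm Q u x, hAB.perp x hx u huB]; simp
  have hax' : polar Q a x ≠ 0 := by rw [polar_comm]; exact hax
  have hx0 : x ≠ 0 := by
    rintro rfl
    simp at hax
  refine ⟨g, hgΩ, x, hx, ?_, ?_⟩
  · rw [e1]
    intro hc
    have h3 := (A.smul_mem_iff hax').1 ((A.add_mem_iff_right hx).1 hc)
    exact hu0' (hAB.inf_zero hQ u h3 huB)
  · rw [e1]
    intro hc
    have h3 := (B.add_mem_iff_left (B.smul_mem _ huB)).1 hc
    exact hx0 (hAB.inf_zero hQ x hx h3)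

theorem nd_isMaximalIn [Fintype F] (Q : QuadraticForm F (ι → F)) (hQ : (polarBilin Q).Nondegenerate)
    {A B : Submodule F (ι → F)} (hAB : OPair Q A B) (hB : 7 ≤ finrank F B) (hA0 : A ≠ ⊥)
    (hex : ¬ (Fintype.card F ≤ 3 ∧ finrank F A = 2 ∧ ∃ x ∈ A, x ≠ 0 ∧ Q x = 0))
    (hne : ∀ g : isometryGroup F Q, A.map (toEnd Q g) ≠ B) :
    Geo.IsMaximalIn (Geo.omegaGL Q) (Geo.subspaceStabilizer A ⊓ Geo.omegaGL Q) := by
  constructor
  · apply lt_of_le_of_ne inf_le_right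
    intro he
    obtain ⟨g, hg, x, hx, hgx, -⟩ := nd_exists_not_stab Q hQ hAB hB hA0
    have : (g : Matrix.GeneralLinearGroup ι F) ∈ Geo.omegaGL Q := (mem_omegaGL_iff Q _).2 ⟨g, hg, rfl⟩
    rw [← he] at this
    exact hgx ((stab_iff_mem A g).2 this.1 x hx)
  · intro M hM1 hM2
    by_cases hall : M ≤ Geo.subspaceStabilizer A
    · left
      exact le_antisymm (le_inf hall hM2) hM1
    · right
      apply le_antisymm hM2
      obtain ⟨x, hxM, hxW⟩ := SetLike.not_le_iff_exists.1 hall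
      obtain ⟨g, hg, rfl⟩ := (mem_omegaGL_iff Q x).1 (hM2 hxM)
      have key := nd_max Q hQ hAB hB hex
        (M.comap (isometryGroup F Q).subtype) (fun k hk hs => by
          rw [Subgroup.mem_comap]
          exact hM1 ⟨(stab_iff_mem A k).1 hs, (mem_omegaGL_iff Q _).2 ⟨k, hk, rfl⟩⟩) g hxM
        (fun hs => hxW ((stab_iff_mem A g).1 (fun w hw => by
          rw [← hs]; exact ⟨w, hw, rfl⟩))) (hne g)
      intro y hy
      obtain ⟨k, hk, rfl⟩ := (mem_omegaGL_iff Q y).1 hy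
      exact key hk

end Cfsg.Agent.Lib.Helper15
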