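import Mathlib
import Cfsg.Agent.Lib.Helper15.NdMax4

set_option autoImplicit false

namespace Cfsg.Agent.Lib.Helper15

open Module QuadraticMap Cfsg Matrix

variable {F : Type*} [Field F] {ι : Type} [Fintype ι] [DecidableEq ι]

omit [DecidableEq ι] in
theorem opair_of_nd (Q : QuadraticForm F (ι → F)) (hQ : (polarBilin Q).Nondegenerate) (W : Submodule F (ι → F))
    (hW : Geo.IsNondegenerateOn (polar Q) W) : OPair Q W (LinearMap.BilinForm.orthogonal (polarBilin Q) W) := by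
  refine ⟨fun a ha b hb => (LinearMap.BilinForm.mem_orthogonal_iff.1 hb) a ha, ?_⟩
  have h1 : W ⊓ LinearMap.BilinForm.orthogonal (polarBilin Q) W = ⊥ := by
    rw [eq_bot_iff]
    rintro x ⟨hx1, hx2⟩
    rw [Submodule.mem_bot]
    by_contra hx0
    obtain ⟨⟨y, hy, hyx⟩, -⟩ := hW x hx1 hx0
    exact hyx ((LinearMap.BilinForm.mem_orthogonal_iff.1 hx2) y hy)
  have h2 := Submodule.finrank_sup_add_finrank_inf_eq W (LinearMap.BilinForm.orthogonal (polarBilin Q) W)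
  have h3 : finrank F (LinearMap.BilinForm.orthogonal (polarBilin Q) W) = finrank F (ι → F) - finrank F W :=
    LinearMap.BilinForm.finrank_orthogonal hQ W
  have h4 := Submodule.finrank_le W
  rw [h1, finrank_bot] at h2
  apply Submodule.eq_top_of_finrank_eq
  omega

omit [Fintype ι] [DecidableEq ι] in
theorem OPair.nondegenerateOn {Q : QuadraticForm F (ι → F)} {A B : Submodule F (ι → F)} (h : OPair Q A B)
    (hQ : (polarBilin Q).Nondegenerate) : Geo.IsNondegenerateOn (polar Q) A := by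
  intro w hw hw0
  have : ∃ x ∈ A, polar Q x w ≠ 0 := by
    by_contra hc
    push Not at hc
    exact hw0 (h.nd_left hQ w hw hc)
  obtain ⟨x, hx, hxw⟩ := this
  exact ⟨⟨x, hx, hxw⟩, ⟨x, hx, by rw [polar_comm]; exact hxw⟩⟩

theorem OPair.stab_inf_eq {Q : QuadraticForm F (ι → F)} {A B : Submodule F (ι → F)} (h : OPair Q A B)
    (hQ : (polarBilin Q).Nondegenerate) :
    Geo.subspaceStabilizer A ⊓ Geo.omegaGL Q = Geo.subspaceStabilizer B ⊓ Geo.omegaGL Q := by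
  apply le_antisymm
  · rintro x ⟨hx1, hx2⟩
    obtain ⟨g, hg, rfl⟩ := (mem_omegaGL_iff Q x).1 hx2
    exact ⟨(stab_iff_mem B g).1 (h.stab_right hQ g ((stab_iff_mem A g).2 hx1)), hx2⟩
  · rintro x ⟨hx1, hx2⟩
    obtain ⟨g, hg, rfl⟩ := (mem_omegaGL_iff Q x).1 hx2
    exact ⟨(stab_iff_mem A g).1 (h.symm.stab_right hQ g ((stab_iff_mem B g).2 hx1)), hx2⟩

/-- symmetric version -/
theorem nd_isMaximalIn' [Fintype F] (Q : QuadraticForm F (ι → F)) (hQ : (polarBilin Q).Nondegenerate)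
    {A B : Submodule F (ι → F)} (hAB : OPair Q A B) (hn : 13 ≤ Fintype.card ι) (hA0 : A ≠ ⊥) (hB0 : B ≠ ⊥)
    (hexA : ¬ (Fintype.card F ≤ 3 ∧ finrank F A = 2 ∧ ∃ x ∈ A, x ≠ 0 ∧ Q x = 0))
    (hexB : ¬ (Fintype.card F ≤ 3 ∧ finrank F B = 2 ∧ ∃ x ∈ B, x ≠ 0 ∧ Q x = 0))
    (hne : ∀ g : isometryGroup F Q, A.map (toEnd Q g) ≠ B) :
    Geo.IsMaximalIn (Geo.omegaGL Q) (Geo.subspaceStabilizer A ⊓ Geo.omegaGL Q) := by
  have hsum := hAB.finrank_add hQ
  by_cases hB : 7 ≤ finrank F B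
  · exact nd_isMaximalIn Q hQ hAB hB hA0 hexA hne
  · rw [hAB.stab_inf_eq hQ]
    refine nd_isMaximalIn Q hQ hAB.symm (by omega) hB0 hexB ?_
    intro g hg
    have h1 := (hAB.map g).symm
    rw [hg] at h1
    exact hne g (h1.right_unique hQ hAB)

omit [Fintype ι] [DecidableEq ι] in
theorem plusType_of_plane (Q : (ι → F) → F) (hQs : ∀ (c : F) (x : ι → F), Q (c • x) = c * c * Q x)
    (A : Submodule F (ι → F)) (h2 : finrank F A = 2) (x : ι → F)
    (hx : x ∈ A) (hx0 : x ≠ 0) (hQx : Q x = 0) : Geo.IsPlusTypeOn Q A := by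
  refine ⟨Submodule.span F {x}, by rw [Submodule.span_singleton_le_iff_mem]; exact hx, ?_, ?_⟩
  · intro w hw
    obtain ⟨c, rfl⟩ := Submodule.mem_span_singleton.1 hw
    rw [hQs, hQx, mul_zero]
  · rw [finrank_span_singleton hx0, h2]

end Cfsg.Agent.Lib.Helper15
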