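import Mathlib
import Cfsg.Agent.Lib.Helper15.NdMax5
import Cfsg.Agent.Lib.Helper15.NormalForm

set_option autoImplicit false

namespace Cfsg.Agent.Lib.Helper15

open Module QuadraticMap Cfsg Matrix

/-- the norm form of the quadratic extension represents `-1` -/
theorem exists_norm_neg_one {F : Type*} [Field F] [Finite F] (ζ : F) (hζ : ∀ t : F, t ^ 2 + t + ζ ≠ 0) :
    ∃ a b : F, a ^ 2 + a * b + ζ * b ^ 2 = -1 := by
  obtain ⟨v, hv, hQv⟩ := exists_isotropic (V := Fin 3 → F)
    (Matrix.toQuadraticForm' (!![1, 1, 0; 0, ζ, 0; 0, 0, 1] : Matrix (Fin 3) (Fin 3) F)) (by simp)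
  have h1 : v 0 ^ 2 + v 0 * v 1 + ζ * v 1 ^ 2 + v 2 ^ 2 = 0 := by
    rw [← hQv]
    simp [Matrix.toQuadraticForm', Matrix.toLinearMap₂'_apply', dotProduct, Fin.sum_univ_three, Matrix.mulVec,
      Matrix.vecHead, Matrix.vecTail]
    ring
  have h2 : v 2 ≠ 0 := by
    intro h2
    rw [h2] at h1
    by_cases h3 : v 1 = 0
    · rw [h3] at h1
      have h4 : v 0 = 0 := by
        have : v 0 ^ 2 = 0 := by linear_combination h1
        exact pow_eq_zero_iff (two_ne_zero) |>.1 this
      apply hv
      ext i
      fin_cases i <;> simp [h2, h3, h4]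
    · apply hζ (v 0 / v 1)
      field_simp
      linear_combination h1
  refine ⟨v 0 / v 2, v 1 / v 2, ?_⟩
  field_simp
  linear_combination h1

/-- the span of pairwise orthogonal singular vectors is totally singular -/
theorem ts_span {F : Type*} [Field F] {V : Type*} [AddCommGroup V] [Module F V] (Q : QuadraticForm F V)
    {κ : Type*} (v : κ → V) (h1 : ∀ i, Q (v i) = 0) (h2 : ∀ i j, polar Q (v i) (v j) = 0) :
    ∀ z ∈ Submodule.span F (Set.range v), Q z = 0 := by
  have key : ∀ z ∈ Submodule.span F (Set.range v), Q z = 0 ∧ ∀ i, polar Q (v i) z = 0 := by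
    intro z hz
    induction hz using Submodule.span_induction with
    | mem x hx =>
      obtain ⟨i, rfl⟩ := hx
      exact ⟨h1 i, fun j => h2 j i⟩
    | zero => simp
    | add x y hx hy ihx ihy =>
      refine ⟨?_, fun i => by rw [polar_add_right, ihx.2, ihy.2, add_zero]⟩
      have h3 : polar Q y x = 0 := by
        clear ihy
        induction hy using Submodule.span_induction with
        | mem y hy =>
          obtain ⟨i, rfl⟩ := hy
          exact ihx.2 i
        | zero => simp
        | add a b _ _ iha ihb => rw [polar_add_left, iha, ihb, add_zero]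
        | smul c a _ iha => rw [polar_smul_left, iha, smul_zero]
      rw [QuadraticMap.map_add Q, ihx.1, ihy.1, polar_comm, h3]; simp
    | smul c x hx ihx =>
      refine ⟨by rw [QuadraticMap.map_smul, ihx.1, smul_zero], fun i => by rw [polar_smul_right, ihx.2, smul_zero]⟩
  exact fun z hz => (key z hz).1

/-- the orthogonal sum of two isometric non-degenerate spaces of even dimension is of plus type -/
theorem ts_of_iso_pair {F : Type*} [Field F] [Finite F] {V : Type*} [AddCommGroup V] [Module F V]
    [FiniteDimensional F V] (Q : QuadraticForm F V) (A : Submodule F V) (T : V →ₗ[F] V) (hT : IsIso Q T)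
    (hperp : ∀ a ∈ A, ∀ a' ∈ A, polar Q a (T a') = 0)
    (hnd : (polarBilin (Q.comp A.subtype)).Nondegenerate) (k : ℕ) (hk : finrank F A = 2 * (k + 1)) :
    ∃ U : Submodule F V, (∀ z ∈ U, Q z = 0) ∧ finrank F U = 2 * (k + 1) := by
  classical
  have hp1 : ∀ a a' : A, polar Q (a : V) (T a') = 0 := fun a a' => hperp a a.2 a' a'.2
  have hp2 : ∀ a a' : A, polar Q (T a) (a' : V) = 0 := fun a a' => by rw [polar_comm]; exact hp1 a' a
  have hTp := hT.polar
  rcases even_nf k (Q.comp A.subtype) hnd hk with ⟨e, f, h⟩ | ⟨e, f, x, y, ζ, hζ, h, hxy, h1, h2, h3⟩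
  · obtain ⟨ha, hb, hc⟩ := h.of_subtype
    set v : Fin (k + 1) ⊕ Fin (k + 1) → V := Sum.elim (fun i => (e i : V)) (fun i => T (e i)) with hv
    have hli : LinearIndependent F v := by
      apply linearIndependent_of_dual (QuadraticMap.polarBilin Q) _
        (Sum.elim (fun i => (f i : V)) (fun i => T (f i)))
      rintro (i | i) (j | j)
      · simp [hv, hb i j]
      · simp [hv, hp1]
      · simp [hv, hp2]
      · simp [hv, hTp, hb i j]
    refine ⟨Submodule.span F (Set.range v), ts_span Q v ?_ ?_, ?_⟩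
    · rintro (i | i)
      · simp [hv, (ha i).1]
      · simp [hv, hT _, (ha i).1]
    · rintro (i | i) (j | j)
      · simp [hv, (hc i j).1]
      · simp [hv, hp1]
      · simp [hv, hp2]
      · simp [hv, hTp, (hc i j).1]
    · rw [finrank_span_eq_card hli]; simp; ring
  · obtain ⟨ha, hb, hc⟩ := h.of_subtype
    obtain ⟨l₁, l₂, hl⟩ := exists_norm_neg_one ζ hζ
    have hd : 4 * ζ - 1 ≠ 0 := by
      intro hd
      by_cases h2' : (2 : F) = 0
      · have : (4 : F) = 2 * 2 := by norm_num
        rw [this, h2'] at hd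
        simp at hd
      · apply hζ (-(2 : F)⁻¹)
        field_simp
        linear_combination hd
    have h1' : Q (x : V) = 1 := by simpa using h1
    have h3' : Q (y : V) = ζ := by simpa using h3
    have h2' : polar Q (x : V) (y : V) = 1 := by rw [← polar_comp_subtype]; exact h2
    have h2'' : polar Q (y : V) (x : V) = 1 := by rw [polar_comm]; exact h2'
    have hxy' : ∀ i, polar Q (e i : V) (x : V) = 0 ∧ polar Q (e i : V) (y : V) = 0 ∧
        polar Q (f i : V) (x : V) = 0 ∧ polar Q (f i : V) (y : V) = 0 := fun i => by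
      have := hxy i
      simp only [polar_comp_subtype] at this
      exact this
    have hxy'' : ∀ i, polar Q (x : V) (e i : V) = 0 ∧ polar Q (y : V) (e i : V) = 0 ∧
        polar Q (x : V) (f i : V) = 0 ∧ polar Q (y : V) (f i : V) = 0 := fun i => by
      obtain ⟨a1, a2, a3, a4⟩ := hxy' i
      exact ⟨by rw [polar_comm]; exact a1, by rw [polar_comm]; exact a2, by rw [polar_comm]; exact a3,
        by rw [polar_comm]; exact a4⟩
    set v₁ : V := (x : V) + l₁ • T x + l₂ • T y with hv₁
    set v₂ : V := (y : V) + (-(ζ * l₂)) • T x + (l₁ + l₂) • T y with hv₂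
    set v : (Fin k ⊕ Fin k) ⊕ Fin 2 → V :=
      Sum.elim (Sum.elim (fun i => (e i : V)) (fun i => T (e i))) ![v₁, v₂] with hv
    have hli : LinearIndependent F v := by
      apply linearIndependent_of_dual (QuadraticMap.polarBilin Q) _
        (Sum.elim (Sum.elim (fun i => (f i : V)) (fun i => T (f i)))
          ![(4 * ζ - 1)⁻¹ • ((2 * ζ) • (x : V) - y), (4 * ζ - 1)⁻¹ • ((2 : F) • (y : V) - x)])
      rintro ((i | i) | i) ((j | j) | j)
      · simp [hv, hb i j]
      · simp [hv, hp1]
      · fin_cases j <;> simp [hv, (hxy' i).1, (hxy' i).2.1]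
      · simp [hv, hp2]
      · simp [hv, hTp, hb i j]
      · fin_cases j <;> simp [hv, hp2]
      · fin_cases i <;> simp [hv, hv₁, hv₂, hp2, (hxy'' j).2.2.1, (hxy'' j).2.2.2]
      · fin_cases i <;> simp [hv, hv₁, hv₂, hp1, hTp, (hxy'' j).2.2.1, (hxy'' j).2.2.2]
      · fin_cases i <;> fin_cases j <;>
          simp [hv, hv₁, hv₂, hp2, QuadraticMap.polar_self, h1', h2', h2'', h3'] <;> field_simp <;> ring
    have hQv : ∀ i, Q (v i) = 0 := by
      rintro ((i | i) | i)
      · simp [hv, (ha i).1]
      · simp [hv, hT _, (ha i).1]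
      · fin_cases i
        · simp [hv, hv₁, QuadraticMap.map_add Q, QuadraticMap.map_smul, hT _, hp1, hp2, hTp, h1', h2', h3']
          linear_combination hl
        · simp [hv, hv₂, QuadraticMap.map_add Q, QuadraticMap.map_smul, hT _, hp1, hp2, hTp, h1', h2', h3']
          linear_combination ζ * hl
    refine ⟨Submodule.span F (Set.range v), ts_span Q v hQv ?_, ?_⟩
    · rintro ((i | i) | i) ((j | j) | j)
      · simp [hv, (hc i j).1]
      · simp [hv, hp1]
      · fin_cases j <;> simp [hv, hv₁, hv₂, hp1, (hxy' i).1, (hxy' i).2.1]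
      · simp [hv, hp2]
      · simp [hv, hTp, (hc i j).1]
      · fin_cases j <;> simp [hv, hv₁, hv₂, hp2, hTp, (hxy' i).1, (hxy' i).2.1]
      · fin_cases i <;> simp [hv, hv₁, hv₂, hp2, (hxy'' j).1, (hxy'' j).2.1]
      · fin_cases i <;> simp [hv, hv₁, hv₂, hp1, hTp, (hxy'' j).1, (hxy'' j).2.1]
      · by_cases hij : i = j
        · subst hij
          rw [polar_self, hQv]; simp
        · fin_cases i <;> fin_cases j <;>
          first
          | exact absurd rfl hij
          | (simp [hv, hv₁, hv₂, hp1, hp2, hTp, QuadraticMap.polar_self, h1', h2', h2'', h3']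
             linear_combination hl)
    · rw [finrank_span_eq_card hli]; simp; ring

end Cfsg.Agent.Lib.Helper15
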