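import Cfsg.Agent.Lib.Helper15.NotMax

set_option autoImplicit false
open Cfsg QuadraticMap Matrix Module

namespace Cfsg.Agent.Lib.Helper15

variable {F : Type*} [Field F] {ι : Type} [Fintype ι] [DecidableEq ι]

/-- the stabiliser in `Ω` of a totally singular subspace of dimension `m - 1` (plus type) is not maximal -/
theorem ts_not_max [Fintype F] (Q : QuadraticForm F (ι → F))
    (hQ : (QuadraticMap.polarBilin Q).Nondegenerate) (h : Fintype.card F ≠ 2 ∨ Fintype.card ι ≠ 4)
    (E : Submodule F (ι → F)) (hE : IsLagr Q E) (W : Submodule F (ι → F)) (hW : ∀ w ∈ W, Q w = 0)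
    (hdim : finrank F W + 1 = finrank F E) (hW1 : 1 ≤ finrank F W) :
    ∃ K : Subgroup (Matrix.GeneralLinearGroup ι F),
      Geo.subspaceStabilizer W ⊓ Geo.omegaGL Q < K ∧ K < Geo.omegaGL Q := by
  obtain ⟨W₁, W₂, hne, ⟨h1, h1'⟩, ⟨h2, h2'⟩, hall⟩ := two_lagr Q hQ E hE W hW hdim
  have hd1 : finrank F W₁ = finrank F W + 1 := by
    have := h1.dim; have := hE.dim; omega
  have hd2 : finrank F W₂ = finrank F W + 1 := by
    have := h2.dim; have := hE.dim; omega
  have hWne : W ≠ ⊥ := by
    intro h0; rw [h0, finrank_bot] at hW1; omega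
  obtain ⟨x₀, hx₀W, hx₀⟩ := Submodule.exists_mem_ne_zero_of_ne_bot hWne
  have : ¬ W₁ ≤ W := by
    intro hle
    have := Submodule.finrank_mono hle
    omega
  obtain ⟨u, huW₁, huW⟩ := SetLike.not_le_iff_exists.1 this
  have hu0 : u ≠ 0 := by rintro rfl; exact huW (Submodule.zero_mem _)
  have hx₀u : x₀ ∉ Submodule.span F {u} := by
    intro hmem
    obtain ⟨l, hl⟩ := Submodule.mem_span_singleton.1 hmem
    have hl0 : l ≠ 0 := by rintro rfl; exact hx₀ (by rw [← hl]; simp)
    apply huW
    have : u = l⁻¹ • x₀ := by rw [← hl, smul_smul, inv_mul_cancel₀ hl0, one_smul]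
    rw [this]; exact W.smul_mem _ hx₀W
  obtain ⟨v, hQv, hvS, hx₀v⟩ := exists_sing_partner Q hQ _ x₀ hx₀u (hW x₀ hx₀W) (by
    intro s hs
    obtain ⟨l, rfl⟩ := Submodule.mem_span_singleton.1 hs
    rw [polar_smul_left, polar_of_sing h1.sing huW₁ (h1' hx₀W)]; simp)
  have huv : polar Q u v = 0 := hvS u (Submodule.mem_span_singleton_self u)
  have hvW₁ : v ∉ W₁ := by
    intro hv
    have := polar_of_sing h1.sing (h1' hx₀W) hv
    rw [hx₀v] at this
    exact one_ne_zero this
  apply exists_between Q _ W₁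
  · intro g hg hgW
    have hgW' : Stab W g := (stab_iff_mem W g).2 hgW
    have hL : IsLagr Q (W₁.map (Matrix.mulVecLin ((g : Matrix.GeneralLinearGroup ι F) : Matrix ι ι F))) :=
      h1.map hQ (toEnd_isIso Q g)
    have hWle : W ≤ W₁.map (Matrix.mulVecLin ((g : Matrix.GeneralLinearGroup ι F) : Matrix ι ι F)) := by
      rw [← hgW'.map_eq]
      exact Submodule.map_mono h1'
    rcases hall _ hL hWle with he | he
    · intro w hw
      rw [← he]
      exact ⟨w, hw, rfl⟩
    · exfalso
      have hp := omega_parity Q hQ h g hg W₁ W₁ h1 h1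
      rw [he, inf_idem] at hp
      have e1 : finrank F W ≤ finrank F ↥(W₁ ⊓ W₂) := Submodule.finrank_mono (le_inf h1' h2')
      have e2 : W₁ ⊓ W₂ < W₁ := by
        apply lt_of_le_of_ne inf_le_left
        intro h3
        apply hne
        exact Submodule.eq_of_le_of_finrank_eq (inf_eq_left.1 h3) (by omega)
      have e3 := Submodule.finrank_lt_finrank_of_lt e2
      rw [Nat.even_iff] at hp
      omega
  · obtain ⟨g, hg, hgx⟩ := exists_siegel_Omega Q hQ h u v (h1.sing u huW₁) hQv huv
    refine ⟨g, hg, ?_, ?_⟩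
    · intro x hx
      rw [hgx, polar_of_sing h1.sing huW₁ hx, zero_smul, add_zero]
      exact W₁.add_mem hx (W₁.smul_mem _ huW₁)
    · intro hmem
      have h3 := ((mem_subspaceStabilizer_iff W _).1 hmem x₀).1 hx₀W
      rw [hgx, polar_of_sing h1.sing huW₁ (h1' hx₀W), zero_smul, add_zero, polar_comm Q v x₀, hx₀v] at h3
      apply huW
      have h4 := W.sub_mem hx₀W h3
      simpa using h4
  · have huv' : u ∉ Submodule.span F {v} := by
      intro hmem
      obtain ⟨l, hl⟩ := Submodule.mem_span_singleton.1 hmem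
      have hl0 : l ≠ 0 := by rintro rfl; exact hu0 (by rw [← hl]; simp)
      apply hvW₁
      have : v = l⁻¹ • u := by rw [← hl, smul_smul, inv_mul_cancel₀ hl0, one_smul]
      rw [this]; exact W₁.smul_mem _ huW₁
    obtain ⟨u', hQu', hu'S, huu'⟩ := exists_sing_partner Q hQ _ u huv' (h1.sing u huW₁) (by
      intro s hs
      obtain ⟨l, rfl⟩ := Submodule.mem_span_singleton.1 hs
      rw [polar_smul_left, polar_comm Q v u, huv]; simp)
    have hvu' : polar Q v u' = 0 := hu'S v (Submodule.mem_span_singleton_self v)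
    obtain ⟨g, hg, hgx⟩ := exists_siegel_Omega Q hQ h u' v hQu' hQv (by rw [polar_comm]; exact hvu')
    refine ⟨g, hg, fun hs => ?_⟩
    have h3 := hs u huW₁
    rw [hgx, polar_comm Q u' u, huu', polar_comm Q v u, huv] at h3
    apply hvW₁
    have h4 := W₁.sub_mem h3 huW₁
    simpa using h4

end Cfsg.Agent.Lib.Helper15
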