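import Mathlib
import Cfsg.Agent.Lib.Helper15.PairGeo2
import Cfsg.Agent.Lib.Helper15.NdMax1

set_option autoImplicit false

namespace Cfsg.Agent.Lib.Helper15

open Module QuadraticMap Cfsg Matrix

variable {F : Type*} [Field F] {ι : Type} [Fintype ι] [DecidableEq ι]

/-- the core of the maximality proof for a pair of totally singular subspaces -/
theorem om_pair_core [Fintype F] (Q : QuadraticForm F (ι → F)) (hQ : (polarBilin Q).Nondegenerate)
    (hn : 5 ≤ Fintype.card ι) {X X' : Submodule F (ι → F)} (hX : TPair (polarBilin Q) X X')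
    (hQX : ∀ x ∈ X, Q x = 0) (hdim : 5 ≤ finrank F X)
    (M : Subgroup (isometryGroup F Q))
    (hS : ∀ u ∈ X, ∀ w ∈ X', polar Q u w = 0 → EIn Q M u w)
    (s : isometryGroup F Q) (hsM : s ∈ M) (hsX : ∀ x ∈ X, toEnd Q s x ∈ X')
    (u₁ z₁ : ι → F) (hQu₁ : Q u₁ = 0) (h11 : polar Q u₁ z₁ = 0) (hE : EIn Q M u₁ z₁) (hu₁ : u₁ ∉ X')
    (hz₁ : z₁ ∉ X' ⊔ Submodule.span F {u₁}) : Omega F Q ≤ M := by
  have hr := polarBilin_isRefl Q
  obtain ⟨u₂, hu₂X, z₂, hz₂X, hu₂0, b1, b2, b3, b4, b5, b6⟩ := tpair_step (polarBilin Q) hQ hr hX hdim u₁ z₁ hu₁ hz₁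
  simp only [polarBilin_apply_apply] at b1 b2 b3 b4 b5
  have hiso : ∀ x ∈ X, ∀ y ∈ X, polar Q x y = 0 := hX.iso
  have hiso' : ∀ x ∈ X', ∀ y ∈ X', polar Q x y = 0 := hX.iso'
  have sep : ∀ (S : Submodule F (ι → F)) (a : ι → F), a ∉ S → ∃ z, (∀ s ∈ S, polar Q s z = 0) ∧ polar Q a z = 1 :=
    fun S a ha => exists_orth_sep Q hQ S a ha
  have memX' : ∀ x, (∀ y ∈ X', polar Q y x = 0) → x ∈ X' := fun x hx => hX.mem_right hQ hr x hx
  have hQu₂ := hQX u₂ hu₂X
  -- transvections on `X`
  have htv : ∀ y ∈ X, ∀ w ∈ X', polar Q y w = 0 → ∃ k ∈ M, ∀ x ∈ X, toEnd Q k x = x + polar Q w x • y := by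
    intro y hy w hw hyw
    refine ⟨ofEnd Q hQ _ (eichL_isIso Q y w (hQX y hy) hyw), hS y hy w hw hyw _ (toEnd_ofEnd _ _ _ _), ?_⟩
    intro x hx
    rw [toEnd_ofEnd, eichL_apply, hiso y hy x hx]
    simp
  -- first conjugation
  have e1 := (hS u₂ hu₂X z₂ hz₂X b1).conj (ofEnd Q hQ _ (eichL_isIso Q _ _ hQu₁ h11)) (hE _ (toEnd_ofEnd _ _ _ _))
  rw [toEnd_ofEnd] at e1
  have c1 : eichL Q u₁ z₁ u₂ = u₂ := by rw [eichL_apply, b4, b2]; simp
  have c2 : eichL Q u₁ z₁ z₂ = z₂ + u₁ := by rw [eichL_apply, b5, b3]; simp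
  rw [c1, c2] at e1
  obtain ⟨a, ha, a', ha', rfl⟩ := hX.split u₁
  have hu₂a : polar Q u₂ a = 0 := hiso u₂ hu₂X a ha
  have hu₂a' : polar Q u₂ a' = 0 := by
    have := b2
    rw [polar_comm, polar_add_right, hu₂a, zero_add] at this
    exact this
  have has : a ∉ Submodule.span F {u₂} := by
    intro hc
    exact b6 (by
      rw [add_comm]
      exact Submodule.add_mem _ (Submodule.mem_sup_left ha') (Submodule.mem_sup_right hc))
  have e2 : EIn Q M u₂ a := by
    have p1 : polar Q u₂ (z₂ + a') = 0 := by rw [polar_add_right, b1, hu₂a', add_zero]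
    have e3 := EIn.add hQ hQu₂ (by rw [polar_add_right, polar_add_right, b1, hu₂a, hu₂a']; simp)
      (by rw [polar_neg_right, p1, neg_zero]) e1 ((hS u₂ hu₂X _ (X'.add_mem hz₂X ha') p1).neg hQ hQu₂ p1)
    have : z₂ + (a + a') + -(z₂ + a') = a := by abel
    rwa [this] at e3
  -- vectors of `X` outside a subspace of `X` stay outside after adding `X'`
  have hout : ∀ (S : Submodule F (ι → F)), S ≤ X → ∀ p ∈ X, p ∉ S → p ∉ X' ⊔ S := by
    intro S hSX p hp hpS hc
    obtain ⟨x', hx', t, ht, hsum⟩ := Submodule.mem_sup.1 hc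
    have hx'0 : x' = 0 := by
      apply hX.inf_zero hQ x' _ hx'
      have : x' = p - t := by rw [← hsum]; abel
      rw [this]; exact X.sub_mem hp (hSX ht)
    rw [hx'0, zero_add] at hsum
    exact hpS (by rw [← hsum]; exact ht)
  have hmove : ∀ p ∈ X, ∀ p' ∈ X, p ∉ Submodule.span F {u₂} → p' ∉ Submodule.span F {u₂, p} → EIn Q M u₂ p →
      EIn Q M u₂ p' := by
    intro p hp p' hp' hp1 hp2 hEp
    have hnot : p ∉ Submodule.span F {u₂, p' - p} := by
      intro hc
      obtain ⟨α, β, hsum⟩ := Submodule.mem_span_pair.1 hc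
      by_cases hβ : β = 0
      · rw [hβ, zero_smul, add_zero] at hsum
        exact hp1 (by rw [← hsum]; exact Submodule.smul_mem _ _ (Submodule.mem_span_singleton_self _))
      · apply hp2
        have : p' = (-(β⁻¹ * α)) • u₂ + (1 + β⁻¹) • p := by
          have h3 : β • p' = p - α • u₂ + β • p := by
            rw [smul_sub] at hsum
            have : β • p' = (α • u₂ + (β • p' - β • p)) - α • u₂ + β • p := by abel
            rw [this, hsum]
          have h4 : p' = β⁻¹ • (β • p') := by rw [smul_smul, inv_mul_cancel₀ hβ, one_smul]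
          rw [h4, h3, smul_add, smul_sub, smul_smul, smul_smul, inv_mul_cancel₀ hβ]
          module
        rw [this]
        exact Submodule.add_mem _ (Submodule.smul_mem _ _ (Submodule.subset_span (by simp)))
          (Submodule.smul_mem _ _ (Submodule.subset_span (by simp)))
    obtain ⟨w, hwS, hpw⟩ := sep _ p (hout _ (by
      rw [Submodule.span_le]
      rintro v (rfl | rfl)
      · exact hu₂X
      · exact X.sub_mem hp' hp) p hp hnot)
    have hwX : w ∈ X' := memX' w (fun y hy => hwS y (Submodule.mem_sup_left hy))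
    have hu₂w : polar Q u₂ w = 0 := hwS u₂ (Submodule.mem_sup_right (Submodule.subset_span (by simp)))
    have hyw : polar Q (p' - p) w = 0 := hwS _ (Submodule.mem_sup_right (Submodule.subset_span (by simp)))
    obtain ⟨k, hkM, hk⟩ := htv (p' - p) (X.sub_mem hp' hp) w hwX hyw
    have := hEp.conj k hkM
    rw [hk u₂ hu₂X, hk p hp, polar_comm Q w u₂, hu₂w, polar_comm Q w p, hpw, zero_smul, add_zero, one_smul] at this
    have e : p + (p' - p) = p' := by abel
    rwa [e] at this
  have hall : ∀ z ∈ X, EIn Q M u₂ z := by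
    intro z hz
    by_cases hzs : z ∈ Submodule.span F {u₂}
    · obtain ⟨c, rfl⟩ := Submodule.mem_span_singleton.1 hzs
      intro k hk
      rw [eich_smul_self Q u₂ c hQu₂, ← map_one (toEnd Q)] at hk
      rw [toEnd_injective Q hk]
      exact M.one_mem
    have f1 : finrank F (Submodule.span F {u₂, a}) ≤ 2 := finrank_span_pair_le (F := F) u₂ a
    have f2 := finrank_span_singleton_le (F := F) z
    have f3 := Submodule.finrank_add_le_finrank_add_finrank (Submodule.span F {u₂, a}) (Submodule.span F {z})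
    obtain ⟨p₁, hp₁X, hp₁S⟩ := exists_mem_notMem_of_finrank_lt
      (Submodule.span F {u₂, a} ⊔ Submodule.span F {z}) X (by omega)
    have q1 : p₁ ∉ Submodule.span F {u₂, a} := fun hc => hp₁S (Submodule.mem_sup_left hc)
    have q2 : p₁ ∉ Submodule.span F {u₂} := fun hc => q1 (by
      obtain ⟨c, rfl⟩ := Submodule.mem_span_singleton.1 hc
      exact Submodule.smul_mem _ _ (Submodule.subset_span (by simp)))
    have q3 : z ∉ Submodule.span F {u₂, p₁} := by
      intro hc
      obtain ⟨α, β, hsum⟩ := Submodule.mem_span_pair.1 hc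
      by_cases hβ : β = 0
      · rw [hβ, zero_smul, add_zero] at hsum
        exact hzs (by rw [← hsum]; exact Submodule.smul_mem _ _ (Submodule.mem_span_singleton_self _))
      · apply hp₁S
        have : p₁ = (-(β⁻¹ * α)) • u₂ + β⁻¹ • z := by
          rw [← hsum, smul_add, smul_smul, smul_smul, inv_mul_cancel₀ hβ]
          module
        rw [this]
        exact Submodule.add_mem _ (Submodule.mem_sup_left (Submodule.smul_mem _ _ (Submodule.subset_span (by simp))))
          (Submodule.mem_sup_right (Submodule.smul_mem _ _ (Submodule.mem_span_singleton_self _)))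
    exact hmove p₁ hp₁X z hz q2 q3 (hmove a ha p₁ hp₁X has q1 e2)
  have hgood : GoodV Q M u₂ := by
    refine ⟨hQu₂, fun z hz => ?_⟩
    obtain ⟨x, hx, x', hx', rfl⟩ := hX.split z
    have h1 : polar Q u₂ x = 0 := hiso u₂ hu₂X x hx
    have h2 : polar Q u₂ x' = 0 := by
      rw [polar_add_right, h1, zero_add] at hz
      exact hz
    exact EIn.add hQ hQu₂ h1 h2 (hall x hx) (hS u₂ hu₂X x' hx' h2)
  have hgoodX : ∀ x ∈ X, GoodV Q M x := by
    intro x hx
    by_cases hxs : x ∈ Submodule.span F {u₂}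
    · obtain ⟨c, rfl⟩ := Submodule.mem_span_singleton.1 hxs
      exact hgood.smul c
    have n1 : u₂ ∉ Submodule.span F {x} := by
      intro hc
      obtain ⟨c, hc⟩ := Submodule.mem_span_singleton.1 hc
      have hc0 : c ≠ 0 := by
        rintro rfl
        rw [zero_smul] at hc
        exact hu₂0 hc.symm
      apply hxs
      rw [Submodule.mem_span_singleton]
      exact ⟨c⁻¹, by rw [← hc, smul_smul, inv_mul_cancel₀ hc0, one_smul]⟩
    obtain ⟨w₁, hw₁S, hw₁⟩ := sep _ u₂ (hout _ (by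
      rw [Submodule.span_singleton_le_iff_mem]; exact hx) u₂ hu₂X n1)
    obtain ⟨w₂, hw₂S, hw₂⟩ := sep _ x (hout _ (by
      rw [Submodule.span_singleton_le_iff_mem]; exact hu₂X) x hx hxs)
    have hw₁X : w₁ ∈ X' := memX' w₁ (fun y hy => hw₁S y (Submodule.mem_sup_left hy))
    have hw₂X : w₂ ∈ X' := memX' w₂ (fun y hy => hw₂S y (Submodule.mem_sup_left hy))
    have hxw₁ : polar Q x w₁ = 0 := hw₁S x (Submodule.mem_sup_right (Submodule.mem_span_singleton_self _))
    have hu₂w₂ : polar Q u₂ w₂ = 0 := hw₂S u₂ (Submodule.mem_sup_right (Submodule.mem_span_singleton_self _))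
    have p1 : polar Q (x - u₂) (w₁ + w₂) = 0 := by
      rw [polar_sub_left, polar_add_right, polar_add_right, hxw₁, hw₂, hw₁, hu₂w₂]; ring
    obtain ⟨k, hkM, hk⟩ := htv (x - u₂) (X.sub_mem hx hu₂X) (w₁ + w₂) (X'.add_mem hw₁X hw₂X) p1
    have := hgood.conj k hkM
    rw [hk u₂ hu₂X, polar_comm, polar_add_right, hw₁, hu₂w₂, add_zero, one_smul] at this
    have e : u₂ + (x - u₂) = x := by abel
    rwa [e] at this
  have hg' := hgood.conj s hsM
  have hv'X := hsX u₂ hu₂X
  have hv'0 : toEnd Q s u₂ ≠ 0 := toEnd_ne_zero Q s u₂ hu₂0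
  obtain ⟨x, hx, hxv⟩ : ∃ x ∈ X, polar Q x (toEnd Q s u₂) ≠ 0 := by
    by_contra hc
    push Not at hc
    apply hv'0
    apply hX.symm.zero_of_perp hQ _ hv'X
    intro y hy
    rw [polarBilin_apply_apply, polar_comm]
    exact hc y hy
  exact Omega_le_of_good_pair Q hQ hn x _ (hgoodX x hx) hg' hxv

end Cfsg.Agent.Lib.Helper15
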