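import Mathlib
import Cfsg.Agent.Lib.Helper15.OmPair1
import Cfsg.Agent.Lib.Helper15.NdMax3
import Cfsg.Agent.Lib.Helper15.SpPair2
import Cfsg.Agent.Lib.Helper15.PlusLagr
import Cfsg.Agent.Lib.Helper15.Transitive

set_option autoImplicit false

namespace Cfsg.Agent.Lib.Helper15

open Module QuadraticMap Cfsg Matrix

section abstract

variable {F V : Type*} [Field F] [AddCommGroup V] [Module F V]

theorem HPair.rotation {Q : QuadraticForm F V} {e f : V} (h : HPair Q e f) (d : F) (hd : d ≠ 0) (w : V) :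
    reflL Q (e - (1 : F) • f) (reflL Q (e - d • f) w) =
      w + ((d - 1) * polar Q f w) • e + ((d⁻¹ - 1) * polar Q e w) • f := by
  rw [reflL_apply Q _ w, reflL_apply, h.Q_sub_smul, h.Q_sub_smul]
  simp only [polar_sub_left, polar_smul_left, polar_sub_right, polar_smul_right, h.ee, h.ff, h.ef, h.fe,
    smul_eq_mul]
  match_scalars <;> field_simp <;> ring

end abstract

variable {F : Type*} [Field F] {ι : Type} [Fintype ι] [DecidableEq ι]

theorem om_exists_swap [Fintype F] (Q : QuadraticForm F (ι → F)) (hQ : (polarBilin Q).Nondegenerate)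
    (hc : Fintype.card F ≠ 2 ∨ Fintype.card ι ≠ 4) {U U' : Submodule F (ι → F)}
    (hU : TPair (polarBilin Q) U U') (hQU : ∀ x ∈ U, Q x = 0) (hQU' : ∀ x ∈ U', Q x = 0)
    (hfr : finrank F U = finrank F U') (hk : Even (finrank F U)) (hU0 : U ≠ ⊥) :
    ∃ s ∈ Omega F Q, (∀ x ∈ U, toEnd Q s x ∈ U') ∧ (∀ x ∈ U', toEnd Q s x ∈ U) := by
  have hr := polarBilin_isRefl Q
  obtain ⟨s₀L, hs, h01, h10⟩ := tpair_exists_swap (polarBilin Q) hQ hr 1
    (fun x y => by rw [polarBilin_apply_apply, polarBilin_apply_apply, polar_comm, one_mul]) hU hfr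
  have hiso : IsIso Q s₀L := by
    intro x
    obtain ⟨a, ha, a', ha', rfl⟩ := hU.split x
    rw [map_add, QuadraticMap.map_add Q, QuadraticMap.map_add Q, hQU a ha, hQU' a' ha', hQU' _ (h01 a ha),
      hQU _ (h10 a' ha')]
    congr 1
    exact hs a a'
  set s₀ := ofEnd Q hQ s₀L hiso with hs₀
  obtain ⟨vs, hvs, hg⟩ := exists_refl_list Q hQ hc s₀
  have hcompl := hU.isCompl hQ
  have hsum := Submodule.finrank_add_eq_of_isCompl hcompl
  have hL : IsLagr Q U := ⟨hQU, by omega⟩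
  have hpar := parity_lagr_mat Q hQ U U hL hL s₀ vs hvs hg
  have hmap : U.map (Matrix.mulVecLin ((s₀ : Matrix.GeneralLinearGroup ι F) : Matrix ι ι F)) = U' := by
    apply Submodule.eq_of_le_of_finrank_eq
    · rintro _ ⟨x, hx, rfl⟩
      rw [Matrix.mulVecLin_apply, hs₀, ofEnd_mulVec]
      exact h01 x hx
    · rw [← (Submodule.equivMapOfInjective _ (gl_mulVec_injective (s₀ : Matrix.GeneralLinearGroup ι F)) U).finrank_eq,
        hfr]
  rw [hmap, hcompl.inf_eq_bot, finrank_bot, inf_idem, zero_add] at hpar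
  have he : Even vs.length := by
    rcases hk with ⟨r, hr'⟩
    rcases hpar with ⟨t, ht⟩
    exact ⟨t - r, by omega⟩
  obtain ⟨e, heU, he0⟩ := Submodule.exists_mem_ne_zero_of_ne_bot hU0
  obtain ⟨f, hfU, hef⟩ : ∃ f ∈ U', polar Q e f = 1 := by
    obtain ⟨y, hy, hyu⟩ : ∃ y ∈ U', polar Q e y ≠ 0 := by
      by_contra hc
      push Not at hc
      exact he0 (hU.zero_of_perp hQ e heU hc)
    exact ⟨(polar Q e y)⁻¹ • y, U'.smul_mem _ hy, by rw [polar_smul_right, smul_eq_mul, inv_mul_cancel₀ hyu]⟩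
  have hP : HPair Q e f := ⟨hQU e heU, hQU' f hfU, hef⟩
  obtain ⟨d, hd0, hd⟩ := exists_nonsquare_or (F := F)
  have ha : Q (e - (1 : F) • f) ≠ 0 := by rw [hP.Q_sub_smul]; simp
  have hb : Q (e - d • f) ≠ 0 := by rw [hP.Q_sub_smul]; simpa using hd0
  obtain ⟨s', ⟨hs'1, hs'2⟩, hmem⟩ := adjust_spinor Q hQ
    (fun s => (∀ x ∈ U, toEnd Q s x ∈ U) ∧ (∀ x ∈ U', toEnd Q s x ∈ U'))
    ⟨fun x hx => by rw [map_one]; exact hx, fun x hx => by rw [map_one]; exact hx⟩ s₀ vs hvs hg he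
    _ _ ha hb (by
      constructor
      · intro x hx
        rw [map_mul, toEnd_refl, toEnd_refl, Module.End.mul_apply, hP.rotation d hd0,
          show polar Q e x = 0 from hU.iso e heU x hx, mul_zero, zero_smul, add_zero]
        exact U.add_mem hx (U.smul_mem _ heU)
      · intro x hx
        rw [map_mul, toEnd_refl, toEnd_refl, Module.End.mul_apply, hP.rotation d hd0,
          show polar Q f x = 0 from hU.iso' f hfU x hx, mul_zero, zero_smul, add_zero]
        exact U'.add_mem hx (U'.smul_mem _ hfU))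
    (fun h2 => by
      rw [hP.Q_sub_smul, hP.Q_sub_smul]
      have : -(1 : F) * -d = d := by ring
      rw [this]
      exact hd h2)
  refine ⟨s' * s₀, hmem, ?_, ?_⟩
  · intro x hx
    rw [map_mul, Module.End.mul_apply, hs₀, toEnd_ofEnd]
    exact hs'2 _ (h01 x hx)
  · intro x hx
    rw [map_mul, Module.End.mul_apply, hs₀, toEnd_ofEnd]
    exact hs'1 _ (h10 x hx)

theorem om_pair_isMaximalIn [Fintype F] (Q : QuadraticForm F (ι → F)) (hQ : (polarBilin Q).Nondegenerate)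
    (k : ℕ) (hk : 5 ≤ k) (hke : Even k) (D : Fin 2 → Submodule F (ι → F))
    (hD : Geo.IsMDecomposition k D) (hts : ∀ i, ∀ w ∈ D i, Q w = 0) :
    Geo.IsMaximalIn (Geo.omegaGL Q) (Geo.decompositionStabilizer D ⊓ Geo.omegaGL Q) := by
  have hU : TPair (polarBilin Q) (D 0) (D 1) :=
    ⟨fun x hx y hy => polar_of_sing (hts 0) hx hy, fun x hx y hy => polar_of_sing (hts 1) hx hy,
      by rw [fin2_sup_eq, hD.iSup_eq_top]⟩
  have hk0 := hD.finrank_eq 0
  have hk1 := hD.finrank_eq 1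
  have hn : 5 ≤ Fintype.card ι := by
    have := Submodule.finrank_le (D 0)
    rw [finrank_fintype_fun_eq_card] at this
    omega
  have hD0 : D 0 ≠ ⊥ := by
    intro hb
    rw [hb, finrank_bot] at hk0
    omega
  -- root elements
  have hstab : ∀ {X X' : Submodule F (ι → F)}, TPair (polarBilin Q) X X' → (∀ x ∈ X', Q x = 0) → ∀ u ∈ X, ∀ w ∈ X',
      (∀ x ∈ X, eichL Q u w x ∈ X) ∧ (∀ x ∈ X', eichL Q u w x ∈ X') := by
    intro X X' hX hQX' u hu w hw
    constructor
    · intro x hx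
      rw [eichL_apply, show polar Q u x = 0 from hX.iso u hu x hx]
      simp only [mul_zero, sub_zero, neg_zero, zero_smul, add_zero]
      exact X.add_mem hx (X.smul_mem _ hu)
    · intro x hx
      rw [eichL_apply, show polar Q w x = 0 from hX.iso' w hw x hx, hQX' w hw]
      simp only [zero_mul, sub_zero, zero_smul, add_zero]
      exact X'.add_mem hx (X'.smul_mem _ hw)
  obtain ⟨s, hsΩ, hs01, hs10⟩ := om_exists_swap Q hQ (Or.inr (by omega)) hU (hts 0) (hts 1) (by rw [hk0, hk1])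
    (by rw [hk0]; exact hke) hD0
  have hsD : (s : Matrix.GeneralLinearGroup ι F) ∈ Geo.decompositionStabilizer D := by
    refine mem_decompStab_of_forall D k hD.finrank_eq _ (Equiv.swap 0 1) ?_
    intro l x hx
    fin_cases l
    · exact hs01 x hx
    · exact hs10 x hx
  constructor
  · apply lt_of_le_of_ne inf_le_right
    intro he
    obtain ⟨e₁, he₁, he₁0⟩ := Submodule.exists_mem_ne_zero_of_ne_bot hD0
    obtain ⟨f₁, hf₁, hef⟩ : ∃ f ∈ D 1, polar Q f e₁ = 1 := by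
      obtain ⟨y, hy, hyu⟩ : ∃ y ∈ D 1, polar Q e₁ y ≠ 0 := by
        by_contra hc
        push Not at hc
        exact he₁0 (hU.zero_of_perp hQ e₁ he₁ hc)
      exact ⟨(polar Q e₁ y)⁻¹ • y, (D 1).smul_mem _ hy, by
        rw [polar_comm, polar_smul_right, smul_eq_mul, inv_mul_cancel₀ hyu]⟩
    have f1 := finrank_le_inf_ker (D 1) (polarBilin Q e₁)
    obtain ⟨f₂, hf₂, hf₂0⟩ : ∃ f₂ ∈ D 1 ⊓ LinearMap.ker (polarBilin Q e₁), f₂ ≠ 0 := by
      apply Submodule.exists_mem_ne_zero_of_ne_bot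
      intro hb
      rw [hb, finrank_bot] at f1
      omega
    have hef₂ : polar Q e₁ f₂ = 0 := hf₂.2
    obtain ⟨g, hg, hgΩ⟩ := eich_mem_Omega Q hQ (Or.inr (by omega)) f₁ f₂ (hts 1 f₁ hf₁)
      (polar_of_sing (hts 1) hf₁ hf₂.1)
    have : (g : Matrix.GeneralLinearGroup ι F) ∈ Geo.omegaGL Q := (mem_omegaGL_iff Q _).2 ⟨g, hgΩ, rfl⟩
    rw [← he] at this
    obtain ⟨σ, hσ⟩ := this.1
    have h3 : toEnd Q g e₁ ∈ D (σ 0) := by
      rw [← hσ 0]
      exact ⟨e₁, he₁, rfl⟩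
    rw [hg, eichL_apply, polar_comm Q f₂ e₁, hef₂, hts 1 f₂ hf₂.1, hef] at h3
    have e : e₁ + ((0 : F) - 0 * 1) • f₁ + (-1 : F) • f₂ = e₁ - f₂ := by module
    rw [e] at h3
    have hc : σ 0 = 0 ∨ σ 0 = 1 := by
      generalize σ 0 = j
      fin_cases j <;> simp
    rcases hc with hc | hc
    · rw [hc] at h3
      exact hf₂0 (hU.inf_zero hQ f₂ (((D 0).sub_mem_iff_right he₁).1 h3) hf₂.1)
    · rw [hc] at h3
      exact he₁0 (hU.inf_zero hQ e₁ he₁ (((D 1).sub_mem_iff_left hf₂.1).1 h3))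
  · intro M hM1 hM2
    by_cases hall : M ≤ Geo.decompositionStabilizer D
    · left
      exact le_antisymm (le_inf hall hM2) hM1
    right
    apply le_antisymm hM2
    obtain ⟨x, hxM, hxD⟩ := SetLike.not_le_iff_exists.1 hall
    obtain ⟨g, hg, rfl⟩ := (mem_omegaGL_iff Q x).1 (hM2 hxM)
    set M' := M.comap (isometryGroup F Q).subtype with hM'
    have hin : ∀ k ∈ Omega F Q, (k : Matrix.GeneralLinearGroup ι F) ∈ Geo.decompositionStabilizer D → k ∈ M' :=
      fun k hk hkD => hM1 ⟨hkD, (mem_omegaGL_iff Q _).2 ⟨k, hk, rfl⟩⟩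
    have hS01 : ∀ u ∈ D 0, ∀ w ∈ D 1, polar Q u w = 0 → EIn Q M' u w := by
      intro u hu w hw huw k₀ hk
      obtain ⟨k', hk', hkΩ⟩ := eich_mem_Omega Q hQ (Or.inr (by omega)) u w (hts 0 u hu) huw
      have : k₀ = k' := toEnd_injective Q (by rw [hk, hk'])
      rw [this]
      apply hin k' hkΩ
      refine mem_decompStab_of_forall D k hD.finrank_eq _ 1 ?_
      intro l x hx
      rw [← toEnd_apply, hk']
      fin_cases l
      · exact (hstab hU (hts 1) u hu w hw).1 x hx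
      · exact (hstab hU (hts 1) u hu w hw).2 x hx
    have hS10 : ∀ u ∈ D 1, ∀ w ∈ D 0, polar Q u w = 0 → EIn Q M' u w := by
      intro u hu w hw huw k₀ hk
      obtain ⟨k', hk', hkΩ⟩ := eich_mem_Omega Q hQ (Or.inr (by omega)) u w (hts 1 u hu) huw
      have : k₀ = k' := toEnd_injective Q (by rw [hk, hk'])
      rw [this]
      apply hin k' hkΩ
      refine mem_decompStab_of_forall D k hD.finrank_eq _ 1 ?_
      intro l x hx
      rw [← toEnd_apply, hk']
      fin_cases l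
      · exact (hstab hU.symm (hts 0) u hu w hw).2 x hx
      · exact (hstab hU.symm (hts 0) u hu w hw).1 x hx
    have hsM : s ∈ M' := hin s hsΩ hsD
    have hgM : g ∈ M' := hxM
    suffices hmain : Omega F Q ≤ M' by
      intro y hy
      obtain ⟨k, hk, rfl⟩ := (mem_omegaGL_iff Q y).1 hy
      exact hmain hk
    by_contra hcon
    have key : ∀ (Z Z' : Submodule F (ι → F)), (∀ u ∈ Z, Q u = 0) →
        (∀ u ∈ Z, ∀ w ∈ Z', polar Q u w = 0 → EIn Q M' u w) → 4 ≤ finrank F Z' → Z ≤ D 0 ∨ Z ≤ D 1 := by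
      intro Z Z' hQZ hZ hdim
      apply tpair_geom_half (polarBilin Q) hQ hU hdim
      · intro u₁ hu₁ hn' z₁ hz₁ h11
        by_contra hz
        exact hcon (om_pair_core Q hQ hn hU (hts 0) (by omega) M' hS01 s hsM hs01 u₁ z₁ (hQZ u₁ hu₁) h11
          (hZ u₁ hu₁ z₁ hz₁ h11) hn' hz)
      · intro u₁ hu₁ hn' z₁ hz₁ h11
        by_contra hz
        exact hcon (om_pair_core Q hQ hn hU.symm (hts 1) (by omega) M' hS10 s hsM hs10 u₁ z₁ (hQZ u₁ hu₁) h11
          (hZ u₁ hu₁ z₁ hz₁ h11) hn' hz)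
    set L := Matrix.toLin' ((g : Matrix.GeneralLinearGroup ι F) : Matrix ι ι F) with hL
    have hLapp : ∀ v, L v = toEnd Q g v := fun v => rfl
    have hLinj : Function.Injective L := gl_mulVec_injective (g : Matrix.GeneralLinearGroup ι F)
    have hfr : ∀ i, finrank F ((D i).map L) = k := fun i => by
      rw [← (Submodule.equivMapOfInjective _ hLinj (D i)).finrank_eq, hD.finrank_eq]
    have hconj : ∀ (i j : Fin 2), (∀ u ∈ D i, ∀ w ∈ D j, polar Q u w = 0 → EIn Q M' u w) →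
        ∀ u ∈ (D i).map L, ∀ w ∈ (D j).map L, polar Q u w = 0 → EIn Q M' u w := by
      rintro i j hij _ ⟨u, hu, rfl⟩ _ ⟨w, hw, rfl⟩ huw
      rw [hLapp, hLapp] at huw ⊢
      rw [(toEnd_isIso Q g).polar] at huw
      exact (hij u hu w hw huw).conj g hgM
    have hQmap : ∀ i, ∀ u ∈ (D i).map L, Q u = 0 := by
      rintro i _ ⟨u, hu, rfl⟩
      rw [hLapp, toEnd_isIso Q g u]
      exact hts i u hu
    have k0 := key _ _ (hQmap 0) (hconj 0 1 hS01) (by rw [hfr]; omega)
    have k1 := key _ _ (hQmap 1) (hconj 1 0 hS10) (by rw [hfr]; omega)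
    have heq : ∀ i j, (D i).map L ≤ D j → (D i).map L = D j := fun i j h =>
      Submodule.eq_of_le_of_finrank_eq h (by rw [hfr, hD.finrank_eq])
    have hne : ∀ j, ¬ ((D 0).map L = D j ∧ (D 1).map L = D j) := by
      rintro j ⟨e0, e1⟩
      obtain ⟨u, hu, hu0⟩ := Submodule.exists_mem_ne_zero_of_ne_bot hD0
      have h1 : L u ∈ (D 1).map L := by rw [e1, ← e0]; exact ⟨u, hu, rfl⟩
      obtain ⟨u', hu', huu'⟩ := h1
      rw [hLinj huu'] at hu'
      exact hu0 (hU.inf_zero hQ u hu hu')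
    apply hxD
    rcases k0 with k0 | k0 <;> rcases k1 with k1 | k1
    · exact absurd ⟨heq 0 0 k0, heq 1 0 k1⟩ (hne 0)
    · refine ⟨1, fun i => ?_⟩
      fin_cases i
      · exact heq 0 0 k0
      · exact heq 1 1 k1
    · refine ⟨Equiv.swap 0 1, fun i => ?_⟩
      fin_cases i
      · exact heq 0 1 k0
      · exact heq 1 0 k1
    · exact absurd ⟨heq 0 1 k0, heq 1 1 k1⟩ (hne 1)

end Cfsg.Agent.Lib.Helper15
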