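import Mathlib
import Cfsg.Agent.Lib.Helper15.PSU1
import Cfsg.Agent.S0781

set_option autoImplicit false

namespace Cfsg.Agent.Lib.Helper15

open Module Matrix Cfsg Cfsg.Agent.Lib.Helper14
open scoped Pointwise

variable {F : Type*} [Field F] [Fintype F] {n q : ℕ}

/-- membership in the root group of a point -/
def InTU (W : Submodule F (Fin n → F)) (g : ↥(SU n F q)) : Prop :=
  ∃ x ∈ W, ∃ c : F, hermForm n F q x x = 0 ∧ c + c ^ q = 0 ∧
    ∀ y, suMat g *ᵥ y = y + (c * hermForm n F q y x) • x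

theorem inTU_span_iff (hF : Fintype.card F = q ^ 2) (x₀ : Fin n → F) (hx₀ : hermForm n F q x₀ x₀ = 0)
    (g : ↥(SU n F q)) : InTU (Submodule.span F {x₀}) g ↔
      ∃ c : F, c + c ^ q = 0 ∧ ∀ y, suMat g *ᵥ y = y + (c * hermForm n F q y x₀) • x₀ := by
  constructor
  · rintro ⟨x, hx, c, -, hc, hg⟩
    obtain ⟨a, rfl⟩ := Submodule.mem_span_singleton.1 hx
    refine ⟨c * (a * a ^ q), ?_, fun y => ?_⟩
    · rw [mul_pow, mul_pow, pow_q_q hF]; linear_combination (a * a ^ q) * hc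
    · rw [hg, hermForm_smul_right, smul_smul]; congr 2; ring
  · rintro ⟨c, hc, hg⟩
    exact ⟨x₀, Submodule.mem_span_singleton_self x₀, c, hx₀, hc, hg⟩

omit [Fintype F] in
theorem tu_mul (x₀ : Fin n → F) (hx₀ : hermForm n F q x₀ x₀ = 0) (g g' : ↥(SU n F q)) (c c' : F)
    (hg : ∀ y, suMat g *ᵥ y = y + (c * hermForm n F q y x₀) • x₀)
    (hg' : ∀ y, suMat g' *ᵥ y = y + (c' * hermForm n F q y x₀) • x₀) (y : Fin n → F) :
    suMat (g * g') *ᵥ y = y + ((c + c') * hermForm n F q y x₀) • x₀ := by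
  rw [suMat_mul, hg', hg, hermForm_add_left, hermForm_smul_left, hx₀]
  module

/-- the root group of an isotropic point -/
def rootTU (hF : Fintype.card F = q ^ 2) (P : UPt n F q) : Subgroup ↥(SU n F q) where
  carrier := {g | InTU P.1 g}
  one_mem' := ⟨0, Submodule.zero_mem _, 0, hermForm_zero_left _, by rw [zero_pow (q_ne_zero hF), add_zero],
    fun y => by
      rw [smul_zero, add_zero]
      exact Matrix.one_mulVec y⟩
  mul_mem' := by
    intro a b ha hb
    obtain ⟨x₀, -, hx₀, hW⟩ := P.2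
    simp only [Set.mem_ofPred_eq] at ha hb ⊢
    rw [hW, inTU_span_iff hF x₀ hx₀] at ha hb ⊢
    obtain ⟨c, hc, ha⟩ := ha
    obtain ⟨c', hc', hb⟩ := hb
    exact ⟨c + c', by rw [add_pow_q hF]; linear_combination hc + hc', tu_mul x₀ hx₀ a b c c' ha hb⟩
  inv_mem' := by
    intro a ha
    obtain ⟨x₀, -, hx₀, hW⟩ := P.2
    simp only [Set.mem_ofPred_eq] at ha ⊢
    rw [hW, inTU_span_iff hF x₀ hx₀] at ha ⊢
    obtain ⟨c, hc, ha⟩ := ha
    refine ⟨-c, by rw [neg_pow_q hF]; linear_combination -hc, fun y => ?_⟩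
    have : suMat a *ᵥ (y + (-c * hermForm n F q y x₀) • x₀) = y := by
      rw [ha, hermForm_add_left, hermForm_smul_left, hx₀]
      module
    conv_lhs => rw [← this]
    rw [suMat_inv_mul]

theorem mem_rootTU (hF : Fintype.card F = q ^ 2) (P : UPt n F q) (g : ↥(SU n F q)) :
    g ∈ rootTU hF P ↔ InTU P.1 g := Iff.rfl

omit [Fintype F] in
theorem inTU_conj (W : Submodule F (Fin n → F)) (g h : ↥(SU n F q)) (hh : InTU W h) :
    InTU (W.map (Matrix.mulVecLin (suMat g))) (g * h * g⁻¹) := by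
  obtain ⟨x, hx, c, hxx, hc, hh⟩ := hh
  refine ⟨suMat g *ᵥ x, Submodule.mem_map_of_mem (f := Matrix.mulVecLin (suMat g)) hx, c, ?_, hc, fun y => ?_⟩
  · rw [suMat_pres, hxx]
  · rw [suMat_mul, suMat_mul, hh, Matrix.mulVec_add, Matrix.mulVec_smul, suMat_mul_inv]
    congr 3
    conv_rhs => rw [← suMat_mul_inv g y]
    rw [suMat_pres]

noncomputable def suIwasawa (hF : Fintype.card F = q ^ 2) (hn : 3 ≤ n) (h32 : ¬ (n = 3 ∧ q = 2)) :
    MulAction.IwasawaStructure ↥(SU n F q) (UPt n F q) where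
  T := rootTU hF
  is_comm P := by
    refine ⟨⟨fun a b => ?_⟩⟩
    obtain ⟨x₀, -, hx₀, hW⟩ := P.2
    have ha := a.2
    have hb := b.2
    rw [mem_rootTU, hW, inTU_span_iff hF x₀ hx₀] at ha hb
    obtain ⟨c, -, ha⟩ := ha
    obtain ⟨c', -, hb⟩ := hb
    apply Subtype.ext
    apply su_ext
    intro y
    change suMat ((a : ↥(SU n F q)) * (b : ↥(SU n F q))) *ᵥ y = suMat ((b : ↥(SU n F q)) * (a : ↥(SU n F q))) *ᵥ y
    rw [tu_mul x₀ hx₀ _ _ c c' ha hb, tu_mul x₀ hx₀ _ _ c' c hb ha, add_comm c c']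
  is_conj g P := by
    ext h
    rw [Subgroup.mem_pointwise_smul_iff_inv_smul_mem, mem_rootTU, mem_rootTU]
    have e1 : (MulAut.conj g)⁻¹ • h = g⁻¹ * h * g := by
      rw [MulAut.smul_def, MulAut.conj_inv_apply]
    rw [e1]
    constructor
    · intro hh
      have := inTU_conj _ g⁻¹ h hh
      have e2 : ((g • P : UPt n F q).1).map (Matrix.mulVecLin (suMat g⁻¹)) = P.1 := by
        have : g⁻¹ • (g • P) = P := inv_smul_smul g P
        exact congrArg Subtype.val this
      rw [e2, inv_inv] at this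
      exact this
    · intro hh
      have := inTU_conj _ g _ hh
      have e2 : g * (g⁻¹ * h * g) * g⁻¹ = h := by group
      rw [e2] at this
      exact this
  is_generator := by
    rw [eq_top_iff]
    have h1 : tvSubU n F q ≤ (iSup (rootTU (n := n) hF)).map (suToGL n F q) := by
      unfold tvSubU
      rw [Subgroup.closure_le]
      intro k hk
      have hk' : k ∈ GU n F q ⊓ Geo.specialLinear (Fin n) F :=
        ⟨(IsTvU.isSimple hk).mem_GU hF, (mem_specialLinear_iff' k).2 (IsTvU.det hk)⟩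
      obtain ⟨A, hA⟩ := exists_suToGL k hk'
      have hAm : suMat A = (k : Matrix (Fin n) (Fin n) F) := by rw [← hA]; rfl
      obtain ⟨a, c, h1, h2, h3⟩ := hk
      refine ⟨A, ?_, hA⟩
      by_cases ha0 : a = 0
      · have : A = 1 := su_ext (fun x => by
          rw [hAm, h3, ha0, smul_zero, add_zero]
          exact (Matrix.one_mulVec x).symm)
        rw [this]; exact Subgroup.one_mem _
      · apply Subgroup.mem_iSup_of_mem (mkU a ha0 h1)
        exact ⟨a, Submodule.mem_span_singleton_self a, c, h1, h2, fun y => by rw [hAm, h3]⟩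
    intro A _
    obtain ⟨A', hA', he⟩ := h1 (SU_le_tvSubU' hF hn h32 (suToGL_mem A))
    rwa [← suToGL_injective he]

theorem su_perfect (hF : Fintype.card F = q ^ 2) (hn : 3 ≤ n) (h32 : ¬ (n = 3 ∧ q = 2)) :
    commutator ↥(SU n F q) = ⊤ := by
  have hq : 2 ≤ q := by
    have h1 := Fintype.one_lt_card (α := F)
    rw [hF] at h1
    by_contra hlt
    have : q = 0 ∨ q = 1 := by omega
    rcases this with rfl | rfl <;> simp at h1
  rw [commutator_eq_closure, eq_top_iff, ← su_closure_transvections hF hn h32]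
  apply Subgroup.closure_mono
  rintro A ⟨v, c, hv, hA⟩
  exact Cfsg.Agent.S0781.result hF n (by omega) A v c hv hA

theorem su_kernel_le_center (hF : Fintype.card F = q ^ 2) (hn : 2 ≤ n) (g : ↥(SU n F q))
    (hg : ∀ P : UPt n F q, g • P = P) : g ∈ Subgroup.center ↥(SU n F q) := by
  obtain ⟨v₀, hv₀0, hv₀⟩ := exists_isotropic_ne_zero (n := n) hF hn
  obtain ⟨l, hl⟩ := scalar_of_isotropic_eigen' hF v₀ hv₀0 hv₀ (Matrix.mulVecLin (suMat g)) (by
    intro u hu
    by_cases hu0 : u = 0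
    · exact ⟨0, by rw [hu0, map_zero, smul_zero]⟩
    have h5 := hg (mkU u hu0 hu)
    rw [smul_mkU] at h5
    have h6 : Submodule.span F {suMat g *ᵥ u} = Submodule.span F {u} := congrArg Subtype.val h5
    have h7 : suMat g *ᵥ u ∈ Submodule.span F {u} := by
      rw [← h6]; exact Submodule.mem_span_singleton_self _
    obtain ⟨c, hc⟩ := Submodule.mem_span_singleton.1 h7
    exact ⟨c, hc.symm⟩)
  have hl' : ∀ x, suMat g *ᵥ x = l • x := hl
  rw [Subgroup.mem_center_iff]
  intro k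
  apply su_ext
  intro x
  rw [suMat_mul, suMat_mul, hl', hl', Matrix.mulVec_smul]

theorem su_center_ne_top (hF : Fintype.card F = q ^ 2) (hn : 3 ≤ n) (h32 : ¬ (n = 3 ∧ q = 2)) :
    Subgroup.center ↥(SU n F q) ≠ ⊤ := by
  intro hc
  rw [← commutator_eq_bot_iff_center_eq_top, su_perfect hF hn h32] at hc
  obtain ⟨v₀, hv₀0, hv₀⟩ := exists_isotropic_ne_zero (n := n) hF (by omega)
  obtain ⟨w₀, hw₀v, -⟩ := exists_hyperbolic_partner hF v₀ hv₀0 hv₀
  obtain ⟨c₀, hc₀, hc₀'⟩ := exists_skew hF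
  obtain ⟨k, -, hk⟩ := exists_tv hF v₀ c₀ hv₀ hc₀'
  obtain ⟨K, hK⟩ := exists_su_of_gl k (tv_mem_SU hF v₀ c₀ hv₀ hc₀' k hk)
  have hK1 : K = 1 := by
    have : K ∈ (⊤ : Subgroup ↥(SU n F q)) := trivial
    rw [hc] at this
    exact this
  have h5 := hk w₀
  rw [← hK, hK1, hw₀v, mul_one] at h5
  have h6 : suMat (1 : ↥(SU n F q)) *ᵥ w₀ = w₀ := Matrix.one_mulVec w₀
  rw [h6] at h5
  have h7 : c₀ • v₀ = 0 := by simpa using h5
  rcases smul_eq_zero.1 h7 with h | h
  · exact hc₀ h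
  · exact hv₀0 h

theorem PSU_simple (hF : Fintype.card F = q ^ 2) (hn : 3 ≤ n) (h32 : ¬ (n = 3 ∧ q = 2)) :
    IsSimpleGroup (PSU n F q) := by
  have := su_preprimitive (n := n) hF
  exact simple_quotient_center_of_iwasawa (suIwasawa hF hn h32) (su_perfect hF hn h32)
    (su_kernel_le_center hF (by omega)) (su_center_ne_top hF hn h32)

end Cfsg.Agent.Lib.Helper15
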