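import Mathlib
import Cfsg.Prelude.Def_GeometricClasses
import Cfsg.Agent.Lib.Helper5.Witt
import Cfsg.Agent.Lib.Helper15.ParMax2

set_option autoImplicit false

namespace Cfsg.Agent.Lib.Helper15

open Module Matrix Cfsg Cfsg.Agent.Lib.Helper5

variable {F : Type*} [Field F] {ι : Type} [Fintype ι] [DecidableEq ι]

/-- bundled symplectic form -/
noncomputable def fB (f : (ι → F) → (ι → F) → F) (hf : Geo.IsSymplecticForm f) :
    (ι → F) →ₗ[F] (ι → F) →ₗ[F] F :=
  LinearMap.mk₂ F f hf.bilinear.add_left hf.bilinear.smul_left hf.bilinear.add_right hf.bilinear.smul_right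

variable {f : (ι → F) → (ι → F) → F} (hf : Geo.IsSymplecticForm f)

omit [Fintype ι] [DecidableEq ι] in
theorem fB_apply (u v : ι → F) : fB f hf u v = f u v := rfl

omit [Fintype ι] [DecidableEq ι] in
theorem fB_sepRight : (fB f hf).SeparatingRight := by
  intro y hy
  by_contra h0
  obtain ⟨⟨x, hx⟩, -⟩ := hf.nondegenerate y h0
  exact hx (hy x)

omit [Fintype ι] [DecidableEq ι] in
include hf in
theorem f_sub_left (u u' v : ι → F) : f (u - u') v = f u v - f u' v := by
  have := (fB f hf).map_sub₂ u u' v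
  exact this

omit [Fintype ι] [DecidableEq ι] in
include hf in
theorem f_zero_right (u : ι → F) : f u 0 = 0 := by
  have := (fB f hf u).map_zero
  exact this

omit [Fintype ι] [DecidableEq ι] in
include hf in
theorem f_zero_left (u : ι → F) : f 0 u = 0 := by
  rw [hf.skew, f_zero_right hf, neg_zero]

/-- general transvection written with the form -/
noncomputable def tz (z v : ι → F) (h : f z v = 0) : GL ι F := tvGL (fB f hf z) v h

theorem tz_mulVec (z v : ι → F) (h : f z v = 0) (x : ι → F) :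
    (tz hf z v h : Matrix ι ι F) *ᵥ x = x + f z x • v := tvGL_mulVec _ _ _ _

/-- symplectic transvection -/
noncomputable def ts (u : ι → F) (c : F) : GL ι F :=
  tz hf (c • u) u (by rw [hf.bilinear.smul_left, hf.alternating, mul_zero])

theorem ts_mulVec (u : ι → F) (c : F) (x : ι → F) :
    (ts hf u c : Matrix ι ι F) *ᵥ x = x + (c * f u x) • u := by
  rw [ts, tz_mulVec, hf.bilinear.smul_left]

theorem ts_mem_SL (u : ι → F) (c : F) : ts hf u c ∈ Geo.specialLinear ι F := by
  unfold ts tz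
  exact tvGL_mem_SL _ _ _

theorem ts_preserves (u : ι → F) (c : F) (x y : ι → F) :
    f ((ts hf u c : Matrix ι ι F) *ᵥ x) ((ts hf u c : Matrix ι ι F) *ᵥ y) = f x y := by
  rw [ts_mulVec, ts_mulVec, hf.bilinear.add_left, hf.bilinear.add_right, hf.bilinear.add_right,
    hf.bilinear.smul_left, hf.bilinear.smul_right, hf.bilinear.smul_right, hf.bilinear.smul_left,
    hf.alternating, hf.skew x u]
  ring

theorem tz_conj (g : GL ι F) (hg : ∀ u v, f ((g : Matrix ι ι F) *ᵥ u) ((g : Matrix ι ι F) *ᵥ v) = f u v)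
    (z v : ι → F) (h : f z v = 0) :
    g * tz hf z v h * g⁻¹ = tz hf ((g : Matrix ι ι F) *ᵥ z) ((g : Matrix ι ι F) *ᵥ v) (by rw [hg, h]) := by
  apply gl_ext_mulVec
  intro x
  rw [Units.val_mul, Units.val_mul, ← Matrix.mulVec_mulVec, ← Matrix.mulVec_mulVec, tz_mulVec, tz_mulVec,
    Matrix.mulVec_add, Matrix.mulVec_smul, gl_mulVec_inv]
  congr 2
  rw [← hg z, gl_mulVec_inv]

theorem ts_step (N : Subgroup (GL ι F)) (hN : ∀ u c, ts hf u c ∈ N) (H : Submodule F (ι → F)) (u z : ι → F)
    (hperp : ∀ h ∈ H, f (z - u) h = 0) (hne : f (z - u) u ≠ 0) :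
    ∃ A ∈ N, (∀ h ∈ H, (A : Matrix ι ι F) *ᵥ h = h) ∧ (A : Matrix ι ι F) *ᵥ u = z := by
  refine ⟨ts hf (z - u) (f (z - u) u)⁻¹, hN _ _, fun h hh => ?_, ?_⟩
  · rw [ts_mulVec, hperp h hh, mul_zero, zero_smul, add_zero]
  · rw [ts_mulVec, inv_mul_cancel₀ hne, one_smul]; abel

theorem ts_key (N : Subgroup (GL ι F)) (hN : ∀ u c, ts hf u c ∈ N) (H : Submodule F (ι → F)) (u u' : ι → F)
    (hu : u ∉ H) (hu' : u' ∉ H) (hperp : ∀ h ∈ H, f (u' - u) h = 0) :
    ∃ A ∈ N, (∀ h ∈ H, (A : Matrix ι ι F) *ᵥ h = h) ∧ (A : Matrix ι ι F) *ᵥ u = u' := by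
  by_cases hd : f (u' - u) u = 0
  · obtain ⟨y, hyH, hyu, hyu'⟩ := exists_sep_two (σ := RingHom.id F) (fun _ => rfl) (fB f hf)
      (fB_sepRight hf) H u u' hu hu'
    simp only [fB_apply] at hyH hyu hyu'
    obtain ⟨A₁, hA₁, h1, h1'⟩ := ts_step hf N hN H u (u + y)
      (fun h hh => by rw [add_sub_cancel_left, hyH h hh])
      (by rw [add_sub_cancel_left, hyu]; exact one_ne_zero)
    obtain ⟨A₂, hA₂, h2, h2'⟩ := ts_step hf N hN H (u + y) u'
      (fun h hh => by
        have e : u' - (u + y) = (u' - u) - y := by abel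
        rw [e, f_sub_left hf, hperp h hh, hyH h hh, sub_zero])
      (by
        have e : u' - (u + y) = (u' - u) - y := by abel
        rw [e, f_sub_left hf, hf.bilinear.add_right, hf.bilinear.add_right, hd, hyu, hf.alternating,
          f_sub_left hf, hf.skew u' y, hf.skew u y, hyu]
        intro h0
        apply hyu'
        linear_combination -h0)
    refine ⟨A₂ * A₁, N.mul_mem hA₂ hA₁, fun h hh => ?_, ?_⟩
    · rw [Units.val_mul, ← mulVec_mulVec, h1 h hh, h2 h hh]
    · rw [Units.val_mul, ← mulVec_mulVec, h1', h2']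
  · exact ts_step hf N hN H u u' hperp hd

omit [Fintype ι] [DecidableEq ι] in
include hf in
theorem f_exists_both (v w : ι → F) (hv : v ≠ 0) (hw : w ≠ 0) : ∃ y, f v y ≠ 0 ∧ f w y ≠ 0 := by
  obtain ⟨-, p, hp⟩ := hf.nondegenerate v hv
  obtain ⟨-, r, hr⟩ := hf.nondegenerate w hw
  by_cases h1 : f w p = 0
  · by_cases h2 : f v r = 0
    · refine ⟨p + r, ?_, ?_⟩
      · rw [hf.bilinear.add_right, h2, add_zero]; exact hp
      · rw [hf.bilinear.add_right, h1, zero_add]; exact hr
    · exact ⟨r, h2, hr⟩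
  · exact ⟨p, hp, h1⟩

include hf in
theorem sp_max_in_SL [Nontrivial ι] (M : Subgroup (GL ι F))
    (hM : Geo.similarityGroup f ⊓ Geo.specialLinear ι F ≤ M)
    (hns : ¬ M ≤ Geo.similarityGroup f) : Geo.specialLinear ι F ≤ M := by
  -- the subgroup of isometries in `M`
  set N : Subgroup (GL ι F) := M ⊓ preserving (glToMat ι F) f with hNdef
  have hNmem : ∀ g, g ∈ N ↔ g ∈ M ∧ ∀ u v, f ((g : Matrix ι ι F) *ᵥ u) ((g : Matrix ι ι F) *ᵥ v) = f u v :=
    fun g => Iff.rfl
  have hN : ∀ u c, ts hf u c ∈ N := by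
    intro u c
    rw [hNmem]
    refine ⟨hM ⟨⟨1, fun x y => ?_⟩, ts_mem_SL hf u c⟩, ts_preserves hf u c⟩
    rw [Units.val_one, one_mul]; exact ts_preserves hf u c x y
  obtain ⟨h, hhM, hhS⟩ := SetLike.not_le_iff_exists.1 hns
  -- Step A
  obtain ⟨v', z₀, hv'0, hz₀v, hz₀, hzM⟩ : ∃ (v' z₀ : ι → F), v' ≠ 0 ∧ z₀ ∉ Submodule.span F {v'} ∧
      ∃ hz : f z₀ v' = 0, tz hf z₀ v' hz ∈ M := by
    by_contra hcon
    push Not at hcon
    -- every vector gives a multiplier
    have hmul : ∀ v, v ≠ 0 → ∃ μ : F, ∀ x, f ((h : Matrix ι ι F) *ᵥ v) ((h : Matrix ι ι F) *ᵥ x) = μ * f v x := by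
      intro v hv
      have hv' : (h : Matrix ι ι F) *ᵥ v ≠ 0 := by
        intro h0
        apply hv
        rw [← gl_inv_mulVec h v, h0, Matrix.mulVec_zero]
      -- the conjugated transvection
      obtain ⟨z, hz⟩ := exists_rep (σ := RingHom.id F) (fun _ => rfl) (fB f hf) (fB_sepRight hf)
        ((fB f hf v).comp (Matrix.mulVecLin ((h⁻¹ : GL ι F) : Matrix ι ι F)))
      have hzx : ∀ x, f z x = f v (((h⁻¹ : GL ι F) : Matrix ι ι F) *ᵥ x) := fun x =>
        congrArg (fun φ : Module.Dual F (ι → F) => φ x) hz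
      have hzv : f z ((h : Matrix ι ι F) *ᵥ v) = 0 := by rw [hzx, gl_inv_mulVec, hf.alternating]
      have hmem : tz hf z _ hzv ∈ M := by
        have e1 : tz hf z _ hzv = h * ts hf v 1 * h⁻¹ := by
          apply gl_ext_mulVec
          intro x
          rw [Units.val_mul, Units.val_mul, ← Matrix.mulVec_mulVec, ← Matrix.mulVec_mulVec, tz_mulVec, ts_mulVec,
            Matrix.mulVec_add, Matrix.mulVec_smul, gl_mulVec_inv, hzx, one_mul]
        rw [e1]
        exact M.mul_mem (M.mul_mem hhM (hN v 1).1) (M.inv_mem hhM)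
      have hspan : z ∈ Submodule.span F {(h : Matrix ι ι F) *ᵥ v} := by
        by_contra hc
        exact hcon _ z hv' hc hzv hmem
      obtain ⟨lam, hlam⟩ := Submodule.mem_span_singleton.1 hspan
      have hlam0 : lam ≠ 0 := by
        rintro rfl
        rw [zero_smul] at hlam
        obtain ⟨-, x, hx⟩ := hf.nondegenerate v hv
        apply hx
        have := hzx ((h : Matrix ι ι F) *ᵥ x)
        rw [gl_inv_mulVec, ← hlam, f_zero_left hf] at this
        exact this.symm
      refine ⟨lam⁻¹, fun x => ?_⟩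
      have := hzx ((h : Matrix ι ι F) *ᵥ x)
      rw [gl_inv_mulVec, ← hlam, hf.bilinear.smul_left] at this
      rw [← this]; field_simp
    choose! μ hμ using hmul
    have hμeq : ∀ v w, v ≠ 0 → w ≠ 0 → f v w ≠ 0 → μ v = μ w := by
      intro v w hv hw hvw
      have h1 := hμ v hv w
      have h2 := hμ w hw v
      rw [hf.skew, h2, hf.skew w v] at h1
      have : (μ w - μ v) * f v w = 0 := by linear_combination h1
      rcases mul_eq_zero.1 this with h3 | h3
      · exact (sub_eq_zero.1 h3).symm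
      · exact absurd h3 hvw
    have hμconst : ∀ v w, v ≠ 0 → w ≠ 0 → μ v = μ w := by
      intro v w hv hw
      obtain ⟨y, hvy, hwy⟩ := f_exists_both hf v w hv hw
      have hy : y ≠ 0 := by
        rintro rfl
        exact hvy (f_zero_right hf v)
      rw [hμeq v y hv hy hvy, hμeq w y hw hy hwy]
    obtain ⟨v₀, hv₀⟩ : ∃ v₀ : ι → F, v₀ ≠ 0 := exists_ne 0
    have hμ0 : μ v₀ ≠ 0 := by
      intro h0
      have hv' : (h : Matrix ι ι F) *ᵥ v₀ ≠ 0 := by
        intro h0
        apply hv₀
        rw [← gl_inv_mulVec h v₀, h0, Matrix.mulVec_zero]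
      obtain ⟨-, x, hx⟩ := hf.nondegenerate _ hv'
      apply hx
      have := hμ v₀ hv₀ (((h⁻¹ : GL ι F) : Matrix ι ι F) *ᵥ x)
      rw [gl_mulVec_inv, h0, zero_mul] at this
      exact this
    apply hhS
    refine ⟨Units.mk0 _ hμ0, fun u v => ?_⟩
    rw [Units.val_mk0]
    by_cases hu : u = 0
    · rw [hu, Matrix.mulVec_zero, f_zero_left hf, f_zero_left hf, mul_zero]
    · rw [hμ u hu v, hμconst u v₀ hu hv₀]
  -- Step B
  have hB : ∀ z (hz : f z v' = 0), tz hf z v' hz ∈ M := by
    intro z hz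
    by_cases hzs : z ∈ Submodule.span F {v'}
    · obtain ⟨c, rfl⟩ := Submodule.mem_span_singleton.1 hzs
      exact (hN v' c).1
    · obtain ⟨A, hA, hAH, hAz⟩ := ts_key hf N hN (Submodule.span F {v'}) z₀ z hz₀v hzs (by
        intro x hx
        obtain ⟨c, rfl⟩ := Submodule.mem_span_singleton.1 hx
        rw [hf.bilinear.smul_right, f_sub_left hf, hz, hz₀, sub_zero, mul_zero])
      have h1 := tz_conj hf A ((hNmem A).1 hA).2 z₀ v' hz₀
      have h2 : tz hf z v' hz = A * tz hf z₀ v' hz₀ * A⁻¹ := by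
        rw [h1]
        apply gl_ext_mulVec
        intro x
        rw [tz_mulVec, tz_mulVec, hAz, hAH v' (Submodule.mem_span_singleton_self _)]
      rw [h2]
      exact M.mul_mem (M.mul_mem hA.1 hzM) (M.inv_mem hA.1)
  have hgood : GoodS M v' := by
    intro φ hφ
    obtain ⟨z, hz⟩ := exists_rep (σ := RingHom.id F) (fun _ => rfl) (fB f hf) (fB_sepRight hf) φ
    have hzv : f z v' = 0 := by
      have := congrArg (fun ψ : Module.Dual F (ι → F) => ψ v') hz
      simp only [fB_apply] at this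
      rw [this, hφ]
    have e : tvGL φ v' hφ = tz hf z v' hzv := by
      apply gl_ext_mulVec
      intro x
      rw [tvGL_mulVec, tz_mulVec, ← hz, fB_apply]
    rw [e]
    exact hB z hzv
  apply SL_le_of_good
  intro v
  by_cases hv : v = 0
  · intro φ hφ
    have : tvGL φ v hφ = 1 := by
      apply gl_ext_mulVec
      intro x
      rw [tvGL_mulVec, hv]; simp
    rw [this]; exact M.one_mem
  · obtain ⟨A, hA, -, hAv⟩ := ts_key hf N hN ⊥ v' v (by simpa using hv'0) (by simpa using hv) (by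
      intro x hx
      rw [(Submodule.mem_bot F).1 hx, f_zero_right hf])
    rw [← hAv]
    exact hgood.conj A hA.1

include hf in
theorem sp_isMaximalIn_SL (hn : 3 ≤ Fintype.card ι) :
    Geo.IsMaximalIn (Geo.specialLinear ι F) (Geo.similarityGroup f ⊓ Geo.specialLinear ι F) := by
  have : Nontrivial ι := Fintype.one_lt_card_iff_nontrivial.1 (by omega)
  constructor
  · apply lt_of_le_of_ne inf_le_right
    intro he
    obtain ⟨v, hv⟩ : ∃ v : ι → F, v ≠ 0 := exists_ne 0
    obtain ⟨z, hzK, hzs⟩ : ∃ z, f v z = 0 ∧ z ∉ Submodule.span F {v} := by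
      by_contra hcon
      push Not at hcon
      have h1 : LinearMap.ker (fB f hf v) ≤ Submodule.span F {v} := fun z hz => hcon z hz
      have h2 := Submodule.finrank_mono h1
      rw [finrank_span_singleton hv] at h2
      have h3 := LinearMap.finrank_range_add_finrank_ker (fB f hf v)
      rw [finrank_fintype_fun_eq_card] at h3
      have h4 : finrank F (LinearMap.range (fB f hf v)) ≤ 1 := by
        have := Submodule.finrank_le (LinearMap.range (fB f hf v))
        rwa [finrank_self] at this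
      omega
    have hzv : f z v = 0 := by rw [hf.skew, hzK, neg_zero]
    have h1 : tz hf z v hzv ∈ Geo.specialLinear ι F := tvGL_mem_SL _ _ _
    rw [← he] at h1
    obtain ⟨c, hc⟩ := h1.1
    obtain ⟨⟨y₀, hy₀⟩, -⟩ := hf.nondegenerate v hv
    have hexp : ∀ x y, f ((tz hf z v hzv : Matrix ι ι F) *ᵥ x) ((tz hf z v hzv : Matrix ι ι F) *ᵥ y) =
        f x y + f z y * f x v - f z x * f y v := by
      intro x y
      rw [tz_mulVec, tz_mulVec, hf.bilinear.add_left, hf.bilinear.add_right, hf.bilinear.add_right,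
        hf.bilinear.smul_left, hf.bilinear.smul_right, hf.bilinear.smul_right, hf.bilinear.smul_left,
        hf.alternating, hf.skew v y]
      ring
    have hc1 : (c : F) = 1 := by
      have h2 := hc y₀ v
      rw [hexp, hzv, hf.alternating] at h2
      have : ((c : F) - 1) * f y₀ v = 0 := by linear_combination -h2
      rcases mul_eq_zero.1 this with h3 | h3
      · exact sub_eq_zero.1 h3
      · exact absurd h3 hy₀
    apply hzs
    set a := f z y₀ / f y₀ v with ha
    have h5 : z + a • v = 0 := by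
      by_contra h0
      obtain ⟨-, x, hx⟩ := hf.nondegenerate _ h0
      apply hx
      have h2 := hc x y₀
      rw [hexp, hc1, one_mul] at h2
      rw [hf.bilinear.add_left, hf.bilinear.smul_left, ha, hf.skew v x]
      field_simp
      linear_combination -h2
    rw [Submodule.mem_span_singleton]
    exact ⟨-a, by rw [neg_smul]; exact (eq_neg_of_add_eq_zero_left h5).symm⟩
  · intro M hM1 hM2
    by_cases hall : M ≤ Geo.similarityGroup f
    · left
      exact le_antisymm (le_inf hall hM2) hM1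
    · right
      exact le_antisymm hM2 (sp_max_in_SL hf M hM1 hall)

end Cfsg.Agent.Lib.Helper15
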