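import Mathlib
import Cfsg.Agent.Lib.Helper15.ParMax8
import Cfsg.Agent.Lib.Helper15.Simp1

set_option autoImplicit false

namespace Cfsg.Agent.Lib.Helper15

open Module Matrix Cfsg Cfsg.Agent.Lib.Helper5

variable {F : Type*} [Field F] {m : ℕ} {t k : ℕ} {D : Fin t → Submodule F (Fin m ⊕ Fin m → F)}

theorem dec_good_of_mem (hD : Geo.IsNondegenerateMDecomposition (sympForm m F) k D)
    (M : Subgroup (GL (Fin m ⊕ Fin m) F)) (hM : Geo.decompositionStabilizer D ⊓ spGL m F ≤ M) (l : Fin t)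
    (u : Fin m ⊕ Fin m → F) (hu : u ∈ D l) : GoodP M u := by
  intro c
  apply hM
  refine ⟨mem_decompStab_of_forall D k hD.decomp.finrank_eq _ 1 (fun p x hx => ?_), tvSp_mem _ _⟩
  rw [tvSp_mulVec]
  simp only [Equiv.Perm.coe_one, id]
  by_cases hp : p = l
  · subst hp; exact (D p).add_mem hx ((D p).smul_mem _ hu)
  · rw [dec_orth hD hp hx hu, mul_zero, zero_smul, add_zero]; exact hx

theorem dec_exists_ne (hD : Geo.IsNondegenerateMDecomposition (sympForm m F) k D) (l : Fin t) :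
    ∃ x ∈ D l, x ≠ 0 := by
  apply Submodule.exists_mem_ne_zero_of_ne_bot
  intro h
  have h1 := hD.decomp.finrank_eq l
  rw [h, finrank_bot] at h1
  have := hD.decomp.pos
  omega

theorem dec_eq_zero (hD : Geo.IsNondegenerateMDecomposition (sympForm m F) k D) (l : Fin t)
    (x : Fin m ⊕ Fin m → F) (hx : x ∈ D l) (h : ∀ e ∈ D l, sympForm m F x e = 0) : x = 0 := by
  by_contra h0
  obtain ⟨e, he, hxe⟩ := dec_nd hD l x hx h0
  exact hxe (h e he)

theorem dec_exists_bad (hD : Geo.IsNondegenerateMDecomposition (sympForm m F) k D)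
    (h : GL (Fin m ⊕ Fin m) F) (hs : h ∈ spGL m F) (hn : h ∉ Geo.decompositionStabilizer D) :
    ∃ l, ∃ x ∈ D l, ∀ p, (h : Matrix (Fin m ⊕ Fin m) (Fin m ⊕ Fin m) F) *ᵥ x ∉ D p := by
  by_contra hcon
  push Not at hcon
  apply hn
  choose x0 hx0 hx00 using dec_exists_ne hD
  choose τ hτ using fun l => hcon l (x0 l) (hx0 l)
  have hne : ∀ x, x ≠ 0 → (h : Matrix (Fin m ⊕ Fin m) (Fin m ⊕ Fin m) F) *ᵥ x ≠ 0 := by
    intro x hx h0
    apply hx
    rw [← gl_inv_mulVec h x, h0, Matrix.mulVec_zero]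
  have hall : ∀ l, ∀ x ∈ D l, (h : Matrix (Fin m ⊕ Fin m) (Fin m ⊕ Fin m) F) *ᵥ x ∈ D (τ l) := by
    intro l x hx
    obtain ⟨p₂, hp₂⟩ := hcon l x hx
    by_cases h2 : p₂ = τ l
    · rw [← h2]; exact hp₂
    obtain ⟨p₃, hp₃⟩ := hcon l (x0 l + x) ((D l).add_mem (hx0 l) hx)
    rw [Matrix.mulVec_add] at hp₃
    by_cases h3 : p₃ = τ l
    · rw [h3] at hp₃
      exact ((D (τ l)).add_mem_iff_right (hτ l)).1 hp₃
    · exfalso
      apply hne _ (hx00 l)
      apply dec_eq_zero hD (τ l) _ (hτ l)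
      intro e he
      have e1 := dec_orth hD h3 hp₃ he
      rw [sympForm_add_left, dec_orth hD h2 hp₂ he, add_zero] at e1
      exact e1
  have hinj : Function.Injective τ := by
    intro l l' hll
    by_contra hne'
    have hmap : (D l').map (Matrix.mulVecLin (h : Matrix (Fin m ⊕ Fin m) (Fin m ⊕ Fin m) F)) = D (τ l') := by
      apply Submodule.eq_of_le_of_finrank_eq
      · rintro _ ⟨x, hx, rfl⟩
        exact hall l' x hx
      · rw [← (Submodule.equivMapOfInjective _ (gl_mulVec_injective h) (D l')).finrank_eq,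
          hD.decomp.finrank_eq, hD.decomp.finrank_eq]
    have h1 := hτ l
    rw [hll, ← hmap] at h1
    obtain ⟨z, hz, hzx⟩ := h1
    have h2 : z = x0 l := gl_mulVec_injective h hzx
    apply hx00 l
    apply dec_eq_zero hD l _ (hx0 l)
    intro e he
    rw [← h2]
    exact dec_orth hD (Ne.symm hne') hz he
  exact mem_decompStab_of_forall D k hD.decomp.finrank_eq h
    (Equiv.ofBijective τ (Finite.injective_iff_bijective.1 hinj)) hall

theorem exists_perp_other [Fintype F] (A : Submodule F (Fin m ⊕ Fin m → F)) (hA : NDOn A)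
    (hex : ¬ (finrank F A = 2 ∧ Fintype.card F = 2)) (a : Fin m ⊕ Fin m → F) (ha : a ∈ A) (ha0 : a ≠ 0) :
    ∃ x ∈ A, x ≠ 0 ∧ x ≠ a ∧ sympForm m F a x = 0 := by
  by_cases hq : Fintype.card F = 2
  · have hA0 : A ≠ ⊥ := fun h => by
      rw [h, Submodule.mem_bot] at ha; exact ha0 ha
    obtain ⟨a₁, ha₁, b₁, hb₁, hab₁⟩ := exists_pair_of_nd A hA hA0
    have h1 := finrank_cutAB A a₁ b₁ ha₁ hb₁ hab₁
    have h2 : finrank F A ≠ 2 := fun h => hex ⟨h, hq⟩
    have h3 := finrank_le_inf_ker A (sympB m F a)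
    have h4 := finrank_span_singleton_le (F := F) a
    obtain ⟨x, hx, hxs⟩ := exists_mem_notMem_of_finrank_lt (Submodule.span F {a})
      (A ⊓ LinearMap.ker (sympB m F a)) (by omega)
    refine ⟨x, hx.1, ?_, ?_, hx.2⟩
    · rintro rfl
      exact hxs (Submodule.zero_mem _)
    · rintro rfl
      exact hxs (Submodule.mem_span_singleton_self _)
  · obtain ⟨c, hc0, hc1⟩ := exists_third hq
    refine ⟨c • a, A.smul_mem _ ha, smul_ne_zero hc0 ha0, ?_, by rw [sympForm_smul_right, sympForm_self, mul_zero]⟩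
    intro h
    have : (c - 1) • a = 0 := by rw [sub_smul, one_smul, h, sub_self]
    rcases smul_eq_zero.1 this with h1 | h1
    · exact hc1 (sub_eq_zero.1 h1)
    · exact ha0 h1

theorem goodP_zero (M : Subgroup (GL (Fin m ⊕ Fin m) F)) : GoodP M 0 := by
  intro c
  have : tvSp (0 : Fin m ⊕ Fin m → F) c = 1 := by
    apply gl_ext_mulVec
    intro x
    rw [tvSp_mulVec]; simp
  rw [this]; exact M.one_mem

/-- all sums of a vector of `D i` and a vector of `D j` are good -/
def RR (D : Fin t → Submodule F (Fin m ⊕ Fin m → F)) (M : Subgroup (GL (Fin m ⊕ Fin m) F)) (i j : Fin t) : Prop :=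
  ∀ a ∈ D i, ∀ b ∈ D j, GoodP M (a + b)

theorem RR_of_one (hD : Geo.IsNondegenerateMDecomposition (sympForm m F) k D)
    (M : Subgroup (GL (Fin m ⊕ Fin m) F)) (hM : Geo.decompositionStabilizer D ⊓ spGL m F ≤ M) (i j : Fin t)
    (hij : i ≠ j) (a₀ b₀ : Fin m ⊕ Fin m → F) (ha₀ : a₀ ∈ D i) (hb₀ : b₀ ∈ D j) (ha₀0 : a₀ ≠ 0) (hb₀0 : b₀ ≠ 0)
    (h : GoodP M (a₀ + b₀)) : RR D M i j := by
  intro a ha b hb
  by_cases ha0 : a = 0
  · rw [ha0, zero_add]; exact dec_good_of_mem hD M hM j b hb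
  by_cases hb0 : b = 0
  · rw [hb0, add_zero]; exact dec_good_of_mem hD M hM i a ha
  have h1 : GoodP M (a + b₀) := sp_move (D i) (dec_good_of_mem hD M hM i) (dec_nd hD i) a₀ b₀ a ha₀ ha₀0 ha ha0
    (fun u hu => dec_orth hD (Ne.symm hij) hb₀ hu) h
  rw [add_comm] at h1
  have h2 : GoodP M (b + a) := sp_move (D j) (dec_good_of_mem hD M hM j) (dec_nd hD j) b₀ a b hb₀ hb₀0 hb hb0
    (fun u hu => dec_orth hD hij ha hu) h1
  rwa [add_comm] at h2

theorem RR_swap (hD : Geo.IsNondegenerateMDecomposition (sympForm m F) k D)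
    (M : Subgroup (GL (Fin m ⊕ Fin m) F)) (hM : Geo.decompositionStabilizer D ⊓ spGL m F ≤ M) (i j p r : Fin t)
    (h : RR D M i j) : RR D M (Equiv.swap p r i) (Equiv.swap p r j) := by
  obtain ⟨g, hgs, hgd, hg⟩ := dec_exists_swap hD p r
  have hgM : g ∈ M := hM ⟨hgd, hgs⟩
  intro a ha b hb
  have h1 := hg _ a ha
  have h2 := hg _ b hb
  rw [Equiv.swap_apply_self] at h1 h2
  have h3 := (h _ h1 _ h2).conj g⁻¹ (M.inv_mem hgM) ((spGL m F).inv_mem hgs)
  rw [← Matrix.mulVec_add, gl_inv_mulVec] at h3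
  exact h3

theorem RR_all (hD : Geo.IsNondegenerateMDecomposition (sympForm m F) k D)
    (M : Subgroup (GL (Fin m ⊕ Fin m) F)) (hM : Geo.decompositionStabilizer D ⊓ spGL m F ≤ M) (i j : Fin t)
    (hij : i ≠ j) (h : RR D M i j) (i' j' : Fin t) (hij' : i' ≠ j') : RR D M i' j' := by
  have h1 := RR_swap hD M hM i j i i' h
  rw [Equiv.swap_apply_left] at h1
  set j₁ := Equiv.swap i i' j with hj₁
  have hj₁i : i' ≠ j₁ := by
    intro hc
    have : Equiv.swap i i' i = Equiv.swap i i' j := by rw [Equiv.swap_apply_left, ← hj₁, hc]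
    exact hij ((Equiv.swap i i').injective this)
  have h2 := RR_swap hD M hM i' j₁ j₁ j' h1
  rw [Equiv.swap_apply_left, Equiv.swap_apply_of_ne_of_ne hj₁i hij'] at h2
  exact h2

theorem dec_perp_of_mem_iSup (hD : Geo.IsNondegenerateMDecomposition (sympForm m F) k D) (J : Finset (Fin t))
    (y : Fin m ⊕ Fin m → F) (hy : y ∈ ⨆ l ∈ J, D l) (p : Fin t) (hp : p ∉ J) (e : Fin m ⊕ Fin m → F)
    (he : e ∈ D p) : sympForm m F y e = 0 := by
  have h1 : (⨆ l ∈ J, D l) ≤
      LinearMap.BilinForm.orthogonal (sympB m F : LinearMap.BilinForm F (Fin m ⊕ Fin m → F)) (D p) := by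
    apply iSup_le
    intro l
    apply iSup_le
    intro hl x hx
    rw [LinearMap.BilinForm.mem_orthogonal_iff]
    intro e' he'
    have hpl : p ≠ l := fun h => hp (h ▸ hl)
    exact dec_orth hD hpl he' hx
  have : sympForm m F e y = 0 := (LinearMap.BilinForm.mem_orthogonal_iff.1 (h1 hy)) e he
  rw [sympForm_swap, this, neg_zero]

theorem dec_good_all (hD : Geo.IsNondegenerateMDecomposition (sympForm m F) k D)
    (M : Subgroup (GL (Fin m ⊕ Fin m) F)) (hM : Geo.decompositionStabilizer D ⊓ spGL m F ≤ M)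
    (hRR : ∀ i j, i ≠ j → RR D M i j) (J : Finset (Fin t)) : ∀ x ∈ ⨆ l ∈ J, D l, GoodP M x := by
  induction J using Finset.induction_on with
  | empty =>
    intro x hx
    simp only [Finset.notMem_empty, not_false_eq_true, iSup_neg, iSup_bot, Submodule.mem_bot] at hx
    rw [hx]; exact goodP_zero M
  | insert j J hj ih =>
    intro x hx
    rw [Finset.iSup_insert] at hx
    obtain ⟨z, hz, y, hy, rfl⟩ := Submodule.mem_sup.1 hx
    by_cases hy0 : y = 0
    · rw [hy0, add_zero]; exact dec_good_of_mem hD M hM j z hz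
    obtain ⟨l, hl, e, he, hye⟩ : ∃ l ∈ J, ∃ e ∈ D l, sympForm m F y e ≠ 0 := by
      by_contra hcon
      push Not at hcon
      apply hy0
      apply dec_zero_of_perp hD
      intro l e he
      by_cases hl : l ∈ J
      · exact hcon l hl e he
      · exact dec_perp_of_mem_iSup hD J y hy l hl e he
    have hlj : l ≠ j := fun h => hj (h ▸ hl)
    have heJ : e ∈ ⨆ l ∈ J, D l := Submodule.mem_iSup_of_mem l (Submodule.mem_iSup_of_mem hl he)
    have h1 : GoodP M (e + z) := hRR l j hlj e he z hz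
    have h2 : GoodP M (y - e) := ih _ (Submodule.sub_mem _ hy heJ)
    have h3 := GoodP.add h2 h1 (by
      rw [sympForm_add_left, sympForm_sub_right, sympForm_sub_right, sympForm_self,
        dec_orth hD (Ne.symm hlj) hz he, sympForm_swap z y, dec_perp_of_mem_iSup hD J y hy j hj z hz,
        sympForm_swap e y]
      simpa using hye)
    have e1 : e + z + (y - e) = z + y := by abel
    rwa [e1] at h3

theorem sp_dec_max [Fintype F] (hD : Geo.IsNondegenerateMDecomposition (sympForm m F) k D)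
    (hex : ¬ (k = 2 ∧ Fintype.card F = 2)) (M : Subgroup (GL (Fin m ⊕ Fin m) F))
    (hM : Geo.decompositionStabilizer D ⊓ spGL m F ≤ M) (hMK : M ≤ spGL m F)
    (hns : ¬ M ≤ Geo.decompositionStabilizer D) : spGL m F ≤ M := by
  obtain ⟨h, hhM, hhD⟩ := SetLike.not_le_iff_exists.1 hns
  obtain ⟨l, x, hx, hbad⟩ := dec_exists_bad hD h (hMK hhM) hhD
  set s := (h : Matrix (Fin m ⊕ Fin m) (Fin m ⊕ Fin m) F) *ᵥ x with hs
  have hsg : GoodP M s := (dec_good_of_mem hD M hM l x hx).conj h hhM (hMK hhM)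
  -- two indices in the support
  obtain ⟨i, j, hij, ⟨ei, hei, hsei⟩, ⟨ej, hej, hsej⟩⟩ : ∃ i j, i ≠ j ∧ (∃ e ∈ D i, sympForm m F s e ≠ 0) ∧
      (∃ e ∈ D j, sympForm m F s e ≠ 0) := by
    by_contra hcon
    push Not at hcon
    by_cases hex1 : ∃ p, ∃ e ∈ D p, sympForm m F s e ≠ 0
    · obtain ⟨p, e, he, hse⟩ := hex1
      apply hbad p
      apply dec_mem_of_perp hD
      intro l' hl' e' he'
      exact hcon p l' (Ne.symm hl') ⟨e, he, hse⟩ e' he'
    · push Not at hex1
      apply hbad l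
      rw [dec_zero_of_perp hD s hex1]
      exact Submodule.zero_mem _
  obtain ⟨a, ha, c, hc, hsac⟩ := dec_split hD i s
  obtain ⟨b, hb, c', hc', hcbc⟩ := dec_split hD j c
  have hc'i : ∀ e ∈ D i, sympForm m F c' e = 0 := by
    intro e he
    have h1 := hc e he
    rw [hcbc, sympForm_add_left, dec_orth hD (Ne.symm hij) hb he, zero_add] at h1
    exact h1
  have ha0 : a ≠ 0 := by
    rintro rfl
    apply hsei
    rw [hsac, zero_add]; exact hc ei hei
  have hb0 : b ≠ 0 := by
    rintro rfl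
    apply hsej
    rw [hsac, hcbc, zero_add, sympForm_add_left, dec_orth hD hij ha hej, hc' ej hej, add_zero]
  obtain ⟨xi, hxi, hxi0, hxia, haxi⟩ := exists_perp_other (D i) (dec_nd hD i)
    (by rw [hD.decomp.finrank_eq]; exact hex) a ha ha0
  obtain ⟨xj, hxj, hbxj⟩ := dec_nd hD j b hb hb0
  have hxj0 : xj ≠ 0 := by
    rintro rfl
    exact hbxj (sympForm_zero_right _)
  have hxjb : b - xj ≠ 0 := by
    intro h0
    rw [sub_eq_zero] at h0
    rw [← h0, sympForm_self] at hbxj
    exact hbxj rfl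
  have hs1 : GoodP M (a + (b + c')) := by rw [← hcbc, ← hsac]; exact hsg
  have hs2 : GoodP M (xi + (b + c')) := sp_move (D i) (dec_good_of_mem hD M hM i) (dec_nd hD i) a _ xi ha ha0
    hxi hxi0 (fun u hu => by rw [sympForm_add_left, dec_orth hD (Ne.symm hij) hb hu, hc'i u hu, add_zero]) hs1
  have e1 : xi + (b + c') = b + (xi + c') := by abel
  rw [e1] at hs2
  have hs3 : GoodP M (xj + (xi + c')) := sp_move (D j) (dec_good_of_mem hD M hM j) (dec_nd hD j) b _ xj hb hb0
    hxj hxj0 (fun u hu => by rw [sympForm_add_left, dec_orth hD hij hxi hu, hc' u hu, add_zero]) hs2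
  have hs4 := GoodP.add (hs3.smul (-1)) hs1 (by
    rw [sympForm_smul_right]
    simp only [sympForm_add_left, sympForm_add_right]
    rw [dec_orth hD hij ha hxj, haxi, dec_orth hD (Ne.symm hij) hb hxi, hc' xj hxj, hc'i xi hxi, sympForm_self,
      sympForm_swap a c', hc'i a ha, sympForm_swap b c', hc' b hb]
    simpa using hbxj)
  have e2 : a + (b + c') + (-1 : F) • (xj + (xi + c')) = (a - xi) + (b - xj) := by
    rw [neg_one_smul]; abel
  rw [e2] at hs4
  have hRR := RR_of_one hD M hM i j hij _ _ ((D i).sub_mem ha hxi) ((D j).sub_mem hb hxj)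
    (sub_ne_zero.2 (Ne.symm hxia)) hxjb hs4
  apply spGL_le_of_good
  intro v
  apply dec_good_all hD M hM (fun i' j' hij' => RR_all hD M hM i j hij hRR i' j' hij') Finset.univ
  have : (⨆ l ∈ (Finset.univ : Finset (Fin t)), D l) = iSup D := by simp
  rw [this, hD.decomp.iSup_eq_top]
  trivial

theorem sp_dec_isMaximalIn [Fintype F] (hD : Geo.IsNondegenerateMDecomposition (sympForm m F) k D)
    (hex : ¬ (k = 2 ∧ Fintype.card F = 2)) :
    Geo.IsMaximalIn (spGL m F) (Geo.decompositionStabilizer D ⊓ spGL m F) := by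
  constructor
  · apply lt_of_le_of_ne inf_le_right
    intro he
    have ht := hD.decomp.two_le
    set i : Fin t := ⟨0, by omega⟩ with hi
    set j : Fin t := ⟨1, by omega⟩ with hj
    have hij : i ≠ j := by
      intro h
      have := congrArg Fin.val h
      simp [hi, hj] at this
    obtain ⟨a, ha, ha0⟩ := dec_exists_ne hD i
    obtain ⟨b, hb, hb0⟩ := dec_exists_ne hD j
    obtain ⟨e, hee, hae⟩ := dec_nd hD i a ha ha0
    have h1 : tvSp (a + b) 1 ∈ spGL m F := tvSp_mem _ _
    rw [← he] at h1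
    obtain ⟨σ, hσ⟩ := h1.1
    have h2 : (tvSp (a + b) 1 : Matrix (Fin m ⊕ Fin m) (Fin m ⊕ Fin m) F) *ᵥ e ∈ D (σ i) := by
      rw [← hσ i]
      exact ⟨e, hee, by rw [Matrix.toLin'_apply]⟩
    rw [tvSp_mulVec, one_mul, sympForm_add_right, dec_orth hD hij hee hb, add_zero] at h2
    set β := sympForm m F e a with hβ
    have hβ0 : β ≠ 0 := by
      rw [hβ, sympForm_swap]; exact neg_ne_zero.2 hae
    by_cases hp : σ i = j
    · -- then `e + β a = 0`
      have h3 : e + β • a = 0 := by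
        apply dec_eq_zero hD i _ ((D i).add_mem hee ((D i).smul_mem _ ha))
        intro u hu
        have h4 := dec_orth hD (by rw [hp]; exact Ne.symm hij) h2 hu
        rw [smul_add, ← add_assoc, sympForm_add_left, sympForm_smul_left β b, dec_orth hD (Ne.symm hij) hb hu,
          mul_zero, add_zero] at h4
        exact h4
      apply hβ0
      have h5 : e = (-β) • a := by rw [neg_smul]; exact eq_neg_of_add_eq_zero_left h3
      rw [hβ, h5, sympForm_smul_left, sympForm_self, mul_zero]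
    · apply hb0
      apply dec_eq_zero hD j _ hb
      intro u hu
      have h4 := dec_orth hD hp h2 hu
      rw [sympForm_add_left, sympForm_smul_left, sympForm_add_left, dec_orth hD hij hee hu,
        dec_orth hD hij ha hu, zero_add, zero_add] at h4
      exact (mul_eq_zero.1 h4).resolve_left hβ0
  · intro M hM1 hM2
    by_cases hall : M ≤ Geo.decompositionStabilizer D
    · left
      exact le_antisymm (le_inf hall hM2) hM1
    · right
      exact le_antisymm hM2 (sp_dec_max hD hex M hM1 hM2 hall)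

end Cfsg.Agent.Lib.Helper15
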