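import Mathlib
import Cfsg.Prelude

set_option autoImplicit false

namespace Cfsg.Agent.Lib.Helper15

open Cfsg

theorem pRankAtLeast_of_injective {X Y : Type*} [Group X] [Group Y] (f : X →* Y) (hf : Function.Injective f)
    {p k : ℕ} (h : PRankAtLeast p k X) : PRankAtLeast p k Y := by
  obtain ⟨A, hc, he, hcard⟩ := h
  refine ⟨A.map f, ⟨⟨fun x y => ?_⟩⟩, ?_, ?_⟩
  · obtain ⟨a, ha, hx⟩ := x.2
    obtain ⟨b, hb, hy⟩ := y.2
    apply Subtype.ext
    have h1 : a * b = b * a := Subtype.ext_iff.1 (hc.is_comm.comm ⟨a, ha⟩ ⟨b, hb⟩)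
    change (x : Y) * (y : Y) = (y : Y) * (x : Y)
    rw [← hx, ← hy, ← map_mul, ← map_mul, h1]
  · rintro _ ⟨a, ha, rfl⟩
    rw [← map_pow, he a ha, map_one]
  · rw [Subgroup.card_map_of_injective hf]
    exact hcard

theorem card_le_two_mul {G : Type*} [Group G] [Finite G] (H K : Subgroup G) (s : G)
    (h : ∀ k ∈ K, k ∈ H ∨ s * k ∈ H) : Nat.card K ≤ 2 * Nat.card H := by
  classical
  have h2 : Nat.card (Bool × H) = 2 * Nat.card H := by
    rw [Nat.card_prod]; simp
  rw [← h2]
  apply Nat.card_le_card_of_injective (fun k : K =>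
    if hk : (k : G) ∈ H then ((true, ⟨k, hk⟩) : Bool × H) else (false, ⟨s * k, (h k k.2).resolve_left hk⟩))
  intro k k' hkk
  dsimp only at hkk
  apply Subtype.ext
  by_cases hk : (k : G) ∈ H <;> by_cases hk' : (k' : G) ∈ H
  · rw [dif_pos hk, dif_pos hk'] at hkk
    exact congrArg (fun x : Bool × H => (x.2 : G)) hkk
  · rw [dif_pos hk, dif_neg hk'] at hkk
    exact absurd (congrArg Prod.fst hkk) (by simp)
  · rw [dif_neg hk, dif_pos hk'] at hkk
    exact absurd (congrArg Prod.fst hkk) (by simp)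
  · rw [dif_neg hk, dif_neg hk'] at hkk
    exact mul_left_cancel (congrArg (fun x : Bool × H => (x.2 : G)) hkk)

/-- the data of a `2`-group of symplectic type inside `G` -/
structure SympType {G : Type*} [Group G] (E : Subgroup G) (z : G) : Prop where
  zmem : z ∈ E
  zsq : z * z = 1
  zcen : ∀ x ∈ E, z * x = x * z
  sq : ∀ x ∈ E, x * x = 1 ∨ x * x = z
  cm : ∀ x ∈ E, ∀ y ∈ E, x * y = y * x ∨ x * y = z * (y * x)

/-- a maximal elementary abelian subgroup containing `z` -/
structure MaxElem {G : Type*} [Group G] (E : Subgroup G) (z : G) (A : Subgroup G) : Prop where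
  le : A ≤ E
  zmem : z ∈ A
  sq : ∀ a ∈ A, a * a = 1
  cm : ∀ a ∈ A, ∀ b ∈ A, a * b = b * a
  max : ∀ c ∈ E, c * c = 1 → (∀ a ∈ A, c * a = a * c) → c ∈ A

theorem exists_maxElem {G : Type*} [Group G] [Finite G] (E : Subgroup G) (z : G) (h : SympType E z) :
    ∃ A, MaxElem E z A := by
  classical
  let P : Subgroup G → Prop := fun A => A ≤ E ∧ z ∈ A ∧ (∀ a ∈ A, a * a = 1) ∧ ∀ a ∈ A, ∀ b ∈ A, a * b = b * a
  have hclos : ∀ k : Set G, k ⊆ E → z ∈ k → (∀ a ∈ k, a * a = 1) → (∀ a ∈ k, ∀ b ∈ k, a * b = b * a) →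
      P (Subgroup.closure k) := by
    intro k hk hz hsq hcm
    have hcomm : ∀ a ∈ Subgroup.closure k, ∀ b ∈ Subgroup.closure k, a * b = b * a := by
      intro a ha b hb
      have := Subgroup.isMulCommutative_closure hcm
      exact Subtype.ext_iff.1 (this.is_comm.comm (⟨a, ha⟩ : Subgroup.closure k) ⟨b, hb⟩)
    refine ⟨(Subgroup.closure_le E).2 hk, Subgroup.subset_closure hz, ?_, hcomm⟩
    intro a ha
    induction ha using Subgroup.closure_induction with
    | mem x hx => exact hsq x hx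
    | one => simp
    | mul x y hx hy ihx ihy =>
      calc x * y * (x * y) = x * (y * x) * y := by group
        _ = x * (x * y) * y := by rw [hcomm y hy x hx]
        _ = (x * x) * (y * y) := by group
        _ = 1 := by rw [ihx, ihy, one_mul]
    | inv x hx ih =>
      calc x⁻¹ * x⁻¹ = (x * x)⁻¹ := by group
        _ = 1 := by rw [ih, inv_one]
  have hne : Nonempty {A : Subgroup G // P A} := by
    refine ⟨⟨Subgroup.closure {z}, hclos {z} ?_ rfl ?_ ?_⟩⟩
    · intro x hx; rw [Set.mem_singleton_iff.1 hx]; exact h.zmem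
    · intro a ha; rw [Set.mem_singleton_iff.1 ha]; exact h.zsq
    · intro a ha b hb; rw [Set.mem_singleton_iff.1 ha, Set.mem_singleton_iff.1 hb]
  obtain ⟨⟨A, hA⟩, hmax⟩ := Finite.exists_max (fun A : {A : Subgroup G // P A} => Nat.card (A : Subgroup G))
  refine ⟨A, hA.1, hA.2.1, hA.2.2.1, hA.2.2.2, ?_⟩
  intro c hc hcc hca
  by_contra hcA
  have hP := hclos (insert c (A : Set G)) (by
      intro x hx
      rcases Set.mem_insert_iff.1 hx with rfl | hx
      · exact hc
      · exact hA.1 hx) (Set.mem_insert_of_mem _ hA.2.1) (by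
      intro x hx
      rcases Set.mem_insert_iff.1 hx with rfl | hx
      · exact hcc
      · exact hA.2.2.1 x hx) (by
      intro x hx y hy
      rcases Set.mem_insert_iff.1 hx with hx1 | hx1 <;> rcases Set.mem_insert_iff.1 hy with hy1 | hy1
      · rw [hx1, hy1]
      · rw [hx1]; exact hca y hy1
      · rw [hy1]; exact (hca x hx1).symm
      · exact hA.2.2.2 x hx1 y hy1)
  have h1 := hmax ⟨_, hP⟩
  have hlt : A < Subgroup.closure (insert c (A : Set G)) := by
    refine lt_of_le_of_ne ?_ ?_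
    · intro x hx
      exact Subgroup.subset_closure (Set.mem_insert_of_mem _ hx)
    · intro heq
      apply hcA
      rw [heq]
      exact Subgroup.subset_closure (Set.mem_insert _ _)
  have h3 : Nat.card A < Nat.card (Subgroup.closure (insert c (A : Set G))) := by
    rw [← SetLike.coe_sort_coe, ← SetLike.coe_sort_coe (Subgroup.closure (insert c (A : Set G))),
      Nat.card_coe_set_eq, Nat.card_coe_set_eq]
    exact Set.ncard_lt_ncard (SetLike.coe_ssubset_coe.2 hlt) (Set.toFinite _)
  exact absurd h1 (not_le.2 h3)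

theorem card_centralizer_le {G : Type*} [Group G] [Finite G] (E : Subgroup G) (z : G) (h : SympType E z)
    (A : Subgroup G) (hA : MaxElem E z A) :
    Nat.card (E ⊓ Subgroup.centralizer (A : Set G) : Subgroup G) ≤ 4 * Nat.card A := by
  set C : Subgroup G := E ⊓ Subgroup.centralizer (A : Set G) with hC
  have hCmem : ∀ c, c ∈ C ↔ c ∈ E ∧ ∀ a ∈ A, c * a = a * c := by
    intro c
    rw [hC, Subgroup.mem_inf, Subgroup.mem_centralizer_iff]
    constructor
    · rintro ⟨h1, h3⟩
      exact ⟨h1, fun a ha => (h3 a ha).symm⟩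
    · rintro ⟨h1, h3⟩
      exact ⟨h1, fun a ha => (h3 a ha).symm⟩
  have hsqz : ∀ c ∈ C, c ∉ A → c * c = z := by
    intro c hc hcA
    rcases h.sq c ((hCmem c).1 hc).1 with h1 | h1
    · exact absurd (hA.max c ((hCmem c).1 hc).1 h1 ((hCmem c).1 hc).2) hcA
    · exact h1
  by_cases hCA : ∀ c ∈ C, c ∈ A
  · have : Nat.card C ≤ Nat.card A := Subgroup.card_le_of_le (fun c hc => hCA c hc)
    omega
  push Not at hCA
  obtain ⟨t, ht, htA⟩ := hCA
  set D : Subgroup G := C ⊓ Subgroup.centralizer {t} with hD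
  have hDmem : ∀ c, c ∈ D ↔ c ∈ C ∧ c * t = t * c := by
    intro c
    rw [hD, Subgroup.mem_inf, Subgroup.mem_centralizer_singleton_iff]
  have h1 : Nat.card D ≤ 2 * Nat.card A := by
    apply card_le_two_mul A D t
    intro c hc
    by_cases hcA : c ∈ A
    · exact Or.inl hcA
    · right
      have hcC := ((hDmem c).1 hc).1
      have hct := ((hDmem c).1 hc).2
      have htc : t * c ∈ C := C.mul_mem ht hcC
      apply hA.max _ ((hCmem _).1 htc).1 _ ((hCmem _).1 htc).2
      calc t * c * (t * c) = t * (c * t) * c := by group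
        _ = t * (t * c) * c := by rw [hct]
        _ = (t * t) * (c * c) := by group
        _ = 1 := by rw [hsqz t ht htA, hsqz c hcC hcA, h.zsq]
  have h3 : Nat.card C ≤ 2 * Nat.card D := by
    by_cases hCD : ∀ c ∈ C, c ∈ D
    · have : Nat.card C ≤ Nat.card D := Subgroup.card_le_of_le (fun c hc => hCD c hc)
      omega
    push Not at hCD
    obtain ⟨s, hs, hsD⟩ := hCD
    have hanti : ∀ c ∈ C, c ∉ D → c * t = z * (t * c) := by
      intro c hc hcD
      rcases h.cm c ((hCmem c).1 hc).1 t ((hCmem t).1 ht).1 with h4 | h4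
      · exact absurd ((hDmem c).2 ⟨hc, h4⟩) hcD
      · exact h4
    apply card_le_two_mul D C s⁻¹
    intro c hc
    by_cases hcD : c ∈ D
    · exact Or.inl hcD
    · right
      rw [hDmem]
      refine ⟨C.mul_mem (C.inv_mem hs) hc, ?_⟩
      have e1 := hanti s hs hsD
      have e2 := hanti c hc hcD
      have hzt : z * t = t * z := h.zcen t ((hCmem t).1 ht).1
      have hzs : z * s = s * z := h.zcen s ((hCmem s).1 hs).1
      -- s⁻¹ t = z t s⁻¹
      have e3 : s⁻¹ * t = z * (t * s⁻¹) := by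
        have : t * s = z * (s * t) := by
          rw [e1, ← mul_assoc, h.zsq, one_mul]
        calc s⁻¹ * t = s⁻¹ * (t * s) * s⁻¹ := by group
          _ = s⁻¹ * (z * (s * t)) * s⁻¹ := by rw [this]
          _ = s⁻¹ * (z * s) * t * s⁻¹ := by group
          _ = s⁻¹ * (s * z) * t * s⁻¹ := by rw [hzs]
          _ = z * (t * s⁻¹) := by group
      calc s⁻¹ * c * t = s⁻¹ * (c * t) := by group
        _ = s⁻¹ * (z * (t * c)) := by rw [e2]
        _ = s⁻¹ * (z * t) * c := by group
        _ = s⁻¹ * (t * z) * c := by rw [hzt]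
        _ = (s⁻¹ * t) * z * c := by group
        _ = z * (t * s⁻¹) * z * c := by rw [e3]
        _ = (z * t) * s⁻¹ * z * c := by group
        _ = (t * z) * s⁻¹ * z * c := by rw [hzt]
        _ = t * (z * s⁻¹) * z * c := by group
        _ = t * (s⁻¹ * z) * z * c := by
            have : z * s⁻¹ = s⁻¹ * z := by
              calc z * s⁻¹ = s⁻¹ * (s * z) * s⁻¹ := by group
                _ = s⁻¹ * (z * s) * s⁻¹ := by rw [hzs]
                _ = s⁻¹ * z := by group
            rw [this]
        _ = t * s⁻¹ * (z * z) * c := by group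
        _ = t * (s⁻¹ * c) := by rw [h.zsq]; group
  omega

end Cfsg.Agent.Lib.Helper15
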