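import Mathlib
import Cfsg.Prelude
import Cfsg.Agent.Lib.Helper15.Rank4
import Cfsg.Agent.Lib.Helper15.Rank7

set_option autoImplicit false

namespace Cfsg.Agent.Lib.Helper15

open Module Finset Matrix Cfsg

variable {F : Type*} [Field F]

theorem sp_same_sign {l : Type*} [Fintype l] [DecidableEq l] (h2 : (2 : F) ≠ 0)
    {M : Matrix (l ⊕ l) (l ⊕ l) F} (hM : M ∈ Matrix.symplecticGroup l F)
    (x y : l ⊕ l → F) (hx : M *ᵥ x = x ∨ M *ᵥ x = - x) (hy : M *ᵥ y = y ∨ M *ᵥ y = - y)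
    (hB : spB l F x y ≠ 0) : M *ᵥ x = - x ↔ M *ᵥ y = - y := by
  have hinv := spB_inv hM x y
  have hne : spB l F x y ≠ - spB l F x y := by
    intro h
    have h1 : 2 * spB l F x y = 0 := by linear_combination h
    exact hB ((mul_eq_zero.1 h1).resolve_left h2)
  constructor
  · intro h
    rcases hy with h' | h'
    · rw [h, h'] at hinv
      simp only [map_neg, LinearMap.neg_apply] at hinv
      exact absurd hinv.symm hne
    · exact h'
  · intro h
    rcases hx with h' | h'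
    · rw [h, h'] at hinv
      simp only [map_neg] at hinv
      exact absurd hinv.symm hne
    · exact h'


open Classical in
/-- at most `n` characters of an elementary abelian `2`-subgroup occur in the natural module -/
theorem sp_char_bound [Fintype F] (h2 : (2 : F) ≠ 0) (n : ℕ) (hn : 1 ≤ n)
    (A : Subgroup (Matrix.symplecticGroup (Fin n) F)) (hc : IsMulCommutative A) (he : ∀ a ∈ A, a ^ 2 = 1) :
    ∃ X : Finset (A → Bool), X.card ≤ n ∧
      (∀ w : Fin n ⊕ Fin n → F, w ≠ 0 →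
        (∀ a : A, ((a : Matrix.symplecticGroup (Fin n) F) : Matrix (Fin n ⊕ Fin n) (Fin n ⊕ Fin n) F) *ᵥ w = w ∨
          ((a : Matrix.symplecticGroup (Fin n) F) : Matrix (Fin n ⊕ Fin n) (Fin n ⊕ Fin n) F) *ᵥ w = - w) →
        (fun a : A => decide (((a : Matrix.symplecticGroup (Fin n) F) : Matrix (Fin n ⊕ Fin n) (Fin n ⊕ Fin n) F) *ᵥ w = - w)) ∈ X) ∧
      ∃ v : Fin n ⊕ Fin n → F, v ≠ 0 ∧
        ∀ a : A, ((a : Matrix.symplecticGroup (Fin n) F) : Matrix (Fin n ⊕ Fin n) (Fin n ⊕ Fin n) F) *ᵥ v = v ∨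
          ((a : Matrix.symplecticGroup (Fin n) F) : Matrix (Fin n ⊕ Fin n) (Fin n ⊕ Fin n) F) *ᵥ v = - v := by
  set ρ : Matrix.symplecticGroup (Fin n) F →* Matrix (Fin n ⊕ Fin n) (Fin n ⊕ Fin n) F :=
    (Matrix.symplecticGroup (Fin n) F).subtype with hρdef
  have hρ : Function.Injective ρ := Subtype.val_injective
  obtain ⟨κ, b, hb⟩ := exists_eigen_basis h2 (endSet ρ A) (endSet_finite _ hρ A)
    (endSet_invol _ A he) (endSet_comm _ A hc)
  have : Fintype κ := Fintype.ofFinite κ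
  have hcard : Fintype.card κ = 2 * n := by
    rw [← Module.finrank_eq_card_basis b]; simp; ring
  have hA : ∀ (k : κ) (a : A), ((a : Matrix.symplecticGroup (Fin n) F) : Matrix (Fin n ⊕ Fin n) (Fin n ⊕ Fin n) F) *ᵥ b k = b k ∨
      ((a : Matrix.symplecticGroup (Fin n) F) : Matrix (Fin n ⊕ Fin n) (Fin n ⊕ Fin n) F) *ᵥ b k = - b k :=
    fun k a => eigS_endSet ρ A (b k) (hb k) a a.2
  let σ : κ → (A → Bool) := fun k a =>
    decide (((a : Matrix.symplecticGroup (Fin n) F) : Matrix (Fin n ⊕ Fin n) (Fin n ⊕ Fin n) F) *ᵥ b k = - b k)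
  have hpart : ∀ w : Fin n ⊕ Fin n → F, w ≠ 0 → ∀ k₀ : Option κ, (∀ k, k₀ = some k → spB (Fin n) F w (b k) = 0) →
      ∃ k', some k' ≠ k₀ ∧ spB (Fin n) F w (b k') ≠ 0 := by
    intro w hw k₀ hk₀
    by_contra hcon
    push Not at hcon
    apply hw
    apply spB_nondeg
    intro y
    have : spB (Fin n) F w = 0 := by
      apply b.ext
      intro k'
      by_cases hk : some k' = k₀
      · simpa using hk₀ k' hk.symm
      · simpa using hcon k' hk
    rw [this]; rfl
  have hfib : ∀ χ ∈ Finset.univ.image σ, 2 ≤ (Finset.univ.filter (fun k => σ k = χ)).card := by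
    intro χ hχ
    obtain ⟨k, -, rfl⟩ := Finset.mem_image.1 hχ
    obtain ⟨k', hk', hB⟩ := hpart (b k) (b.ne_zero k) (some k) (by
      intro k1 hk1
      rw [← Option.some.inj hk1]
      exact spB_self h2 (b k))
    have hkk : k' ≠ k := fun h => hk' (by rw [h])
    have hσ : σ k' = σ k := by
      funext a
      have := sp_same_sign h2 (a : Matrix.symplecticGroup (Fin n) F).2 (b k) (b k') (hA k a) (hA k' a) hB
      simp only [σ, decide_eq_decide]
      exact this.symm
    calc 2 = ({k, k'} : Finset κ).card := (Finset.card_pair (Ne.symm hkk)).symm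
      _ ≤ _ := Finset.card_le_card (by
        intro x hx
        simp only [Finset.mem_insert, Finset.mem_singleton] at hx
        rcases hx with rfl | rfl <;> simp [hσ])
  have hX := Finset.mul_card_image_le_card (f := σ) Finset.univ 2 hfib
  rw [Finset.card_univ, hcard] at hX
  refine ⟨Finset.univ.image σ, by omega, ?_, ?_⟩
  · intro w hw hwA
    obtain ⟨k', -, hB⟩ := hpart w hw none (by intro k hk; exact absurd hk (by simp))
    rw [Finset.mem_image]
    refine ⟨k', Finset.mem_univ _, ?_⟩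
    funext a
    have := sp_same_sign h2 (a : Matrix.symplecticGroup (Fin n) F).2 w (b k') (hwA a) (hA k' a) hB
    simp only [σ, decide_eq_decide]
    exact this.symm
  · have hne : Nonempty κ := by
      rw [← Fintype.card_pos_iff, hcard]; omega
    obtain ⟨k⟩ := hne
    exact ⟨b k, b.ne_zero k, hA k⟩

theorem comm_of_iff {G : Type*} [Group G] (E : Subgroup G) (z : G) (h : SympType E z) (e e' a : G)
    (he : e ∈ E) (he' : e' ∈ E) (ha : a ∈ E) (hiff : a * e = e * a ↔ a * e' = e' * a) :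
    (e⁻¹ * e') * a = a * (e⁻¹ * e') := by
  by_cases h1 : a * e = e * a
  · have h3 := hiff.1 h1
    calc e⁻¹ * e' * a = e⁻¹ * (e' * a) := by group
      _ = e⁻¹ * (a * e') := by rw [h3]
      _ = e⁻¹ * (a * e) * e⁻¹ * e' := by group
      _ = e⁻¹ * (e * a) * e⁻¹ * e' := by rw [h1]
      _ = a * (e⁻¹ * e') := by group
  · have h3 : ¬ a * e' = e' * a := fun h' => h1 (hiff.2 h')
    have e1 := (h.cm a ha e he).resolve_left h1
    have e2 := (h.cm a ha e' he').resolve_left h3
    have hze : z * e = e * z := h.zcen e he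
    have hza : z * a = a * z := h.zcen a ha
    have e3 : e' * a = z * (a * e') := by rw [e2, ← mul_assoc, h.zsq, one_mul]
    calc e⁻¹ * e' * a = e⁻¹ * (e' * a) := by group
      _ = e⁻¹ * (z * (a * e')) := by rw [e3]
      _ = e⁻¹ * (z * a) * e' := by group
      _ = e⁻¹ * (a * z) * e' := by rw [hza]
      _ = e⁻¹ * (a * e) * e⁻¹ * z * e' := by group
      _ = e⁻¹ * (z * (e * a)) * e⁻¹ * z * e' := by rw [e1]
      _ = e⁻¹ * (z * e) * a * e⁻¹ * z * e' := by group
      _ = e⁻¹ * (e * z) * a * e⁻¹ * z * e' := by rw [hze]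
      _ = (z * a) * e⁻¹ * z * e' := by group
      _ = (a * z) * e⁻¹ * z * e' := by rw [hza]
      _ = a * (z * e⁻¹) * z * e' := by group
      _ = a * (e⁻¹ * z) * z * e' := by
          have : z * e⁻¹ = e⁻¹ * z := by
            calc z * e⁻¹ = e⁻¹ * (e * z) * e⁻¹ := by group
              _ = e⁻¹ * (z * e) * e⁻¹ := by rw [hze]
              _ = e⁻¹ * z := by group
          rw [this]
      _ = a * e⁻¹ * (z * z) * e' := by group
      _ = a * (e⁻¹ * e') := by rw [h.zsq]; group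

theorem sp_index_bound [Fintype F] (h2 : (2 : F) ≠ 0) (n : ℕ) (hn : 1 ≤ n)
    (E : Subgroup (Matrix.symplecticGroup (Fin n) F)) (z : Matrix.symplecticGroup (Fin n) F)
    (hz : (z : Matrix (Fin n ⊕ Fin n) (Fin n ⊕ Fin n) F) = -1) (h : SympType E z) (A : Subgroup (Matrix.symplecticGroup (Fin n) F))
    (hA : MaxElem E z A) :
    Nat.card E ≤ n * Nat.card (E ⊓ Subgroup.centralizer (A : Set (Matrix.symplecticGroup (Fin n) F)) :
      Subgroup (Matrix.symplecticGroup (Fin n) F)) := by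
  classical
  have hc : IsMulCommutative A := ⟨⟨fun a b => Subtype.ext (hA.cm a a.2 b b.2)⟩⟩
  have he : ∀ a ∈ A, a ^ 2 = 1 := fun a ha => by rw [pow_two]; exact hA.sq a ha
  obtain ⟨X, hXn, hX, v, hv0, hv⟩ := sp_char_bound h2 n hn A hc he
  have hvneg : v ≠ - v := by
    intro hh
    apply hv0
    have h1 : (2 : F) • v = 0 := by
      rw [two_smul]; nth_rewrite 1 [hh]; simp
    exact (smul_eq_zero.1 h1).resolve_left h2
  have hinj : ∀ (e : Matrix.symplecticGroup (Fin n) F) (x y : Fin n ⊕ Fin n → F),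
      (e : Matrix (Fin n ⊕ Fin n) (Fin n ⊕ Fin n) F) *ᵥ x = (e : Matrix (Fin n ⊕ Fin n) (Fin n ⊕ Fin n) F) *ᵥ y → x = y := by
    intro e x y hxy
    have := congrArg (fun w => ((e⁻¹ : Matrix.symplecticGroup (Fin n) F) : Matrix (Fin n ⊕ Fin n) (Fin n ⊕ Fin n) F) *ᵥ w) hxy
    simp only [Matrix.mulVec_mulVec] at this
    have h1 : ((e⁻¹ : Matrix.symplecticGroup (Fin n) F) : Matrix (Fin n ⊕ Fin n) (Fin n ⊕ Fin n) F) * (e : Matrix (Fin n ⊕ Fin n) (Fin n ⊕ Fin n) F) = 1 := by
      exact congrArg Subtype.val (inv_mul_cancel e)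
    rwa [h1, Matrix.one_mulVec, Matrix.one_mulVec] at this
  have hmul : ∀ (g g' : Matrix.symplecticGroup (Fin n) F) (x : Fin n ⊕ Fin n → F),
      ((g * g' : Matrix.symplecticGroup (Fin n) F) : Matrix (Fin n ⊕ Fin n) (Fin n ⊕ Fin n) F) *ᵥ x =
        (g : Matrix (Fin n ⊕ Fin n) (Fin n ⊕ Fin n) F) *ᵥ ((g' : Matrix (Fin n ⊕ Fin n) (Fin n ⊕ Fin n) F) *ᵥ x) := by
    intro g g' x
    rw [Matrix.mulVec_mulVec]; rfl
  -- key sign formula
  have key : ∀ e ∈ E, ∀ a : A,
      (((a : Matrix.symplecticGroup (Fin n) F) : Matrix (Fin n ⊕ Fin n) (Fin n ⊕ Fin n) F) *ᵥ ((e : Matrix (Fin n ⊕ Fin n) (Fin n ⊕ Fin n) F) *ᵥ v) =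
        - ((e : Matrix (Fin n ⊕ Fin n) (Fin n ⊕ Fin n) F) *ᵥ v)) ↔
      (((a : Matrix.symplecticGroup (Fin n) F) * e = e * a) ↔
        ((a : Matrix.symplecticGroup (Fin n) F) : Matrix (Fin n ⊕ Fin n) (Fin n ⊕ Fin n) F) *ᵥ v = - v) := by
    intro e he a
    rcases h.cm a (hA.le a.2) e he with h1 | h1
    · have hL : ((a : Matrix.symplecticGroup (Fin n) F) : Matrix (Fin n ⊕ Fin n) (Fin n ⊕ Fin n) F) *ᵥ ((e : Matrix (Fin n ⊕ Fin n) (Fin n ⊕ Fin n) F) *ᵥ v) =
          (e : Matrix (Fin n ⊕ Fin n) (Fin n ⊕ Fin n) F) *ᵥ (((a : Matrix.symplecticGroup (Fin n) F) : Matrix (Fin n ⊕ Fin n) (Fin n ⊕ Fin n) F) *ᵥ v) := by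
        rw [← hmul, h1, hmul]
      rw [hL, ← Matrix.mulVec_neg]
      simp only [h1, true_iff]
      constructor
      · intro h3; exact hinj e _ _ h3
      · intro h3; rw [h3]
    · have hnc : ¬ ((a : Matrix.symplecticGroup (Fin n) F) * e = e * a) := by
        intro h3
        rw [h3] at h1
        have h4 : z = 1 := by
          have := mul_right_cancel (a := 1) (b := e * (a : Matrix.symplecticGroup (Fin n) F)) (c := z)
            (by rw [one_mul]; exact h1)
          exact this.symm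
        have h5 : (z : Matrix (Fin n ⊕ Fin n) (Fin n ⊕ Fin n) F) *ᵥ v = v := by rw [h4]; simp
        rw [hz, Matrix.neg_mulVec, Matrix.one_mulVec] at h5
        exact hvneg h5.symm
      have hL : ((a : Matrix.symplecticGroup (Fin n) F) : Matrix (Fin n ⊕ Fin n) (Fin n ⊕ Fin n) F) *ᵥ ((e : Matrix (Fin n ⊕ Fin n) (Fin n ⊕ Fin n) F) *ᵥ v) =
          - ((e : Matrix (Fin n ⊕ Fin n) (Fin n ⊕ Fin n) F) *ᵥ (((a : Matrix.symplecticGroup (Fin n) F) : Matrix (Fin n ⊕ Fin n) (Fin n ⊕ Fin n) F) *ᵥ v)) := by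
        rw [← hmul, h1, hmul, hmul, hz, Matrix.neg_mulVec, Matrix.one_mulVec]
      rw [hL, neg_inj]
      simp only [hnc, false_iff]
      constructor
      · intro h3 h4
        have := hinj e _ _ h3
        rw [h4] at this
        exact hvneg this.symm
      · intro h3
        rw [(hv a).resolve_right h3]
  let f : Matrix.symplecticGroup (Fin n) F → (A → Bool) := fun e a =>
    decide (((a : Matrix.symplecticGroup (Fin n) F) : Matrix (Fin n ⊕ Fin n) (Fin n ⊕ Fin n) F) *ᵥ ((e : Matrix (Fin n ⊕ Fin n) (Fin n ⊕ Fin n) F) *ᵥ v) =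
        - ((e : Matrix (Fin n ⊕ Fin n) (Fin n ⊕ Fin n) F) *ᵥ v))
  have hfX : ∀ e ∈ E, f e ∈ X := by
    intro e he
    apply hX ((e : Matrix (Fin n ⊕ Fin n) (Fin n ⊕ Fin n) F) *ᵥ v)
    · intro h0
      apply hv0
      apply hinj e
      rw [h0, Matrix.mulVec_zero]
    · intro a
      rcases h.cm a (hA.le a.2) e he with h1 | h1
      · rw [← hmul, h1, hmul]
        rcases hv a with h3 | h3
        · left; rw [h3]
        · right; rw [h3, Matrix.mulVec_neg]
      · rw [← hmul, h1, hmul, hmul, hz, Matrix.neg_mulVec, Matrix.one_mulVec]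
        rcases hv a with h3 | h3
        · right; rw [h3]
        · left; rw [h3, Matrix.mulVec_neg, neg_neg]
  set C : Subgroup (Matrix.symplecticGroup (Fin n) F) :=
    E ⊓ Subgroup.centralizer (A : Set (Matrix.symplecticGroup (Fin n) F)) with hC
  have hfib : ∀ e ∈ E, ∀ e' ∈ E, f e = f e' → e⁻¹ * e' ∈ C := by
    intro e he e' he' hff
    rw [hC, Subgroup.mem_inf, Subgroup.mem_centralizer_iff]
    refine ⟨E.mul_mem (E.inv_mem he) he', ?_⟩
    intro a ha
    symm
    apply comm_of_iff E z h e e' a he he' (hA.le ha)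
    have h1 := congrFun hff ⟨a, ha⟩
    simp only [f, decide_eq_decide] at h1
    rw [key e he ⟨a, ha⟩, key e' he' ⟨a, ha⟩] at h1
    tauto
  let rep : (A → Bool) → Matrix.symplecticGroup (Fin n) F := fun χ =>
    if hχ : ∃ e ∈ E, f e = χ then hχ.choose else 1
  have hrep : ∀ e ∈ E, rep (f e) ∈ E ∧ f (rep (f e)) = f e := by
    intro e he
    have hχ : ∃ e' ∈ E, f e' = f e := ⟨e, he, rfl⟩
    have : rep (f e) = hχ.choose := dif_pos hχ
    rw [this]
    exact hχ.choose_spec
  calc Nat.card E ≤ Nat.card (X × C) := by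
        apply Nat.card_le_card_of_injective (fun e : E =>
          ((⟨f e, hfX e e.2⟩, ⟨(rep (f e))⁻¹ * e, hfib _ (hrep e e.2).1 e e.2 (hrep e e.2).2⟩) : X × C))
        intro e e' hee
        have h1 : f e = f e' := congrArg (fun x : X × C => (x.1 : A → Bool)) hee
        have h3 : (rep (f e))⁻¹ * e = (rep (f e'))⁻¹ * e' :=
          congrArg (fun x : X × C => (x.2 : Matrix.symplecticGroup (Fin n) F)) hee
        rw [h1] at h3
        exact Subtype.ext (mul_left_cancel h3)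
    _ = X.card * Nat.card C := by
        rw [Nat.card_prod, Nat.card_eq_fintype_card, Fintype.card_coe]
    _ ≤ n * Nat.card C := Nat.mul_le_mul_right _ hXn

end Cfsg.Agent.Lib.Helper15
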