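import Mathlib
import Cfsg.Prelude
import Cfsg.Agent.Lib.Helper15.Rank8
import Cfsg.Agent.Lib.Helper15.Rank6
import Cfsg.Agent.Lib.Helper15.Central2
import Cfsg.Agent.Lib.Helper14.SpSimple

set_option autoImplicit false

namespace Cfsg.Agent.Lib.Helper15

open Module Finset Matrix Cfsg

variable {F : Type*} [Field F]

theorem two_mul_lt_two_pow (m : ℕ) (hm : 3 ≤ m) : 2 * m < 2 ^ m := by
  induction m, hm using Nat.le_induction with
  | base => norm_num
  | succ k hk ih => rw [pow_succ]; omega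

theorem pomega_odd_rank [Fintype F] (h2 : (2 : F) ≠ 0) (m : ℕ) (hm : 2 ≤ m) :
    PRankAtLeast 2 (2 * m) (POmega F (quadFormOdd m F)) := by
  have hQ := qOdd_nondegenerate h2 m
  have hcard : Fintype.card (Unit ⊕ (Fin m ⊕ Fin m)) = 2 * m + 1 := by simp; ring
  rw [← coe_qOdd]
  have h1 := pRankAtLeast_Omega_odd h2 (qOdd m F) hQ (by rw [hcard]; exact ⟨m, rfl⟩)
  rw [hcard] at h1
  have hcen := card_center_of_not_mem (qOdd m F) hQ (by rw [hcard]; omega)
    (Or.inl (negI_notMem_of_odd h2 (qOdd m F) (by rw [hcard]; exact ⟨m, rfl⟩)))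
  apply pRankAtLeast_of_injective (QuotientGroup.mk' (Subgroup.center (Omega F (qOdd m F)))) _ h1
  rw [← MonoidHom.ker_eq_bot_iff, QuotientGroup.ker_mk']
  exact Subgroup.card_eq_one.1 hcen

theorem psp_rank_lt [Fintype F] (hodd : Odd (Fintype.card F)) (m : ℕ) (hm : 3 ≤ m) :
    ¬ PRankAtLeast 2 (2 * m) (PSp m F) := by
  classical
  have h2 := two_ne_zero_of_odd_card hodd
  rintro ⟨Ab, hc, he, hcard⟩
  set Z := Subgroup.center (Matrix.symplecticGroup (Fin m) F) with hZdef
  let z : Matrix.symplecticGroup (Fin m) F := ⟨-1, SymplecticGroup.neg_mem (one_mem _)⟩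
  have hzc : (z : Matrix (Fin m ⊕ Fin m) (Fin m ⊕ Fin m) F) = -1 := rfl
  have hzZ : z ∈ Z := Cfsg.Agent.Lib.Helper14.sp_mem_center_of_scalar z (a := -1) (by
    rw [hzc]; ext i j; simp [Matrix.one_apply, Matrix.diagonal_apply]
    by_cases h : i = j <;> simp [h])
  have hz1 : z ≠ 1 := by
    intro h
    have h1 := congrArg (fun g : Matrix.symplecticGroup (Fin m) F =>
      (g : Matrix (Fin m ⊕ Fin m) (Fin m ⊕ Fin m) F) (Sum.inl ⟨0, by omega⟩) (Sum.inl ⟨0, by omega⟩)) h
    simp only [hzc] at h1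
    have h3 : (-1 : F) = 1 := by simpa using h1
    apply h2
    linear_combination -h3
  have hZcard : Nat.card Z = 2 := by
    rw [hZdef, Cfsg.Agent.Lib.Helper14.card_center_sp (by omega)]
    obtain ⟨k, hk⟩ := hodd
    rw [hk]
    simp
  have hZ : ∀ x ∈ Z, x = 1 ∨ x = z := by
    intro x hx
    obtain ⟨y, -, hy⟩ := (Nat.card_eq_two_iff' (1 : Z)).1 hZcard
    by_cases hx1 : x = 1
    · exact Or.inl hx1
    · right
      have e1 := hy ⟨x, hx⟩ (fun h => hx1 (congrArg Subtype.val h))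
      have e2 := hy ⟨z, hzZ⟩ (fun h => hz1 (congrArg Subtype.val h))
      exact congrArg Subtype.val (e1.trans e2.symm)
  set E : Subgroup (Matrix.symplecticGroup (Fin m) F) := Ab.comap (QuotientGroup.mk' Z) with hE
  have hEmem : ∀ x, x ∈ E ↔ (QuotientGroup.mk' Z x) ∈ Ab := fun x => Iff.rfl
  have hzsq : z * z = 1 := by
    apply Subtype.ext
    change (-1 : Matrix (Fin m ⊕ Fin m) (Fin m ⊕ Fin m) F) * (-1) = 1
    simp
  have hS : SympType E z := by
    refine ⟨?_, hzsq, ?_, ?_, ?_⟩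
    · rw [hEmem]
      have : (QuotientGroup.mk' Z) z = 1 := (QuotientGroup.eq_one_iff z).2 hzZ
      rw [this]
      exact Ab.one_mem
    · intro x _
      exact (Subgroup.mem_center_iff.1 hzZ x).symm
    · intro x hx
      apply hZ
      rw [← QuotientGroup.eq_one_iff]
      have := he _ ((hEmem x).1 hx)
      rw [pow_two] at this
      exact this
    · intro x hx y hy
      have h1 : (QuotientGroup.mk' Z x) * (QuotientGroup.mk' Z y) = (QuotientGroup.mk' Z y) * (QuotientGroup.mk' Z x) :=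
        Subtype.ext_iff.1 (hc.is_comm.comm ⟨_, (hEmem x).1 hx⟩ ⟨_, (hEmem y).1 hy⟩)
      have h3 : (y * x)⁻¹ * (x * y) ∈ Z := by
        rw [← QuotientGroup.eq_one_iff]
        change (QuotientGroup.mk' Z) ((y * x)⁻¹ * (x * y)) = 1
        rw [map_mul, map_inv, map_mul, map_mul, h1, inv_mul_cancel]
      rcases hZ _ h3 with h4 | h4
      · left
        exact (inv_mul_eq_one.1 h4).symm
      · right
        have h5 : x * y = (y * x) * z := by rw [← h4]; group
        rw [h5]
        exact Subgroup.mem_center_iff.1 hzZ (y * x)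
  have hEcard : Nat.card E = 2 * Nat.card Ab := by
    have h1 : E.index = Ab.index := Subgroup.index_comap_of_surjective Ab (QuotientGroup.mk'_surjective Z)
    have h3 := Subgroup.card_mul_index E
    have h4 := Subgroup.card_mul_index Ab
    have h5 := Subgroup.card_eq_card_quotient_mul_card_subgroup Z
    rw [hZcard] at h5
    rw [h1, h5, ← h4] at h3
    have hi : Ab.index ≠ 0 := Subgroup.index_ne_zero_of_finite
    have : Nat.card E * Ab.index = (2 * Nat.card Ab) * Ab.index := by rw [h3]; ring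
    exact Nat.eq_of_mul_eq_mul_right (Nat.pos_of_ne_zero hi) this
  obtain ⟨A, hA⟩ := exists_maxElem E z hS
  have hAc : IsMulCommutative A := ⟨⟨fun a b => Subtype.ext (hA.cm a a.2 b b.2)⟩⟩
  have hAe : ∀ a ∈ A, a ^ 2 = 1 := fun a ha => by rw [pow_two]; exact hA.sq a ha
  have b1 := pRankLE_Sp h2 m A hAc hAe
  have b2 := card_centralizer_le E z hS A hA
  have b3 := sp_index_bound h2 m (by omega) E z hzc hS A hA
  have b4 := two_mul_lt_two_pow m hm
  have b5 : Nat.card E ≤ m * (4 * 2 ^ m) :=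
    b3.trans (Nat.mul_le_mul_left _ (b2.trans (Nat.mul_le_mul_left _ b1)))
  rw [hEcard] at b5
  have b6 : 2 * 2 ^ (2 * m) ≤ m * (4 * 2 ^ m) := (Nat.mul_le_mul_left _ hcard).trans b5
  rw [two_mul m, pow_add] at b6
  have hp : 0 < 2 ^ m := by positivity
  nlinarith

end Cfsg.Agent.Lib.Helper15
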