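import Cfsg.Agent.Lib.Helper15.ReflClass2
import Cfsg.Agent.Lib.Helper15.OrthoBasis

set_option autoImplicit false
open Cfsg QuadraticMap Matrix Module

namespace Cfsg.Agent.Lib.Helper15

variable {F : Type*} [Field F] {ι : Type} [Fintype ι] [DecidableEq ι]

theorem iff_of_not_iff {a b c : Prop} (h1 : ¬(a ↔ c)) (h2 : ¬(b ↔ c)) : (a ↔ b) := by tauto

theorem xor_of_or {a b : Prop} (h1 : b ∨ a) (h2 : ¬(b ∧ a)) : Xor' a b := by
  unfold Xor'; tauto

/-- a character trivial on the reflections of norm `c` and nontrivial on the other class -/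
theorem exists_class_char [Fintype F] (h2 : (2 : F) ≠ 0) (Q : QuadraticForm F (ι → F))
    (hQ : (QuadraticMap.polarBilin Q).Nondegenerate) (c : F) (hc : c ≠ 0) :
    ∃ χ : isometryGroup F Q →* ℤˣ, ∀ (x : ι → F) (hx : Q x ≠ 0),
      (IsSquare (Q x * c) → χ (refl Q x hx) = 1) ∧ (¬ IsSquare (Q x * c) → χ (refl Q x hx) = -1) := by
  have h : Fintype.card F ≠ 2 ∨ Fintype.card ι ≠ 4 := Or.inl (card_ne_two_of_two_ne_zero h2)
  by_cases hsq : IsSquare c
  · refine ⟨theta Q * dickson Q hQ h, fun x hx => ?_⟩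
    rw [MonoidHom.mul_apply, dickson_refl, isSquare_mul_iff hx hc]
    constructor
    · intro h1
      rw [(theta_refl h2 Q x hx).1 (h1.2 hsq)]; rfl
    · intro h1
      rw [(theta_refl h2 Q x hx).2 (fun h3 => h1 ⟨fun _ => hsq, fun _ => h3⟩)]; rfl
  · refine ⟨theta Q, fun x hx => ?_⟩
    rw [isSquare_mul_iff hx hc]
    constructor
    · intro h1
      exact (theta_refl h2 Q x hx).2 (fun h3 => hsq (h1.1 h3))
    · intro h1
      apply (theta_refl h2 Q x hx).1
      by_contra h3
      exact h1 ⟨fun h4 => absurd h4 h3, fun h4 => absurd h4 hsq⟩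

theorem index_reflectionSubgroup [Fintype F] (h2 : (2 : F) ≠ 0) (Q : QuadraticForm F (ι → F))
    (hQ : (QuadraticMap.polarBilin Q).Nondegenerate) (c : F) (hc : c ≠ 0) (hn : 2 ≤ Fintype.card ι)
    (hyp : Fintype.card F ≠ 3 ∨ 5 ≤ Fintype.card ι ∨ Fintype.card ι = 2) :
    (reflectionSubgroup Q c).index = 2 := by
  have h : Fintype.card F ≠ 2 ∨ Fintype.card ι ≠ 4 := Or.inl (card_ne_two_of_two_ne_zero h2)
  obtain ⟨ν, hν⟩ := exists_nonsquare (F := F) h2
  have hν0 : ν ≠ 0 := by rintro rfl; exact hν IsSquare.zero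
  obtain ⟨w, hw⟩ := exists_rep' Q hQ hn (c * ν)
  have hw0 : Q w ≠ 0 := by rw [hw]; exact mul_ne_zero hc hν0
  obtain ⟨χ, hχ⟩ := exists_class_char h2 Q hQ c hc
  have hnorm := reflectionSubgroup_normal Q c hc
  have hwc : ¬ IsSquare (Q w * c) := by
    rw [hw, show c * ν * c = ν * (c * c) by ring, isSquare_mul_sq_iff hc]
    exact hν
  have hker : reflectionSubgroup Q c ≤ χ.ker := by
    unfold reflectionSubgroup
    rw [Subgroup.closure_le]
    rintro g ⟨x, hx, hg⟩
    have hx0 : Q x ≠ 0 := by rw [hx]; exact hc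
    rw [eq_refl_of_coe Q g x hx0 hg]
    exact (hχ x hx0).1 ⟨c, by rw [hx]⟩
  have hwn : refl Q w hw0 ∉ reflectionSubgroup Q c := by
    intro hmem
    have h1 : χ (refl Q w hw0) = 1 := hker hmem
    rw [(hχ w hw0).2 hwc] at h1
    exact absurd h1 (by decide)
  have key : ∀ vs : List (ι → F), (∀ v ∈ vs, Q v ≠ 0) →
      ((vs.map (reflT Q)).prod ∈ reflectionSubgroup Q c ∨
        (vs.map (reflT Q)).prod * refl Q w hw0 ∈ reflectionSubgroup Q c) := by
    intro vs
    induction vs with
    | nil => intro _; left; simp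
    | cons v tl ih =>
      intro hvs
      have hv : Q v ≠ 0 := hvs v (by simp)
      have ih' := ih (fun x hx => hvs x (by simp [hx]))
      rw [List.map_cons, List.prod_cons, reflT_eq Q v hv]
      by_cases hsq : IsSquare (Q v * c)
      · have hm := refl_mem_of_isSquare Q v hv c hc hsq
        rcases ih' with h1 | h1
        · left; exact Subgroup.mul_mem _ hm h1
        · right; rw [mul_assoc]; exact Subgroup.mul_mem _ hm h1
      · have hsq' : IsSquare (Q v * Q w) := by
          rw [isSquare_mul_iff hv hc] at hsq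
          rw [isSquare_mul_iff hw0 hc] at hwc
          rw [isSquare_mul_iff hv hw0]
          exact iff_of_not_iff hsq hwc
        obtain ⟨v', hv', he⟩ := exists_normalize Q v hv (Q w) hw0 hsq'
        have hv'0 : Q v' ≠ 0 := by rw [hv']; exact hw0
        have e : refl Q v hv = refl Q v' hv'0 := isometry_ext he
        have hm : refl Q v hv * refl Q w hw0 ∈ reflectionSubgroup Q c := by
          rw [e]
          exact refl_mul_refl_mem_class h2 Q hQ c hc hyp v' w hv'0 hw0 hv'
        rcases ih' with h1 | h1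
        · right
          have h3 := Subgroup.mul_mem _ (hnorm.conj_mem _ h1 (refl Q v hv)) hm
          have e2 : refl Q v hv * (tl.map (reflT Q)).prod * (refl Q v hv)⁻¹ * (refl Q v hv * refl Q w hw0) =
              refl Q v hv * (tl.map (reflT Q)).prod * refl Q w hw0 := by group
          rwa [e2] at h3
        · left
          have h3 := Subgroup.mul_mem _ (hnorm.conj_mem _ h1 (refl Q v hv)) hm
          have e2 : refl Q v hv * ((tl.map (reflT Q)).prod * refl Q w hw0) * (refl Q v hv)⁻¹ *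
              (refl Q v hv * refl Q w hw0) =
              refl Q v hv * (tl.map (reflT Q)).prod * (refl Q w hw0 * refl Q w hw0) := by group
          rwa [e2, refl_mul_self, mul_one] at h3
  rw [Subgroup.index_eq_two_iff]
  refine ⟨refl Q w hw0, fun b => ?_⟩
  obtain ⟨vs, hvs, hb⟩ := exists_refl_list Q hQ h b
  have hb' := eq_prod_reflT Q b vs hvs hb
  have hk := key vs hvs
  rw [← hb'] at hk
  have hnot : ¬ (b ∈ reflectionSubgroup Q c ∧ b * refl Q w hw0 ∈ reflectionSubgroup Q c) := by
    rintro ⟨h1, h3⟩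
    exact hwn ((Subgroup.mul_mem_cancel_left _ h1).1 h3)
  exact xor_of_or hk hnot

theorem classSet_eq (Q : QuadraticForm F (ι → F)) (c : F) :
    {g : isometryGroup F Q | ∃ (v : ι → F) (t : F), t ≠ 0 ∧ Q v = c * t ^ 2 ∧
      ((g : Matrix.GeneralLinearGroup ι F) : Matrix ι ι F) = reflectionMatrix Q v} = reflectionsOfNorm Q c := by
  ext g
  constructor
  · rintro ⟨v, t, ht, hv, hg⟩
    refine ⟨t⁻¹ • v, ?_, ?_⟩
    · rw [QuadraticMap.map_smul, hv, smul_eq_mul]
      field_simp
    · rw [hg, reflectionMatrix_smul Q v _ (inv_ne_zero ht)]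
  · rintro ⟨v, hv, hg⟩
    exact ⟨v, 1, one_ne_zero, by rw [hv]; ring, hg⟩

end Cfsg.Agent.Lib.Helper15
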