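import Cfsg.Agent.Lib.Helper15.RankOne

set_option autoImplicit false
open Cfsg QuadraticMap Matrix

namespace Cfsg.Agent.Lib.Helper15

variable {F : Type*} [Field F] {ι : Type} [Fintype ι] [DecidableEq ι]

theorem commute_reflectionMatrix_iff (h2 : (2 : F) ≠ 0) (Q : QuadraticForm F (ι → F)) (u v : ι → F)
    (hu : Q u ≠ 0) (huv : Q u = Q v) (h1 : v ≠ u) (h1' : v ≠ -u) :
    Commute (reflectionMatrix Q u) (reflectionMatrix Q v) ↔ polar Q u v = 0 := by
  have hv : Q v ≠ 0 := huv ▸ hu
  constructor
  · intro h
    by_contra ht
    have h3 := congrArg (fun M => M *ᵥ v) h.eq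
    simp only [← Matrix.mulVec_mulVec] at h3
    simp only [reflectionMatrix_mulVec, polar_sub_right, polar_smul_right, polar_self, polar_comm Q v u,
      smul_eq_mul, ← huv] at h3
    set c := Q u with hc
    set t := polar Q u v with ht'
    have h4 : u = (t / (2 * c)) • v := by
      have h5 : (2 * (t / c)) • u = ((t / c) * (t / c)) • v := by
        have : (2 * (t / c)) • u - ((t / c) * (t / c)) • v = 0 := by
          have h6 := sub_eq_zero.2 h3
          rw [← h6]
          match_scalars <;> field_simp <;> ring
        exact sub_eq_zero.1 this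
      calc u = (2 * (t / c))⁻¹ • ((2 * (t / c)) • u) := by
            rw [smul_smul, inv_mul_cancel₀ (mul_ne_zero h2 (div_ne_zero ht hu)), one_smul]
        _ = (t / (2 * c)) • v := by
            rw [h5, smul_smul]; congr 1; field_simp
    have h5 : (t / (2 * c)) * (t / (2 * c)) = 1 := by
      have : Q u = (t / (2 * c)) * (t / (2 * c)) * Q v := by
        conv_lhs => rw [h4]
        rw [QuadraticMap.map_smul, smul_eq_mul]
      rw [← huv] at this
      have h6 : c * ((t / (2 * c)) * (t / (2 * c)) - 1) = 0 := by linear_combination -this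
      have := (mul_eq_zero.1 h6).resolve_left hu
      linear_combination this
    rcases mul_self_eq_one_iff.1 h5 with h6 | h6
    · apply h1; rw [h4, h6, one_smul]
    · apply h1'; rw [h4, h6, neg_one_smul, neg_neg]
  · intro h
    have := refl_mul_sq_of_orth Q u v hu hv h
    have h3 : refl Q u hu * refl Q v hv = refl Q v hv * refl Q u hu := by
      have h4 : (refl Q u hu * refl Q v hv)⁻¹ = refl Q u hu * refl Q v hv := by
        rw [inv_eq_iff_mul_eq_one, ← pow_two, this]
      rw [_root_.mul_inv_rev, refl_inv, refl_inv] at h4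
      exact h4.symm
    have h4 := congrArg (fun g : isometryGroup F Q => ((g : Matrix.GeneralLinearGroup ι F) : Matrix ι ι F)) h3
    exact h4

end Cfsg.Agent.Lib.Helper15
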