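import Mathlib
import Cfsg.Agent.Lib.Helper15.ParMax9

set_option autoImplicit false

namespace Cfsg.Agent.Lib.Helper15

open Module Matrix Cfsg Cfsg.Agent.Lib.Helper5

theorem finrank_iSup_le_sum {F V : Type*} [Field F] [AddCommGroup V] [Module F V] [FiniteDimensional F V]
    {t : ℕ} (D : Fin t → Submodule F V) : finrank F ↥(iSup D) ≤ ∑ i, finrank F (D i) := by
  classical
  rw [← Finset.sup_univ_eq_iSup]
  have : ∀ s : Finset (Fin t), finrank F ↥(s.sup D) ≤ ∑ i ∈ s, finrank F (D i) := by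
    intro s
    induction s using Finset.induction_on with
    | empty => simp
    | insert a s ha ih =>
      rw [Finset.sup_insert, Finset.sum_insert ha]
      exact le_trans (Submodule.finrank_add_le_finrank_add_finrank _ _) (by omega)
  exact this _

theorem card_two_cases {F : Type*} [Field F] [Fintype F] (hq : Fintype.card F = 2) (x : F) : x = 0 ∨ x = 1 := by
  classical
  by_contra h
  push Not at h
  have : ({0, 1, x} : Finset F).card ≤ Fintype.card F := Finset.card_le_univ _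
  rw [Finset.card_insert_of_notMem, Finset.card_insert_of_notMem, Finset.card_singleton, hq] at this
  · omega
  · simp [Ne.symm h.2]
  · simp [Ne.symm h.1]

theorem card_two_add_self {F : Type*} [Field F] [Fintype F] (hq : Fintype.card F = 2) (x : F) : x + x = 0 := by
  have h2 : (1 : F) + 1 = 0 := by
    rcases card_two_cases hq (1 + 1 : F) with h | h
    · exact h
    · simp at h
  linear_combination x * h2

variable {F : Type*} [Field F] {m : ℕ} {t k : ℕ} {D : Fin t → Submodule F (Fin m ⊕ Fin m → F)}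

open Classical in
/-- indicator of the `i`-th component being nonzero -/
noncomputable def chiD (D : Fin t → Submodule F (Fin m ⊕ Fin m → F)) (i : Fin t) (v : Fin m ⊕ Fin m → F) : F :=
  if ∃ w ∈ D i, sympForm m F v w ≠ 0 then 1 else 0

/-- the quadratic form which is anisotropic on each member -/
noncomputable def QD (D : Fin t → Submodule F (Fin m ⊕ Fin m → F)) (v : Fin m ⊕ Fin m → F) : F :=
  ∑ i, chiD D i v

theorem chiD_congr {i j : Fin t} {v v' : Fin m ⊕ Fin m → F}
    (h : (∃ w ∈ D i, sympForm m F v w ≠ 0) ↔ (∃ w ∈ D j, sympForm m F v' w ≠ 0)) :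
    chiD D i v = chiD D j v' := by
  unfold chiD
  by_cases h1 : ∃ w ∈ D i, sympForm m F v w ≠ 0
  · rw [if_pos h1, if_pos (h.1 h1)]
  · rw [if_neg h1, if_neg (fun h2 => h1 (h.2 h2))]

theorem chiD_zero (i : Fin t)
    (c : Fin m ⊕ Fin m → F) (hc : ∀ e ∈ D i, sympForm m F c e = 0) : chiD D i c = 0 := by
  unfold chiD
  rw [if_neg]
  rintro ⟨w, hw, h⟩
  exact h (hc w hw)

theorem chiD_one (hD : Geo.IsNondegenerateMDecomposition (sympForm m F) k D) (i : Fin t)
    (a : Fin m ⊕ Fin m → F) (ha : a ∈ D i) (ha0 : a ≠ 0)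
    (c : Fin m ⊕ Fin m → F) (hc : ∀ e ∈ D i, sympForm m F c e = 0) : chiD D i (a + c) = 1 := by
  unfold chiD
  rw [if_pos]
  obtain ⟨e, he, hae⟩ := dec_nd hD i a ha ha0
  exact ⟨e, he, by rw [sympForm_add_left, hc e he, add_zero]; exact hae⟩

theorem chiD_add_perp (i : Fin t) (u v : Fin m ⊕ Fin m → F) (hv : ∀ e ∈ D i, sympForm m F v e = 0) :
    chiD D i (u + v) = chiD D i u := by
  apply chiD_congr
  constructor
  · rintro ⟨w, hw, h⟩
    exact ⟨w, hw, by rwa [sympForm_add_left, hv w hw, add_zero] at h⟩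
  · rintro ⟨w, hw, h⟩
    exact ⟨w, hw, by rwa [sympForm_add_left, hv w hw, add_zero]⟩

theorem chiD_add_mem [Fintype F] (hq : Fintype.card F = 2)
    (hD : Geo.IsNondegenerateMDecomposition (sympForm m F) 2 D) (i : Fin t)
    (a : Fin m ⊕ Fin m → F) (ha : a ∈ D i) (ha0 : a ≠ 0) (u : Fin m ⊕ Fin m → F) :
    chiD D i (u + a) = chiD D i u + (1 + sympForm m F u a) := by
  obtain ⟨x, hx, c, hc, rfl⟩ := dec_split hD i u
  have e1 : x + c + a = (x + a) + c := by abel
  have h11 := card_two_add_self hq (1 : F)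
  rw [e1, sympForm_add_left, hc a ha, add_zero]
  by_cases hx0 : x = 0
  · subst hx0
    rw [zero_add, zero_add, chiD_one hD i a ha ha0 c hc, chiD_zero i c hc, sympForm_zero_left]
    ring
  by_cases hxa : x = a
  · subst hxa
    have : x + x = 0 := by
      ext j
      exact card_two_add_self hq (x j)
    rw [this, zero_add, chiD_zero i c hc, chiD_one hD i x hx hx0 c hc, sympForm_self]
    linear_combination -h11
  have hxa0 : x + a ≠ 0 := by
    intro h
    apply hxa
    have : a + a = 0 := by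
      ext j
      exact card_two_add_self hq (a j)
    calc x = x + (a + a) := by rw [this, add_zero]
      _ = (x + a) + a := by abel
      _ = a := by rw [h, zero_add]
  rw [chiD_one hD i (x + a) ((D i).add_mem hx ha) hxa0 c hc, chiD_one hD i x hx hx0 c hc]
  have hB : sympForm m F x a = 1 := by
    rcases card_two_cases hq (sympForm m F x a) with h | h
    swap
    · exact h
    exfalso
    apply ha0
    apply dec_eq_zero hD i a ha
    have hind : LinearIndependent F ![a, x] := by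
      apply (LinearIndependent.pair_iff' ha0).2
      intro l hl
      rcases card_two_cases hq l with rfl | rfl
      · rw [zero_smul] at hl; exact hx0 hl.symm
      · rw [one_smul] at hl; exact hxa hl.symm
    have hspan : Submodule.span F (Set.range ![a, x]) = D i := by
      apply Submodule.eq_of_le_of_finrank_eq
      · rw [Submodule.span_le]
        rintro _ ⟨j, rfl⟩
        fin_cases j
        · exact ha
        · exact hx
      · rw [finrank_span_eq_card hind, hD.decomp.finrank_eq]; simp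
    intro e he
    rw [← hspan] at he
    obtain ⟨cf, rfl⟩ := (Submodule.mem_span_range_iff_exists_fun F).1 he
    rw [Fin.sum_univ_two]
    simp only [Matrix.cons_val_zero, Matrix.cons_val_one, sympForm_add_right, sympForm_smul_right, sympForm_self]
    rw [sympForm_swap, h]
    simp
  rw [hB]
  linear_combination -h11

theorem QD_add_mem [Fintype F] (hq : Fintype.card F = 2)
    (hD : Geo.IsNondegenerateMDecomposition (sympForm m F) 2 D) (i : Fin t)
    (a : Fin m ⊕ Fin m → F) (ha : a ∈ D i) (ha0 : a ≠ 0) (u : Fin m ⊕ Fin m → F) :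
    QD D (u + a) = QD D u + (1 + sympForm m F u a) := by
  unfold QD
  have : ∀ l, chiD D l (u + a) = chiD D l u + (if l = i then 1 + sympForm m F u a else 0) := by
    intro l
    by_cases hl : l = i
    · subst hl
      rw [if_pos rfl]
      exact chiD_add_mem hq hD l a ha ha0 u
    · rw [if_neg hl, add_zero]
      exact chiD_add_perp l u a (fun e he => dec_orth hD (Ne.symm hl) ha he)
  rw [Finset.sum_congr rfl (fun l _ => this l), Finset.sum_add_distrib, Finset.sum_ite_eq' Finset.univ i]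
  simp

/-- the orthogonal group of `QD` -/
noncomputable def KD (D : Fin t → Submodule F (Fin m ⊕ Fin m → F)) : Subgroup (GL (Fin m ⊕ Fin m) F) where
  carrier := {g | g ∈ spGL m F ∧ ∀ v, QD D ((g : Matrix (Fin m ⊕ Fin m) (Fin m ⊕ Fin m) F) *ᵥ v) = QD D v}
  mul_mem' := by
    rintro a b ⟨ha, ha'⟩ ⟨hb, hb'⟩
    refine ⟨Subgroup.mul_mem _ ha hb, fun v => ?_⟩
    rw [Units.val_mul, ← Matrix.mulVec_mulVec, ha', hb']
  one_mem' := ⟨Subgroup.one_mem _, fun v => by rw [Units.val_one, Matrix.one_mulVec]⟩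
  inv_mem' := by
    rintro a ⟨ha, ha'⟩
    refine ⟨Subgroup.inv_mem _ ha, fun v => ?_⟩
    rw [← ha', gl_mulVec_inv]

theorem stab_le_KD : Geo.decompositionStabilizer D ⊓ spGL m F ≤ KD D := by
  rintro g ⟨⟨σ, hσ⟩, hg⟩
  refine ⟨hg, fun v => ?_⟩
  unfold QD
  rw [← Equiv.sum_comp σ]
  apply Finset.sum_congr rfl
  intro l _
  apply chiD_congr
  constructor
  · rintro ⟨w, hw, h⟩
    rw [← hσ l] at hw
    obtain ⟨w', hw', rfl⟩ := hw
    rw [Matrix.toLin'_apply, (mem_spGL_iff g).1 hg] at h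
    exact ⟨w', hw', h⟩
  · rintro ⟨w, hw, h⟩
    refine ⟨(g : Matrix (Fin m ⊕ Fin m) (Fin m ⊕ Fin m) F) *ᵥ w, ?_, ?_⟩
    · rw [← hσ l]
      exact ⟨w, hw, Matrix.toLin'_apply _ _⟩
    · rw [(mem_spGL_iff g).1 hg]; exact h

theorem sp_dec_two_not_max [Fintype F] (hm : 7 ≤ m) (hq : Fintype.card F = 2)
    (hD : Geo.IsNondegenerateMDecomposition (sympForm m F) 2 D) :
    ∃ K : Subgroup (GL (Fin m ⊕ Fin m) F), Geo.decompositionStabilizer D ⊓ spGL m F < K ∧ K < spGL m F := by
  have ht : 3 ≤ t := by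
    have h1 := finrank_iSup_le_sum D
    rw [hD.decomp.iSup_eq_top, finrank_top, finrank_fintype_fun_eq_card,
      Finset.sum_congr rfl (fun i _ => hD.decomp.finrank_eq i)] at h1
    simp at h1
    omega
  have h11 := card_two_add_self hq (1 : F)
  obtain ⟨i₁, i₂, i₃, h12, h13, h23⟩ : ∃ i₁ i₂ i₃ : Fin t, i₁ ≠ i₂ ∧ i₁ ≠ i₃ ∧ i₂ ≠ i₃ :=
    ⟨⟨0, by omega⟩, ⟨1, by omega⟩, ⟨2, by omega⟩, by simp [Fin.ext_iff], by simp [Fin.ext_iff],
      by simp [Fin.ext_iff]⟩
  obtain ⟨a₁, ha₁, ha₁0⟩ := dec_exists_ne hD i₁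
  obtain ⟨a₂, ha₂, ha₂0⟩ := dec_exists_ne hD i₂
  obtain ⟨a₃, ha₃, ha₃0⟩ := dec_exists_ne hD i₃
  obtain ⟨u, hu, hua⟩ := dec_nd hD i₁ a₁ ha₁ ha₁0
  have hua1 : sympForm m F u a₁ = 1 := by
    rcases card_two_cases hq (sympForm m F u a₁) with h | h
    · exfalso; apply hua; rw [sympForm_swap, h, neg_zero]
    · exact h
  have hua2 : sympForm m F u a₂ = 0 := dec_orth hD h12 hu ha₂
  have hua3 : sympForm m F u a₃ = 0 := dec_orth hD h13 hu ha₃
  have h_12 : sympForm m F a₁ a₂ = 0 := dec_orth hD h12 ha₁ ha₂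
  have h_13 : sympForm m F a₁ a₃ = 0 := dec_orth hD h13 ha₁ ha₃
  have h_23 : sympForm m F a₂ a₃ = 0 := dec_orth hD h23 ha₂ ha₃
  refine ⟨KD D, lt_of_le_of_ne stab_le_KD ?_, lt_of_le_of_ne (fun g hg => hg.1) ?_⟩
  · intro heq
    have hmem : tvSp (a₁ + a₂ + a₃) (1 : F) ∈ KD D := by
      refine ⟨tvSp_mem _ _, fun v => ?_⟩
      rw [tvSp_mulVec, one_mul]
      rcases card_two_cases hq (sympForm m F v (a₁ + a₂ + a₃)) with h | h
      · rw [h, zero_smul, add_zero]
      · rw [h, one_smul]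
        have e : v + (a₁ + a₂ + a₃) = ((v + a₁) + a₂) + a₃ := by abel
        rw [e, QD_add_mem hq hD i₃ a₃ ha₃ ha₃0, QD_add_mem hq hD i₂ a₂ ha₂ ha₂0, QD_add_mem hq hD i₁ a₁ ha₁ ha₁0]
        simp only [sympForm_add_left, sympForm_add_right, h_12, h_13, h_23] at h ⊢
        linear_combination h + 2 * h11
    rw [← heq] at hmem
    obtain ⟨⟨σ, hσ⟩, -⟩ := hmem
    have h1 : (tvSp (a₁ + a₂ + a₃) (1 : F) : Matrix (Fin m ⊕ Fin m) (Fin m ⊕ Fin m) F) *ᵥ u ∈ D (σ i₁) := by
      rw [← hσ i₁]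
      exact ⟨u, hu, Matrix.toLin'_apply _ _⟩
    rw [tvSp_mulVec, one_mul, sympForm_add_right, sympForm_add_right, hua1, hua2, hua3, add_zero, add_zero,
      one_smul] at h1
    have k2 : σ i₁ = i₂ := by
      by_contra hne
      obtain ⟨w, hw, haw⟩ := dec_nd hD i₂ a₂ ha₂ ha₂0
      have := dec_orth hD hne h1 hw
      simp only [sympForm_add_left, dec_orth hD h12 hu hw, dec_orth hD h12 ha₁ hw,
        dec_orth hD (Ne.symm h23) ha₃ hw] at this
      apply haw
      simpa using this
    have k3 : σ i₁ = i₃ := by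
      by_contra hne
      obtain ⟨w, hw, haw⟩ := dec_nd hD i₃ a₃ ha₃ ha₃0
      have := dec_orth hD hne h1 hw
      simp only [sympForm_add_left, dec_orth hD h13 hu hw, dec_orth hD h13 ha₁ hw,
        dec_orth hD h23 ha₂ hw] at this
      apply haw
      simpa using this
    exact h23 (k2.symm.trans k3)
  · intro heq
    have hmem : tvSp (a₁ + a₂) (1 : F) ∈ KD D := by rw [heq]; exact tvSp_mem _ _
    have h1 := hmem.2 u
    rw [tvSp_mulVec, one_mul, sympForm_add_right, hua1, hua2, add_zero, one_smul] at h1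
    have e : u + (a₁ + a₂) = (u + a₁) + a₂ := by abel
    rw [e, QD_add_mem hq hD i₂ a₂ ha₂ ha₂0, QD_add_mem hq hD i₁ a₁ ha₁ ha₁0, sympForm_add_left, hua1, hua2,
      h_12] at h1
    have : (1 : F) = 0 := by linear_combination h1 - h11
    exact one_ne_zero this

end Cfsg.Agent.Lib.Helper15
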