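import Mathlib
import Cfsg.Agent.Lib.Helper15.SpDecNM
import Cfsg.Agent.Lib.Helper15.SU3T

set_option autoImplicit false

namespace Cfsg.Agent.Lib.Helper15

open Module Matrix Cfsg Cfsg.Agent.Lib.Helper14

variable {F : Type*} [Field F] [Fintype F] {n q : ℕ}

theorem exists_unit_in (hF : Fintype.card F = q ^ 2) (W : Submodule F (Fin n → F))
    (hW : Geo.IsNondegenerateOn (hermForm n F q) W) (hW0 : W ≠ ⊥) : ∃ e ∈ W, hermForm n F q e e = 1 := by
  obtain ⟨y₀, hy₀, hy₀0⟩ := Submodule.exists_mem_ne_zero_of_ne_bot hW0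
  obtain ⟨x, hx, hyx⟩ := (hW y₀ hy₀ hy₀0).2
  obtain ⟨y, hy, hyy⟩ : ∃ y ∈ W, hermForm n F q y y ≠ 0 := by
    by_contra hcon
    push Not at hcon
    exact hyx (hf_polarize hF W hcon _ hy₀ _ hx)
  obtain ⟨l, hl⟩ := exists_norm_eq hF (1 / hermForm n F q y y) (by rw [div_pow, one_pow, hermForm_self_pow hF])
  refine ⟨l • y, W.smul_mem _ hy, ?_⟩
  rw [hermForm_smul_left, hermForm_smul_right]
  rw [pow_succ] at hl
  field_simp at hl
  linear_combination hl

variable {t : ℕ} {D : Fin t → Submodule F (Fin n → F)}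

/-- in a unitary plane over the field with four elements the anisotropic points form a frame -/
theorem frame_four (hF : Fintype.card F = 2 ^ 2) (hD : Geo.IsNondegenerateMDecomposition (hermForm n F 2) 2 D)
    (i : Fin t) (e v : Fin n → F) (he : e ∈ D i) (hee : hermForm n F 2 e e = 1) (hv : v ∈ D i)
    (hvv : hermForm n F 2 v v ≠ 0) : (∃ α : F, v = α • e) ∨ hermForm n F 2 v e = 0 := by
  by_cases hβ : hermForm n F 2 v e = 0
  · exact Or.inr hβ
  left
  obtain ⟨β, hβd⟩ : ∃ β : F, β = hermForm n F 2 v e := ⟨_, rfl⟩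
  rw [← hβd] at hβ
  obtain ⟨w, hwd⟩ : ∃ w : Fin n → F, w = v - β • e := ⟨_, rfl⟩
  have hw : w ∈ D i := by rw [hwd]; exact (D i).sub_mem hv ((D i).smul_mem _ he)
  have hwe : hermForm n F 2 w e = 0 := by
    rw [hwd, hermForm_sub_left, hermForm_smul_left, hee, ← hβd]; ring
  have hew : hermForm n F 2 e w = 0 := hermForm_eq_zero_symm hF _ _ hwe
  have hvw : v = w + β • e := by rw [hwd]; abel
  refine ⟨β, ?_⟩
  by_contra hne
  have hw0 : w ≠ 0 := by
    intro h0
    apply hne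
    rw [hvw, h0, zero_add]
  have he0 : e ≠ 0 := by
    rintro rfl
    rw [hermForm_zero_left] at hee
    exact zero_ne_one hee
  have hww : hermForm n F 2 w w ≠ 0 := by
    intro hww
    obtain ⟨x, hx, hwx⟩ := (hD.nondegenerate i w hw hw0).2
    apply hwx
    have hind : LinearIndependent F ![e, w] := by
      apply (LinearIndependent.pair_iff' he0).2
      intro l hl
      apply hw0
      have h1 : l = 0 := by
        have := hwe
        rw [← hl, hermForm_smul_left, hee, mul_one] at this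
        exact this
      rw [← hl, h1, zero_smul]
    have hspan : Submodule.span F (Set.range ![e, w]) = D i := by
      apply Submodule.eq_of_le_of_finrank_eq
      · rw [Submodule.span_le]
        rintro _ ⟨j, rfl⟩
        fin_cases j
        · exact he
        · exact hw
      · rw [finrank_span_eq_card hind, hD.decomp.finrank_eq]; simp
    rw [← hspan] at hx
    obtain ⟨cf, rfl⟩ := (Submodule.mem_span_range_iff_exists_fun F).1 hx
    rw [Fin.sum_univ_two]
    simp only [Matrix.cons_val_zero, Matrix.cons_val_one, hermForm_add_right hF, hermForm_smul_right, hwe, hww]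
    ring
  have hww1 : hermForm n F 2 w w = 1 := by
    have h1 := hermForm_self_pow hF n w
    have h2 : hermForm n F 2 w w * (hermForm n F 2 w w - 1) = 0 := by linear_combination h1
    rcases mul_eq_zero.1 h2 with h | h
    · exact absurd h hww
    · exact sub_eq_zero.1 h
  apply hvv
  rw [hvw]
  simp only [hermForm_add_left, hermForm_add_right hF, hermForm_smul_left, hermForm_smul_right, hwe, hew, hww1, hee]
  linear_combination four_cube hF β hβ + four_two hF

/-- the anisotropic vectors lying in a member -/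
def XD (D : Fin t → Submodule F (Fin n → F)) (v : Fin n → F) : Prop :=
  hermForm n F 2 v v ≠ 0 ∧ ∃ i, v ∈ D i

/-- the stabiliser of the frame -/
def KU (D : Fin t → Submodule F (Fin n → F)) : Subgroup (GL (Fin n) F) where
  carrier := {g | g ∈ GU n F 2 ⊓ Geo.specialLinear (Fin n) F ∧
    ∀ v, XD D ((g : Matrix (Fin n) (Fin n) F) *ᵥ v) ↔ XD D v}
  mul_mem' := by
    rintro a b ⟨ha, ha'⟩ ⟨hb, hb'⟩
    refine ⟨Subgroup.mul_mem _ ha hb, fun v => ?_⟩
    rw [Units.val_mul, ← Matrix.mulVec_mulVec, ha', hb']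
  one_mem' := ⟨Subgroup.one_mem _, fun v => by rw [Units.val_one, Matrix.one_mulVec]⟩
  inv_mem' := by
    rintro a ⟨ha, ha'⟩
    refine ⟨Subgroup.inv_mem _ ha, fun v => ?_⟩
    rw [← ha', gl_mulVec_inv]

omit [Fintype F] in
theorem stab_le_KU :
    Geo.decompositionStabilizer D ⊓ (GU n F 2 ⊓ Geo.specialLinear (Fin n) F) ≤ KU D := by
  rintro g ⟨⟨σ, hσ⟩, hg⟩
  refine ⟨hg, fun v => ?_⟩
  unfold XD
  rw [(mem_GU_iff g).1 hg.1]
  constructor
  · rintro ⟨h1, j, hj⟩
    refine ⟨h1, σ.symm j, ?_⟩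
    have h2 := hσ (σ.symm j)
    rw [Equiv.apply_symm_apply] at h2
    rw [← h2] at hj
    obtain ⟨v', hv', he⟩ := hj
    rw [Matrix.toLin'_apply] at he
    have : v' = v := by rw [← gl_inv_mulVec g v', he, gl_inv_mulVec]
    rwa [← this]
  · rintro ⟨h1, i, hi⟩
    refine ⟨h1, σ i, ?_⟩
    rw [← hσ i]
    exact ⟨v, hi, Matrix.toLin'_apply _ _⟩

theorem su_dec_two_not_max (hF : Fintype.card F = 2 ^ 2) (hn : 13 ≤ n)
    (hD : Geo.IsNondegenerateMDecomposition (hermForm n F 2) 2 D) :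
    ∃ K : Subgroup (GL (Fin n) F),
      Geo.decompositionStabilizer D ⊓ (GU n F 2 ⊓ Geo.specialLinear (Fin n) F) < K ∧
      K < GU n F 2 ⊓ Geo.specialLinear (Fin n) F := by
  have ht : 4 ≤ t := by
    have h1 := finrank_iSup_le_sum D
    rw [hD.decomp.iSup_eq_top, finrank_top, finrank_fintype_fun_eq_card,
      Finset.sum_congr rfl (fun i _ => hD.decomp.finrank_eq i)] at h1
    simp at h1
    omega
  have h2 := four_two hF
  have hc : (1 : F) + 1 ^ 2 = 0 := by linear_combination h2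
  have hne : ∀ i, D i ≠ ⊥ := by
    intro i h
    have h1 := hD.decomp.finrank_eq i
    rw [h, finrank_bot] at h1
    omega
  obtain ⟨i₁, i₂, i₃, i₄, h12, h13, h14, h23, h24, h34⟩ : ∃ i₁ i₂ i₃ i₄ : Fin t, i₁ ≠ i₂ ∧ i₁ ≠ i₃ ∧ i₁ ≠ i₄ ∧
      i₂ ≠ i₃ ∧ i₂ ≠ i₄ ∧ i₃ ≠ i₄ :=
    ⟨⟨0, by omega⟩, ⟨1, by omega⟩, ⟨2, by omega⟩, ⟨3, by omega⟩, by simp [Fin.ext_iff], by simp [Fin.ext_iff],
      by simp [Fin.ext_iff], by simp [Fin.ext_iff], by simp [Fin.ext_iff], by simp [Fin.ext_iff]⟩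
  obtain ⟨e₁, he₁, n₁⟩ := exists_unit_in hF (D i₁) (hD.nondegenerate i₁) (hne i₁)
  obtain ⟨e₂, he₂, n₂⟩ := exists_unit_in hF (D i₂) (hD.nondegenerate i₂) (hne i₂)
  obtain ⟨e₃, he₃, n₃⟩ := exists_unit_in hF (D i₃) (hD.nondegenerate i₃) (hne i₃)
  obtain ⟨e₄, he₄, n₄⟩ := exists_unit_in hF (D i₄) (hD.nondegenerate i₄) (hne i₄)
  have orth : ∀ {i j : Fin t}, i ≠ j → ∀ {x y : Fin n → F}, x ∈ D i → y ∈ D j → hermForm n F 2 x y = 0 :=
    fun hij _ _ hx hy => hD.orthogonal _ _ hij _ hx _ hy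
  refine ⟨KU D, lt_of_le_of_ne stab_le_KU ?_, lt_of_le_of_ne (fun g hg => hg.1) ?_⟩
  · intro heq
    have ha : hermForm n F 2 (e₁ + e₂) (e₁ + e₂) = 0 := by
      simp only [hermForm_add_left, hermForm_add_right hF, n₁, n₂, orth h12 he₁ he₂, orth (Ne.symm h12) he₂ he₁]
      linear_combination h2
    obtain ⟨k, -, hk⟩ := exists_tv hF (e₁ + e₂) 1 ha hc
    have hkSU := tv_mem_SU hF (e₁ + e₂) 1 ha hc k hk
    have hkk : ∀ v, (k : Matrix (Fin n) (Fin n) F) *ᵥ ((k : Matrix (Fin n) (Fin n) F) *ᵥ v) = v := by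
      intro v
      rw [hk v, hk, hermForm_add_left, hermForm_smul_left, ha]
      have : v + (1 * hermForm n F 2 v (e₁ + e₂)) • (e₁ + e₂) +
          (1 * (hermForm n F 2 v (e₁ + e₂) + 1 * hermForm n F 2 v (e₁ + e₂) * 0)) • (e₁ + e₂) =
          v + ((2 : F) * hermForm n F 2 v (e₁ + e₂)) • (e₁ + e₂) := by module
      rw [this, h2, zero_mul, zero_smul, add_zero]
    have hfw : ∀ v, XD D v → XD D ((k : Matrix (Fin n) (Fin n) F) *ᵥ v) := by
      rintro v ⟨hvv, i, hi⟩
      refine ⟨by rw [(mem_GU_iff k).1 hkSU.1]; exact hvv, ?_⟩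
      rw [hk, one_mul, hermForm_add_right hF]
      by_cases hi1 : i = i₁
      · subst hi1
        rw [orth h12 hi he₂, add_zero]
        rcases frame_four hF hD i e₁ v he₁ n₁ hi hvv with ⟨α, rfl⟩ | h0
        · refine ⟨i₂, ?_⟩
          rw [hermForm_smul_left, n₁, mul_one]
          have : α • e₁ + α • (e₁ + e₂) = ((2 : F) * α) • e₁ + α • e₂ := by module
          rw [this, h2, zero_mul, zero_smul, zero_add]
          exact (D i₂).smul_mem _ he₂
        · exact ⟨i, by rw [h0, zero_smul, add_zero]; exact hi⟩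
      by_cases hi2 : i = i₂
      · subst hi2
        rw [orth hi1 hi he₁, zero_add]
        rcases frame_four hF hD i e₂ v he₂ n₂ hi hvv with ⟨α, rfl⟩ | h0
        · refine ⟨i₁, ?_⟩
          rw [hermForm_smul_left, n₂, mul_one]
          have : α • e₂ + α • (e₁ + e₂) = ((2 : F) * α) • e₂ + α • e₁ := by module
          rw [this, h2, zero_mul, zero_smul, zero_add]
          exact (D i₁).smul_mem _ he₁
        · exact ⟨i, by rw [h0, zero_smul, add_zero]; exact hi⟩
      · exact ⟨i, by rw [orth hi1 hi he₁, orth hi2 hi he₂, add_zero, zero_smul, add_zero]; exact hi⟩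
    have hmem : k ∈ KU D := by
      refine ⟨hkSU, fun v => ⟨fun h => ?_, hfw v⟩⟩
      have := hfw _ h
      rwa [hkk] at this
    rw [← heq] at hmem
    obtain ⟨⟨σ, hσ⟩, -⟩ := hmem
    have hmap : ∀ x ∈ D i₁, (k : Matrix (Fin n) (Fin n) F) *ᵥ x ∈ D (σ i₁) := by
      intro x hx
      rw [← hσ i₁]
      exact ⟨x, hx, Matrix.toLin'_apply _ _⟩
    have hσ1 : σ i₁ = i₂ := by
      by_contra hne'
      have h1 := hmap e₁ he₁
      have h3 := orth hne' h1 he₂
      rw [hk, one_mul, hermForm_add_right hF, n₁, orth h12 he₁ he₂, add_zero, one_smul] at h3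
      simp only [hermForm_add_left, orth h12 he₁ he₂, n₂] at h3
      simp at h3
    have h5 := finrank_span_singleton_le (F := F) e₁
    obtain ⟨x, hx, hxs⟩ := exists_mem_notMem_of_finrank_lt (Submodule.span F {e₁}) (D i₁)
      (by rw [hD.decomp.finrank_eq]; omega)
    have h6 := hmap x hx
    rw [hσ1, hk, one_mul, hermForm_add_right hF, orth h12 hx he₂, add_zero] at h6
    apply hxs
    have h7 : x + hermForm n F 2 x e₁ • e₁ = 0 := by
      by_contra h0
      obtain ⟨z, hz, hzz⟩ := (hD.nondegenerate i₁ _ ((D i₁).add_mem hx ((D i₁).smul_mem _ he₁)) h0).2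
      apply hzz
      have h8 := orth (Ne.symm h12) h6 hz
      rw [smul_add, ← add_assoc, hermForm_add_left, hermForm_smul_left _ e₂, orth (Ne.symm h12) he₂ hz,
        mul_zero, add_zero] at h8
      exact h8
    rw [Submodule.mem_span_singleton]
    exact ⟨-hermForm n F 2 x e₁, by rw [neg_smul]; exact (eq_neg_of_add_eq_zero_left h7).symm⟩
  · intro heq
    have hb : hermForm n F 2 (e₁ + e₂ + e₃ + e₄) (e₁ + e₂ + e₃ + e₄) = 0 := by
      simp only [hermForm_add_left, hermForm_add_right hF, n₁, n₂, n₃, n₄, orth h12 he₁ he₂,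
        orth (Ne.symm h12) he₂ he₁, orth h13 he₁ he₃, orth (Ne.symm h13) he₃ he₁, orth h14 he₁ he₄,
        orth (Ne.symm h14) he₄ he₁, orth h23 he₂ he₃, orth (Ne.symm h23) he₃ he₂, orth h24 he₂ he₄,
        orth (Ne.symm h24) he₄ he₂, orth h34 he₃ he₄, orth (Ne.symm h34) he₄ he₃]
      linear_combination 2 * h2
    obtain ⟨k, -, hk⟩ := exists_tv hF (e₁ + e₂ + e₃ + e₄) 1 hb hc
    have hkSU := tv_mem_SU hF (e₁ + e₂ + e₃ + e₄) 1 hb hc k hk
    have hmem : k ∈ KU D := by rw [heq]; exact hkSU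
    obtain ⟨-, j, hj⟩ := (hmem.2 e₁).2 ⟨by rw [n₁]; exact one_ne_zero, i₁, he₁⟩
    rw [hk, one_mul] at hj
    simp only [hermForm_add_right hF, n₁, orth h12 he₁ he₂, orth h13 he₁ he₃, orth h14 he₁ he₄, add_zero,
      one_smul] at hj
    have k2 : j = i₂ := by
      by_contra hne'
      have h3 := orth hne' hj he₂
      simp only [hermForm_add_left, orth h12 he₁ he₂, n₂, orth (Ne.symm h23) he₃ he₂,
        orth (Ne.symm h24) he₄ he₂] at h3
      simp at h3
    have k3 : j = i₃ := by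
      by_contra hne'
      have h3 := orth hne' hj he₃
      simp only [hermForm_add_left, orth h13 he₁ he₃, n₃, orth h23 he₂ he₃,
        orth (Ne.symm h34) he₄ he₃] at h3
      simp at h3
    exact h23 (k2.symm.trans k3)

end Cfsg.Agent.Lib.Helper15
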