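import Mathlib
import Cfsg.Prelude.Def_GeometricClasses

set_option autoImplicit false
open Cfsg Matrix
open scoped Kronecker

namespace Cfsg.Agent.Lib.Helper15

variable {F : Type*} [Field F] [Fintype F]

theorem two_eq_zero_of_card (hq : Fintype.card F = 2) : (2 : F) = 0 := by
  obtain ⟨p, hp⟩ := CharP.exists F
  have hpp : Fact p.Prime := ⟨CharP.char_is_prime F p⟩
  obtain ⟨n, hn1, hn⟩ := FiniteField.card F p
  rw [hq] at hn
  have h1 : p ∣ 2 := by rw [hn]; exact dvd_pow_self p n.pos.ne'
  have h2 : p = 2 := (Nat.prime_dvd_prime_iff_eq hn1 Nat.prime_two).1 h1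
  subst h2
  exact_mod_cast CharP.cast_eq_zero F 2

theorem specialLinear_eq_top (hq : Fintype.card F = 2) (ι : Type) [Fintype ι] [DecidableEq ι] :
    Geo.specialLinear ι F = ⊤ := by
  classical
  have h1 : Fintype.card Fˣ = 1 := by rw [Fintype.card_units, hq]
  have : Subsingleton Fˣ := Fintype.card_le_one_iff_subsingleton.1 h1.le
  rw [eq_top_iff]
  intro g _
  unfold Geo.specialLinear
  rw [MonoidHom.mem_ker]
  exact Subsingleton.elim _ _

/-- an element of order three -/
def omG (hq : Fintype.card F = 2) : GL (Fin 2) F :=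
  ⟨!![0, 1; 1, 1], !![1, 1; 1, 0], by
    have h2 := two_eq_zero_of_card hq
    ext i j
    fin_cases i <;> fin_cases j <;> simp [Matrix.mul_apply, Fin.sum_univ_two]
    linear_combination h2, by
    have h2 := two_eq_zero_of_card hq
    ext i j
    fin_cases i <;> fin_cases j <;> simp [Matrix.mul_apply, Fin.sum_univ_two]
    linear_combination h2⟩

theorem coe_omG (hq : Fintype.card F = 2) : ((omG hq : GL (Fin 2) F) : Matrix (Fin 2) (Fin 2) F) = !![0, 1; 1, 1] :=
  rfl

theorem orderOf_omG (hq : Fintype.card F = 2) : orderOf (omG hq) = 3 := by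
  have h2 := two_eq_zero_of_card hq
  have : Fact (Nat.Prime 3) := ⟨by norm_num⟩
  apply orderOf_eq_prime
  · apply Units.ext
    rw [Units.val_pow_eq_pow_val, coe_omG, pow_succ, pow_two]
    ext i j
    fin_cases i <;> fin_cases j <;> simp [Matrix.mul_apply, Fin.sum_univ_two] <;> linear_combination h2
  · intro h
    have := congrArg (fun g : GL (Fin 2) F => (g : Matrix (Fin 2) (Fin 2) F) 0 0) h
    simp [coe_omG] at this

theorem zpowers_omG_normal (hq : Fintype.card F = 2) : (Subgroup.zpowers (omG hq)).Normal := by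
  apply Subgroup.normal_of_index_eq_two
  have h1 := Subgroup.index_mul_card (Subgroup.zpowers (omG hq))
  rw [Nat.card_zpowers, orderOf_omG, Matrix.card_GL_field, hq] at h1
  simp [Fin.prod_univ_two] at h1
  omega

end Cfsg.Agent.Lib.Helper15
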