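import Mathlib
import Cfsg.Agent.Lib.Helper15.TensNM1

set_option autoImplicit false
open Cfsg Matrix
open scoped Kronecker

namespace Cfsg.Agent.Lib.Helper15

variable {F : Type*} [Field F]

/-- `X ↦ X ⊗ 1` -/
def kronOneHom (n₁ n₂ : ℕ) (F : Type*) [Field F] :
    Matrix (Fin n₁) (Fin n₁) F →* Matrix (Fin n₁ × Fin n₂) (Fin n₁ × Fin n₂) F where
  toFun X := X ⊗ₖ (1 : Matrix (Fin n₂) (Fin n₂) F)
  map_one' := Matrix.one_kronecker_one
  map_mul' X Y := by rw [← Matrix.mul_kronecker_mul, mul_one]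

def psiK (n₁ n₂ : ℕ) (F : Type*) [Field F] : GL (Fin n₁) F →* GL (Fin n₁ × Fin n₂) F :=
  Units.map (kronOneHom n₁ n₂ F)

theorem coe_psiK (n₁ n₂ : ℕ) (x : GL (Fin n₁) F) :
    ((psiK n₁ n₂ F x : GL (Fin n₁ × Fin n₂) F) : Matrix (Fin n₁ × Fin n₂) (Fin n₁ × Fin n₂) F) =
      (x : Matrix (Fin n₁) (Fin n₁) F) ⊗ₖ (1 : Matrix (Fin n₂) (Fin n₂) F) := rfl

theorem kron_conj_psi {n₁ n₂ : ℕ} (g : GL (Fin n₁ × Fin n₂) F) (a : GL (Fin n₁) F) (b : GL (Fin n₂) F)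
    (hg : (g : Matrix (Fin n₁ × Fin n₂) (Fin n₁ × Fin n₂) F) =
      (a : Matrix (Fin n₁) (Fin n₁) F) ⊗ₖ (b : Matrix (Fin n₂) (Fin n₂) F)) (x : GL (Fin n₁) F) :
    g * psiK n₁ n₂ F x * g⁻¹ = psiK n₁ n₂ F (a * x * a⁻¹) := by
  rw [mul_inv_eq_iff_eq_mul]
  apply Units.ext
  rw [Units.val_mul, Units.val_mul, coe_psiK, coe_psiK, hg, ← Matrix.mul_kronecker_mul,
    ← Matrix.mul_kronecker_mul, mul_one, one_mul, ← Units.val_mul, ← Units.val_mul, inv_mul_cancel_right]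

variable [Fintype F]

/-- the overgroup -/
def tensK (hq : Fintype.card F = 2) (n₂ : ℕ) : Subgroup (GL (Fin 2 × Fin n₂) F) :=
  Subgroup.normalizer (((Subgroup.zpowers (omG hq)).map (psiK 2 n₂ F) : Subgroup (GL (Fin 2 × Fin n₂) F)) :
    Set (GL (Fin 2 × Fin n₂) F))

theorem kron_le_tensK (hq : Fintype.card F = 2) (n₂ : ℕ) : Geo.kroneckerSubgroup 2 n₂ F ≤ tensK hq n₂ := by
  have aux : ∀ g ∈ Geo.kroneckerSubgroup 2 n₂ F, ∀ h ∈ (Subgroup.zpowers (omG hq)).map (psiK 2 n₂ F),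
      g * h * g⁻¹ ∈ (Subgroup.zpowers (omG hq)).map (psiK 2 n₂ F) := by
    rintro g ⟨a, b, hg⟩ _ ⟨x, hx, rfl⟩
    rw [kron_conj_psi g a b hg x]
    exact ⟨_, (zpowers_omG_normal hq).conj_mem x hx a, rfl⟩
  intro g hg
  unfold tensK
  rw [Subgroup.mem_normalizer_iff]
  intro h
  constructor
  · exact aux g hg h
  · intro hh
    have := aux g⁻¹ (inv_mem hg) _ hh
    have e : g⁻¹ * (g * h * g⁻¹) * g⁻¹⁻¹ = h := by group
    rwa [e] at this

omit [Fintype F] in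
theorem one_add_sq {κ : Type} [Fintype κ] [DecidableEq κ] (h2 : (2 : F) = 0) (N : Matrix κ κ F)
    (hN : N * N = 0) : (1 + N) * (1 + N) = 1 := by
  have h3 : N + N = 0 := by rw [← two_smul F N, h2, zero_smul]
  rw [add_mul, mul_add, mul_add, hN]
  simp only [one_mul, mul_one, add_zero]
  rw [add_assoc, h3, add_zero]

/-- unipotent elements `1 + N`, `N² = 0`, in characteristic two -/
def unipG {κ : Type} [Fintype κ] [DecidableEq κ] (h2 : (2 : F) = 0) (N : Matrix κ κ F) (hN : N * N = 0) : GL κ F :=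
  ⟨1 + N, 1 + N, one_add_sq h2 N hN, one_add_sq h2 N hN⟩

theorem unipG_inv {κ : Type} [Fintype κ] [DecidableEq κ] (h2 : (2 : F) = 0) (N : Matrix κ κ F) (hN : N * N = 0) :
    (unipG h2 N hN)⁻¹ = unipG h2 N hN := rfl

theorem coe_unipG {κ : Type} [Fintype κ] [DecidableEq κ] (h2 : (2 : F) = 0) (N : Matrix κ κ F) (hN : N * N = 0) :
    ((unipG h2 N hN : GL κ F) : Matrix κ κ F) = 1 + N := rfl

theorem kron_lt_tensK (hq : Fintype.card F = 2) (n₂ : ℕ) (hn : 2 ≤ n₂) :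
    Geo.kroneckerSubgroup 2 n₂ F < tensK hq n₂ := by
  have h2 := two_eq_zero_of_card hq
  refine lt_of_le_of_ne (kron_le_tensK hq n₂) (fun he => ?_)
  obtain ⟨E, hE⟩ : ∃ E : Matrix (Fin n₂) (Fin n₂) F, E = Matrix.single ⟨0, by omega⟩ ⟨1, by omega⟩ 1 := ⟨_, rfl⟩
  have hEE : E * E = 0 := by
    rw [hE, Matrix.single_mul_single_of_ne]
    intro h
    have := congrArg Fin.val h
    simp at this
  have hN : ((omG hq : GL (Fin 2) F) : Matrix (Fin 2) (Fin 2) F) ⊗ₖ E *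
      (((omG hq : GL (Fin 2) F) : Matrix (Fin 2) (Fin 2) F) ⊗ₖ E) = 0 := by
    rw [← Matrix.mul_kronecker_mul, hEE, Matrix.kronecker_zero]
  have hk : unipG h2 _ hN ∈ tensK hq n₂ := by
    apply Subgroup.centralizer_le_normalizer
    rw [Subgroup.mem_centralizer_iff]
    rintro _ ⟨x, hx, rfl⟩
    obtain ⟨j, rfl⟩ := Subgroup.mem_zpowers_iff.1 hx
    have hc : Commute (psiK 2 n₂ F (omG hq)) (unipG h2 _ hN) := by
      apply Units.ext
      rw [Units.val_mul, Units.val_mul, coe_psiK, coe_unipG, mul_add, add_mul, mul_one, one_mul,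
        ← Matrix.mul_kronecker_mul, ← Matrix.mul_kronecker_mul, mul_one, one_mul]
    rw [map_zpow]
    exact (hc.zpow_left j)
  rw [← he] at hk
  obtain ⟨a, b, hab⟩ := hk
  rw [coe_unipG] at hab
  have e1 := congrFun (congrFun hab (0, ⟨0, by omega⟩)) (1, ⟨0, by omega⟩)
  have e2 := congrFun (congrFun hab (0, ⟨0, by omega⟩)) (0, ⟨0, by omega⟩)
  have e3 := congrFun (congrFun hab (0, ⟨0, by omega⟩)) (1, ⟨1, by omega⟩)
  simp [Matrix.kroneckerMap_apply, hE, coe_omG, Matrix.single_apply, Matrix.one_apply] at e1 e2 e3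
  rcases e1 with e1 | e1
  · rw [e1] at e3; simp at e3
  · rw [e1] at e2; simp at e2

theorem tensK_lt_top (hq : Fintype.card F = 2) (n₂ : ℕ) (hn : 2 ≤ n₂) : tensK hq n₂ < ⊤ := by
  have h2 := two_eq_zero_of_card hq
  rw [lt_top_iff_ne_top]
  intro he
  obtain ⟨E, hE⟩ : ∃ E : Matrix (Fin n₂) (Fin n₂) F, E = Matrix.single ⟨0, by omega⟩ ⟨1, by omega⟩ 1 := ⟨_, rfl⟩
  have hEE : E * E = 0 := by
    rw [hE, Matrix.single_mul_single_of_ne]
    intro h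
    have := congrArg Fin.val h
    simp at this
  obtain ⟨D, hD⟩ : ∃ D : Matrix (Fin 2) (Fin 2) F, D = Matrix.single 0 0 1 := ⟨_, rfl⟩
  have hN : D ⊗ₖ E * (D ⊗ₖ E) = 0 := by
    rw [← Matrix.mul_kronecker_mul, hEE, Matrix.kronecker_zero]
  have hg : unipG h2 _ hN ∈ tensK hq n₂ := by rw [he]; trivial
  unfold tensK at hg
  rw [Subgroup.mem_normalizer_iff] at hg
  obtain ⟨x, -, hx⟩ := (hg (psiK 2 n₂ F (omG hq))).1 ⟨omG hq, Subgroup.mem_zpowers _, rfl⟩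
  have h4 := congrArg (fun g : GL (Fin 2 × Fin n₂) F =>
    (g : Matrix (Fin 2 × Fin n₂) (Fin 2 × Fin n₂) F)) hx
  simp only [unipG_inv, Units.val_mul, coe_psiK, coe_unipG] at h4
  have hM : (1 + D ⊗ₖ E) * (((omG hq : GL (Fin 2) F) : Matrix (Fin 2) (Fin 2) F) ⊗ₖ
      (1 : Matrix (Fin n₂) (Fin n₂) F)) * (1 + D ⊗ₖ E) =
      ((omG hq : GL (Fin 2) F) : Matrix (Fin 2) (Fin 2) F) ⊗ₖ (1 : Matrix (Fin n₂) (Fin n₂) F) +
        (D * ((omG hq : GL (Fin 2) F) : Matrix (Fin 2) (Fin 2) F)) ⊗ₖ E +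
        (((omG hq : GL (Fin 2) F) : Matrix (Fin 2) (Fin 2) F) * D) ⊗ₖ E := by
    rw [add_mul, one_mul, mul_add, mul_one, add_mul]
    simp only [← Matrix.mul_kronecker_mul, mul_one, one_mul, hEE, Matrix.kronecker_zero, add_zero]
  rw [hM] at h4
  have h3 := congrFun (congrFun h4 (0, ⟨0, by omega⟩)) (1, ⟨1, by omega⟩)
  simp [Matrix.kroneckerMap_apply, hE, hD, coe_omG, Matrix.single_apply, Matrix.one_apply, Matrix.mul_apply,
    Fin.sum_univ_two] at h3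
  simp [Matrix.vecMul, dotProduct, Fin.sum_univ_two, Matrix.single_apply] at h3

end Cfsg.Agent.Lib.Helper15
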