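import Mathlib
import Cfsg.Agent.Lib.Helper15.TensNM2

set_option autoImplicit false
open Cfsg Matrix
open scoped Kronecker

namespace Cfsg.Agent.Lib.Helper15

variable {F : Type*} [Field F] [Fintype F]

theorem tensor_two_not_max (n : ℕ) (hn : 13 ≤ n) (hq : Fintype.card F = 2) (n₂ : ℕ)
    (e : Fin n ≃ Fin 2 × Fin n₂) (P : Matrix.GeneralLinearGroup (Fin n) F) :
    ∃ K : Subgroup (Matrix.GeneralLinearGroup (Fin n) F),
      Geo.tensorProductSubgroup 2 n₂ e P ⊓ Geo.specialLinear (Fin n) F < K ∧
        K < Geo.specialLinear (Fin n) F := by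
  have hn2 : 2 ≤ n₂ := by
    have := Fintype.card_congr e
    simp only [Fintype.card_fin, Fintype.card_prod] at this
    omega
  rw [specialLinear_eq_top hq, inf_top_eq]
  have i1 : Function.Injective ((Geo.glReindex (F := F) e.symm).toMonoidHom) := (Geo.glReindex e.symm).injective
  have i2 : Function.Injective ((MulAut.conj P).toMonoidHom) := (MulAut.conj P).injective
  refine ⟨((tensK hq n₂).map (Geo.glReindex e.symm).toMonoidHom).map (MulAut.conj P).toMonoidHom, ?_, ?_⟩
  · unfold Geo.tensorProductSubgroup
    rw [Subgroup.map_lt_map_iff_of_injective i2, Subgroup.map_lt_map_iff_of_injective i1]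
    exact kron_lt_tensK hq n₂ hn2
  · have h1 : (⊤ : Subgroup (GL (Fin n) F)) =
        ((⊤ : Subgroup (GL (Fin 2 × Fin n₂) F)).map (Geo.glReindex e.symm).toMonoidHom).map
          (MulAut.conj P).toMonoidHom := by
      have s1 : Function.Surjective ((Geo.glReindex (F := F) e.symm).toMonoidHom) :=
        (Geo.glReindex e.symm).surjective
      have s2 : Function.Surjective ((MulAut.conj P).toMonoidHom) := (MulAut.conj P).surjective
      rw [Subgroup.map_top_of_surjective _ s1, Subgroup.map_top_of_surjective _ s2]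
    rw [h1, Subgroup.map_lt_map_iff_of_injective i2, Subgroup.map_lt_map_iff_of_injective i1]
    exact tensK_lt_top hq n₂ hn2

end Cfsg.Agent.Lib.Helper15
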