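import Cfsg.Agent.Lib.Helper15.RankOne
import Cfsg.Prelude.Def_SporadicB

set_option autoImplicit false
open Cfsg QuadraticMap Matrix

namespace Cfsg.Agent.Lib.Helper15

variable {ι : Type} [Fintype ι] [DecidableEq ι]

theorem zmod2_eq_one : ∀ a : ZMod 2, a ≠ 0 → a = 1 := by decide

theorem zmod2_sub_comm : ∀ a b : ZMod 2, a - b = b - a := by decide

/-- all reflections with the same norm are conjugate -/
theorem isConj_refl {F : Type*} [Field F] (Q : QuadraticForm F (ι → F))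
    (hQ : (QuadraticMap.polarBilin Q).Nondegenerate) (u v : ι → F) (hu : Q u ≠ 0) (hv : Q v ≠ 0)
    (h : Q u = Q v) : IsConj (refl Q u hu) (refl Q v hv) := by
  have hu0 : u ≠ 0 := by rintro rfl; exact hu (by simp)
  have hv0 : v ≠ 0 := by rintro rfl; exact hv (by simp)
  obtain ⟨g, hg⟩ := exists_isometry_map Q hQ u v hu0 hv0 h
  rw [isConj_iff]
  refine ⟨g, ?_⟩
  rw [conj_refl Q g u hu (by rw [hg]; exact hv)]
  apply isometry_ext
  simp only [coe_refl]
  rw [hg]

theorem threeTransp_two (Q : QuadraticForm (ZMod 2) (ι → ZMod 2))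
    (hQ : (QuadraticMap.polarBilin Q).Nondegenerate) (hcard : Fintype.card ι ≠ 4)
    (hn : 2 ≤ Fintype.card ι) :
    IsThreeTranspositionClass {g : isometryGroup (ZMod 2) Q |
      (((g : Matrix.GeneralLinearGroup ι (ZMod 2)) : Matrix ι ι (ZMod 2)) - 1).rank = 1} := by
  rw [rank_one_set_eq Q hQ]
  obtain ⟨u₀, hu₀⟩ := exists_rep' Q hQ hn 1
  have hu₀' : Q u₀ ≠ 0 := by rw [hu₀]; exact one_ne_zero
  refine ⟨⟨?_, ?_⟩, ⟨refl Q u₀ hu₀', refl_mem_reflSet Q u₀ hu₀', ?_⟩, closure_refl_eq_top Q hQ (Or.inr hcard)⟩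
  · rintro d ⟨v, hv, hd⟩
    rw [eq_refl_of_coe Q d v hv hd]
    exact orderOf_refl Q hQ v hv
  · rintro d ⟨u, hu, hd⟩ e ⟨v, hv, he⟩
    rw [eq_refl_of_coe Q d u hu hd, eq_refl_of_coe Q e v hv he]
    by_cases h : polar Q u v = 0
    · left
      exact refl_mul_sq_of_orth Q u v hu hv h
    · right
      apply refl_mul_cube
      have h1 := zmod2_eq_one _ h
      congr 1
      rw [reflectionMatrix_mulVec, reflectionMatrix_mulVec, polar_comm Q v u, h1, zmod2_eq_one _ hu,
        zmod2_eq_one _ hv]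
      ext i
      simp only [inv_one, mul_one, one_smul, Pi.sub_apply]
      exact zmod2_sub_comm _ _
  · ext g
    show g ∈ reflSet Q ↔ IsConj (refl Q u₀ hu₀') g
    constructor
    · rintro ⟨v, hv, hg⟩
      rw [eq_refl_of_coe Q g v hv hg]
      exact isConj_refl Q hQ u₀ v hu₀' hv (by rw [hu₀, zmod2_eq_one _ hv])
    · intro hc
      obtain ⟨c, hc⟩ := isConj_iff.1 hc
      rw [← hc, conj_refl Q c u₀ hu₀' (by rw [isometry_apply Q c u₀]; exact hu₀')]
      exact refl_mem_reflSet _ _ _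

end Cfsg.Agent.Lib.Helper15
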