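import Cfsg.Agent.Lib.Helper15.ReflClass2
import Cfsg.Prelude.Def_SporadicB

set_option autoImplicit false
open Cfsg QuadraticMap Matrix Module

namespace Cfsg.Agent.Lib.Helper15

variable {ι : Type} [Fintype ι] [DecidableEq ι]

theorem zmod3_cases : ∀ a : ZMod 3, a ≠ 0 → a = 1 ∨ a = -1 := by decide

theorem conj_of_cube {G : Type*} [Group G] (x y : G) (hx : x * x = 1) (hy : y * y = 1)
    (h : (x * y) ^ 3 = 1) : (x * y) * x * (x * y)⁻¹ = y := by
  have hx' : x⁻¹ = x := inv_eq_of_mul_eq_one_left hx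
  have hy' : y⁻¹ = y := inv_eq_of_mul_eq_one_left hy
  rw [_root_.mul_inv_rev, hx', hy']
  have h1 : x * y * x * (y * x) * y = 1 := by
    rw [← h, pow_succ, pow_two]; group
  calc x * y * x * (y * x) = x * y * x * (y * x) * (y * y) := by rw [hy, mul_one]
    _ = (x * y * x * (y * x) * y) * y := by group
    _ = y := by rw [h1, one_mul]

theorem refl_cube_three (Q : QuadraticForm (ZMod 3) (ι → ZMod 3)) (u v : ι → ZMod 3) (hu : Q u ≠ 0)
    (hv : Q v ≠ 0) (huv : Q u = Q v) (h : polar Q u v ≠ 0) : (refl Q u hu * refl Q v hv) ^ 3 = 1 := by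
  apply refl_mul_cube
  rw [reflectionMatrix_mulVec, reflectionMatrix_mulVec, polar_comm Q v u, ← huv]
  rcases zmod3_cases _ (mul_ne_zero (inv_ne_zero hu) h) with h1 | h1
  · rw [h1, one_smul, one_smul]
    have : v - u = (-1 : ZMod 3) • (u - v) := by module
    rw [this, reflectionMatrix_smul Q _ (-1) (by decide)]
  · rw [h1]
    congr 1
    module

theorem threeTransp_three (Q : QuadraticForm (ZMod 3) (ι → ZMod 3))
    (hQ : (QuadraticMap.polarBilin Q).Nondegenerate) (hn : 4 ≤ Fintype.card ι) (c : ZMod 3) (hc : c ≠ 0) :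
    IsThreeTranspositionClass {g : reflectionSubgroup Q c |
      (g : isometryGroup (ZMod 3) Q) ∈ reflectionsOfNorm Q c} := by
  have hmem : ∀ (v : ι → ZMod 3) (hv : Q v ≠ 0), Q v = c → refl Q v hv ∈ reflectionSubgroup Q c :=
    fun v hv h => Subgroup.subset_closure ⟨v, h, rfl⟩
  have hconj1 : ∀ (u v : ι → ZMod 3) (hu : Q u ≠ 0) (hv : Q v ≠ 0) (hu' : Q u = c) (hv' : Q v = c),
      polar Q u v ≠ 0 → IsConj (⟨refl Q u hu, hmem u hu hu'⟩ : reflectionSubgroup Q c)
        ⟨refl Q v hv, hmem v hv hv'⟩ := by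
    intro u v hu hv hu' hv' h
    rw [isConj_iff]
    refine ⟨⟨refl Q u hu, hmem u hu hu'⟩ * ⟨refl Q v hv, hmem v hv hv'⟩, ?_⟩
    apply Subtype.ext
    exact conj_of_cube _ _ (refl_mul_self Q u hu) (refl_mul_self Q v hv)
      (refl_cube_three Q u v hu hv (by rw [hu', hv']) h)
  have hconj : ∀ (u v : ι → ZMod 3) (hu : Q u ≠ 0) (hv : Q v ≠ 0) (hu' : Q u = c) (hv' : Q v = c),
      IsConj (⟨refl Q u hu, hmem u hu hu'⟩ : reflectionSubgroup Q c) ⟨refl Q v hv, hmem v hv hv'⟩ := by
    intro u v hu hv hu' hv'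
    by_cases h : polar Q u v = 0
    · set H : Submodule (ZMod 3) (ι → ZMod 3) := Submodule.span (ZMod 3) {u, v} with hH
      have hdisj : Disjoint H (LinearMap.BilinForm.orthogonal (polarBilin Q) H) := by
        rw [Submodule.disjoint_def]
        intro x hx hx'
        rw [LinearMap.BilinForm.mem_orthogonal_iff] at hx'
        obtain ⟨α, β, rfl⟩ := Submodule.mem_span_pair.1 hx
        have e1 : polar Q u (α • u + β • v) = 0 := hx' u (Submodule.subset_span (by simp))
        have e2 : polar Q v (α • u + β • v) = 0 := hx' v (Submodule.subset_span (by simp))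
        simp only [polar_add_right, polar_smul_right, polar_self, h, polar_comm Q v u, smul_eq_mul,
          mul_zero, add_zero, zero_add] at e1 e2
        have hα : α = 0 := by
          have : α * (2 * Q u) = 0 := by simpa using e1
          exact (mul_eq_zero.1 this).resolve_right (mul_ne_zero (by decide) hu)
        have hβ : β = 0 := by
          have : β * (2 * Q v) = 0 := by simpa using e2
          exact (mul_eq_zero.1 this).resolve_right (mul_ne_zero (by decide) hv)
        rw [hα, hβ]; simp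
      have hfr : finrank (ZMod 3) H ≤ 2 := by
        classical
        have := finrank_span_finset_le_card (R := ZMod 3) ({u, v} : Finset (ι → ZMod 3))
        have h6 : ({u, v} : Finset (ι → ZMod 3)).card ≤ 2 := Finset.card_le_two
        have h7 : ((({u, v} : Finset (ι → ZMod 3)) : Set (ι → ZMod 3))) = {u, v} := by simp
        rw [h7] at this
        exact this.trans h6
      obtain ⟨y, hy, hQy⟩ := exists_orth_rep Q hQ H hdisj (by omega) (-c)
      have hyu : polar Q u y = 0 := hy u (Submodule.subset_span (by simp))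
      have hyv : polar Q v y = 0 := hy v (Submodule.subset_span (by simp))
      have hQw : Q (u + v + y) = c := by
        rw [QuadraticMap.map_add Q, QuadraticMap.map_add Q, polar_add_left, hu', hv', hQy, h, hyu, hyv]
        ring
      have hw : Q (u + v + y) ≠ 0 := by rw [hQw]; exact hc
      have h2c : 2 * c ≠ 0 := mul_ne_zero (by decide) hc
      refine (hconj1 u (u + v + y) hu hw hu' hQw ?_).trans (hconj1 (u + v + y) v hw hv hQw hv' ?_)
      · rw [polar_add_right, polar_add_right, polar_self, h, hyu, hu']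
        simpa using h2c
      · rw [polar_add_left, polar_add_left, polar_self, h, polar_comm Q y v, hyv, hv']
        simpa using h2c
    · exact hconj1 u v hu hv hu' hv' h
  obtain ⟨u₀, hu₀⟩ := exists_rep' Q hQ (by omega) c
  have hu₀' : Q u₀ ≠ 0 := by rw [hu₀]; exact hc
  refine ⟨⟨?_, ?_⟩, ⟨⟨refl Q u₀ hu₀', hmem u₀ hu₀' hu₀⟩, ⟨u₀, hu₀, rfl⟩, ?_⟩, ?_⟩
  · rintro ⟨d, hdR⟩ ⟨v, hv, hd⟩
    have hv0 : Q v ≠ 0 := by rw [hv]; exact hc
    rw [← Subgroup.orderOf_coe]
    show orderOf d = 2
    rw [eq_refl_of_coe Q d v hv0 hd]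
    exact orderOf_refl Q hQ v hv0
  · rintro ⟨d, hdR⟩ ⟨u, hu, hd⟩ ⟨e, heR⟩ ⟨v, hv, he⟩
    have hu0 : Q u ≠ 0 := by rw [hu]; exact hc
    have hv0 : Q v ≠ 0 := by rw [hv]; exact hc
    have hd' := eq_refl_of_coe Q d u hu0 hd
    have he' := eq_refl_of_coe Q e v hv0 he
    subst hd' he'
    by_cases h : polar Q u v = 0
    · left
      apply Subtype.ext
      exact refl_mul_sq_of_orth Q u v hu0 hv0 h
    · right
      apply Subtype.ext
      exact refl_cube_three Q u v hu0 hv0 (by rw [hu, hv]) h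
  · ext ⟨g, hgR⟩
    show g ∈ reflectionsOfNorm Q c ↔ IsConj _ _
    constructor
    · rintro ⟨v, hv, hg⟩
      have hv0 : Q v ≠ 0 := by rw [hv]; exact hc
      have hg' := eq_refl_of_coe Q g v hv0 hg
      subst hg'
      exact hconj u₀ v hu₀' hv0 hu₀ hv
    · intro hcj
      obtain ⟨⟨k, hk⟩, hck⟩ := isConj_iff.1 hcj
      have h1 : k * refl Q u₀ hu₀' * k⁻¹ = g := congrArg Subtype.val hck
      rw [← h1, conj_refl Q k u₀ hu₀' (by rw [isometry_apply Q k u₀]; exact hu₀')]
      exact ⟨_, by rw [isometry_apply Q k u₀]; exact hu₀, rfl⟩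
  · exact Subgroup.closure_closure_coe_preimage

end Cfsg.Agent.Lib.Helper15
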